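import Cfsg.Agent.Lib.H35.TCM22A.Chk
set_option Elab.async false
set_option autoImplicit false
set_option maxRecDepth 100000
set_option linter.all false
namespace H35.TCM22A
open H35.TC
theorem r_0 : allB chkP 9 0 = true := by decide +kernel
theorem r_1 : allB chkP 9 512 = true := by decide +kernel
theorem r_2 : allB chkP 9 1024 = true := by decide +kernel
theorem r_3 : allB chkP 9 1536 = true := by decide +kernel
theorem r_4 : allB chkP 9 2048 = true := by decide +kernel
theorem r_5 : allB chkP 9 2560 = true := by decide +kernel
theorem r_6 : allB chkP 9 3072 = true := by decide +kernel
theorem r_7 : allB chkP 9 3584 = true := by decide +kernel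
theorem r_8 : allB chkP 9 4096 = true := by decide +kernel
theorem r_9 : allB chkP 9 4608 = true := by decide +kernel
theorem r_10 : allB chkP 9 5120 = true := by decide +kernel
theorem r_11 : allB chkP 9 5632 = true := by decide +kernel
theorem r_12 : allB chkP 9 6144 = true := by decide +kernel
theorem r_13 : allB chkP 9 6656 = true := by decide +kernel
theorem r_14 : allB chkP 9 7168 = true := by decide +kernel
theorem r_15 : allB chkP 9 7680 = true := by decide +kernel
theorem r_16 : allB chkP 9 8192 = true := by decide +kernel
theorem r_17 : allB chkP 9 8704 = true := by decide +kernel
theorem r_18 : allB chkP 9 9216 = true := by decide +kernel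
theorem r_19 : allB chkP 9 9728 = true := by decide +kernel
theorem r_20 : allB chkP 9 10240 = true := by decide +kernel
theorem r_21 : allB chkP 9 10752 = true := by decide +kernel
theorem r_22 : allB chkP 9 11264 = true := by decide +kernel
theorem r_23 : allB chkP 9 11776 = true := by decide +kernel
theorem r_24 : allB chkP 9 12288 = true := by decide +kernel
theorem r_25 : allB chkP 9 12800 = true := by decide +kernel
theorem r_26 : allB chkP 9 13312 = true := by decide +kernel
end H35.TCM22A
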