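import Cfsg.Agent.Lib.H35.TCM22A.Chk
set_option autoImplicit false
set_option maxRecDepth 100000
set_option linter.all false
namespace H35.TCM22A
open H35.TC
section
variable {G : Type} [Group G] {g : Lt → G} {H : Subgroup G}
/-- hypotheses -/
abbrev Hy (g : Lt → G) (H : Subgroup G) : Prop := (∀ x, g (inv x) = (g x)⁻¹) ∧ (∀ r ∈ rels, (r.map g).prod = 1) ∧ ∀ r ∈ subs, (r.map g).prod ∈ H
theorem hM0 : 0 < M := by decide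
theorem hat {r W : List Lt} {x : Lt} (hr : (r.map g).prod = 1) (k : ℕ) (h : r.drop k ++ r.take k = W ++ [x]) (z : G ⧸ H) : fa g x (act (fa g) W z) = z := hole_at hr k h z
theorem pat (hy : Hy g H) {r W1 W2 : List Lt} (hr : (r.map g).prod = 1) (k : ℕ) (h : r.drop k ++ r.take k = W1 ++ (W2.map inv).reverse) (z : G ⧸ H) : act (fa g) W1 z = act (fa g) W2 z := pair_at hy.1 hr k h z
theorem ivt (hy : Hy g H) (x x' : Lt) (hx : inv x = x') (z : G ⧸ H) : fa g x (fa g x' z) = z := inv_rel hy.1 x x' hx z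
theorem rf_0 (hy : Hy g H) : (([.d, .d, .d] : List Lt).map g).prod = 1 := hy.2.1 _ (by decide +kernel)
theorem rb_0 (hy : Hy g H) : (([.di, .di, .di] : List Lt).map g).prod = 1 := inv_at hy.1 (rf_0 hy)
theorem rf_1 (hy : Hy g H) : (([.b, .b, .b] : List Lt).map g).prod = 1 := hy.2.1 _ (by decide +kernel)
theorem rb_1 (hy : Hy g H) : (([.bi, .bi, .bi] : List Lt).map g).prod = 1 := inv_at hy.1 (rf_1 hy)
theorem rf_2 (hy : Hy g H) : (([.a, .b, .a, .b, .a, .b] : List Lt).map g).prod = 1 := hy.2.1 _ (by decide +kernel)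
theorem rb_2 (hy : Hy g H) : (([.bi, .ai, .bi, .ai, .bi, .ai] : List Lt).map g).prod = 1 := inv_at hy.1 (rf_2 hy)
theorem rf_3 (hy : Hy g H) : (([.a, .a, .b, .ai, .b, .ai, .bi, .a, .bi] : List Lt).map g).prod = 1 := hy.2.1 _ (by decide +kernel)
theorem rb_3 (hy : Hy g H) : (([.b, .ai, .b, .a, .bi, .a, .bi, .ai, .ai] : List Lt).map g).prod = 1 := inv_at hy.1 (rf_3 hy)
theorem rf_4 (hy : Hy g H) : (([.d, .ai, .b, .a, .a, .di, .b, .a, .a, .a] : List Lt).map g).prod = 1 := hy.2.1 _ (by decide +kernel)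
theorem rb_4 (hy : Hy g H) : (([.ai, .ai, .ai, .bi, .d, .ai, .ai, .bi, .a, .di] : List Lt).map g).prod = 1 := inv_at hy.1 (rf_4 hy)
theorem rf_5 (hy : Hy g H) : (([.b, .ai, .b, .d, .b, .b, .a, .bi, .di, .bi, .a, .bi, .d] : List Lt).map g).prod = 1 := hy.2.1 _ (by decide +kernel)
theorem rb_5 (hy : Hy g H) : (([.di, .b, .ai, .b, .d, .b, .ai, .bi, .bi, .di, .bi, .a, .bi] : List Lt).map g).prod = 1 := inv_at hy.1 (rf_5 hy)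
theorem rf_6 (hy : Hy g H) : (([.d, .a, .d, .bi, .ai, .d, .a, .b, .di, .ai, .di, .a, .b] : List Lt).map g).prod = 1 := hy.2.1 _ (by decide +kernel)
theorem rb_6 (hy : Hy g H) : (([.bi, .ai, .d, .a, .d, .bi, .ai, .di, .a, .b, .di, .ai, .di] : List Lt).map g).prod = 1 := inv_at hy.1 (rf_6 hy)
theorem rf_7 (hy : Hy g H) : (([.d, .bi, .di, .ai, .b, .di, .bi, .a, .d, .b, .di, .a, .b, .ai] : List Lt).map g).prod = 1 := hy.2.1 _ (by decide +kernel)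
theorem rb_7 (hy : Hy g H) : (([.a, .bi, .ai, .d, .bi, .di, .ai, .b, .d, .bi, .a, .d, .b, .di] : List Lt).map g).prod = 1 := inv_at hy.1 (rf_7 hy)
theorem rf_8 (hy : Hy g H) : (([.d, .b, .a, .bi, .d, .bi, .di, .b, .ai, .bi, .di, .a, .b, .ai, .b] : List Lt).map g).prod = 1 := hy.2.1 _ (by decide +kernel)
theorem rb_8 (hy : Hy g H) : (([.bi, .a, .bi, .ai, .d, .b, .a, .bi, .d, .b, .di, .b, .ai, .bi, .di] : List Lt).map g).prod = 1 := inv_at hy.1 (rf_8 hy)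
theorem rf_9 (hy : Hy g H) : (([.a, .ai] : List Lt).map g).prod = 1 := hy.2.1 _ (by decide +kernel)
theorem rb_9 (hy : Hy g H) : (([.a, .ai] : List Lt).map g).prod = 1 := inv_at hy.1 (rf_9 hy)
theorem rf_10 (hy : Hy g H) : (([.ai, .a] : List Lt).map g).prod = 1 := hy.2.1 _ (by decide +kernel)
theorem rb_10 (hy : Hy g H) : (([.ai, .a] : List Lt).map g).prod = 1 := inv_at hy.1 (rf_10 hy)
theorem rf_11 (hy : Hy g H) : (([.b, .bi] : List Lt).map g).prod = 1 := hy.2.1 _ (by decide +kernel)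
theorem rb_11 (hy : Hy g H) : (([.b, .bi] : List Lt).map g).prod = 1 := inv_at hy.1 (rf_11 hy)
theorem rf_12 (hy : Hy g H) : (([.bi, .b] : List Lt).map g).prod = 1 := hy.2.1 _ (by decide +kernel)
theorem rb_12 (hy : Hy g H) : (([.bi, .b] : List Lt).map g).prod = 1 := inv_at hy.1 (rf_12 hy)
theorem rf_13 (hy : Hy g H) : (([.d, .di] : List Lt).map g).prod = 1 := hy.2.1 _ (by decide +kernel)
theorem rb_13 (hy : Hy g H) : (([.d, .di] : List Lt).map g).prod = 1 := inv_at hy.1 (rf_13 hy)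
theorem rf_14 (hy : Hy g H) : (([.di, .d] : List Lt).map g).prod = 1 := hy.2.1 _ (by decide +kernel)
theorem rb_14 (hy : Hy g H) : (([.di, .d] : List Lt).map g).prod = 1 := inv_at hy.1 (rf_14 hy)
/-- the points of the nodes -/
noncomputable def cP (g : Lt → G) (H : Subgroup G) : ℕ → G ⧸ H := cc (fa g) lt P ((1 : G) : G ⧸ H)
/-- soundness of an entry -/
abbrev Gd (g : Lt → G) (H : Subgroup G) (x : Lt) (u : ℕ) : Prop := Good (fa g) T MG M (cP g H) x u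
/-- soundness of a merge -/
abbrev GdM (g : Lt → G) (H : Subgroup G) (u : ℕ) : Prop := GoodM (fa g) T MG M (cP g H) u
theorem dp_a_0_s (hy : Hy g H)
    (j u : ℕ) (hu : u < M) (h : dp_a_0 j u = true) : Gd g H Lt.a u := by
  unfold dp_a_0 at h
  rcases brec_true h with h | h
  · exact lS_good (T := T) (x := Lt.a) hM0 hu [Lt.ai] (hat (rf_9 hy) 1 rfl) h
  · exact lF_good (T := T) (x := Lt.a) hM0 [Lt.b, Lt.ai, Lt.b, Lt.ai, Lt.bi, Lt.a, Lt.bi, Lt.a] (hat (rf_3 hy) 2 rfl) h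
theorem dp_a_1_s (hy : Hy g H)
    (j u : ℕ) (hu : u < M) (h : dp_a_1 j u = true) : Gd g H Lt.a u := by
  unfold dp_a_1 at h
  rcases brec_true h with h | h
  · exact lF_good (T := T) (x := Lt.a) hM0 [Lt.a, Lt.b, Lt.ai, Lt.b, Lt.ai, Lt.bi, Lt.a, Lt.bi] (hat (rf_3 hy) 1 rfl) h
  · exact lF_good (T := T) (x := Lt.a) hM0 [Lt.d, Lt.ai, Lt.b, Lt.a, Lt.a, Lt.di, Lt.b, Lt.a, Lt.a] (hat (rf_4 hy) 0 rfl) h
theorem dp_a_2_s (hy : Hy g H)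
    (j u : ℕ) (hu : u < M) (h : dp_a_2 j u = true) : Gd g H Lt.a u := by
  unfold dp_a_2 at h
  rcases brec_true h with h | h
  · exact lS_good (T := T) (x := Lt.a) hM0 hu [Lt.b, Lt.a, Lt.b, Lt.a, Lt.b] (hat (rf_2 hy) 1 rfl) h
  · exact lF_good (T := T) (x := Lt.a) hM0 [Lt.di, Lt.b, Lt.a, Lt.a, Lt.a, Lt.d, Lt.ai, Lt.b, Lt.a] (hat (rf_4 hy) 5 rfl) h
theorem dp_a_3_s (hy : Hy g H)
    (j u : ℕ) (hu : u < M) (h : dp_a_3 j u = true) : Gd g H Lt.a u := by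
  unfold dp_a_3 at h
  rcases brec_true h with h | h
  · exact lF_good (T := T) (x := Lt.a) hM0 [Lt.di, Lt.ai, Lt.ai, Lt.ai, Lt.bi, Lt.d, Lt.ai, Lt.ai, Lt.bi] (hat (rb_4 hy) 9 rfl) h
  · exact dp_a_2_s hy j u hu h
theorem dp_a_4_s (hy : Hy g H)
    (j u : ℕ) (hu : u < M) (h : dp_a_4 j u = true) : Gd g H Lt.a u := by
  unfold dp_a_4 at h
  rcases brec_true h with h | h
  · exact dp_a_1_s hy j u hu h
  · exact dp_a_3_s hy j u hu h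
theorem dp_a_5_s (hy : Hy g H)
    (j u : ℕ) (hu : u < M) (h : dp_a_5 j u = true) : Gd g H Lt.a u := by
  unfold dp_a_5 at h
  rcases brec_true h with h | h
  · exact lF_good (T := T) (x := Lt.a) hM0 [Lt.bi, Lt.ai, Lt.ai, Lt.b, Lt.ai, Lt.b, Lt.a, Lt.bi] (hat (rb_3 hy) 6 rfl) h
  · exact lS_good (T := T) (x := Lt.a) hM0 hu [Lt.b, Lt.ai, Lt.b, Lt.ai, Lt.bi, Lt.a, Lt.bi, Lt.a] (hat (rf_3 hy) 2 rfl) h
theorem dp_a_6_s (hy : Hy g H)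
    (j u : ℕ) (hu : u < M) (h : dp_a_6 j u = true) : Gd g H Lt.a u := by
  unfold dp_a_6 at h
  rcases brec_true h with h | h
  · exact lF_good (T := T) (x := Lt.a) hM0 [Lt.bi, Lt.a, Lt.a, Lt.b, Lt.ai, Lt.b, Lt.ai, Lt.bi] (hat (rf_3 hy) 8 rfl) h
  · exact dp_a_5_s hy j u hu h
theorem dp_a_7_s (hy : Hy g H)
    (j u : ℕ) (hu : u < M) (h : dp_a_7 j u = true) : Gd g H Lt.a u := by
  unfold dp_a_7 at h
  rcases brec_true h with h | h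
  · exact lS_good (T := T) (x := Lt.a) hM0 hu [Lt.di, Lt.ai, Lt.ai, Lt.ai, Lt.bi, Lt.d, Lt.ai, Lt.ai, Lt.bi] (hat (rb_4 hy) 9 rfl) h
  · exact lS_good (T := T) (x := Lt.a) hM0 hu [Lt.di, Lt.b, Lt.a, Lt.a, Lt.a, Lt.d, Lt.ai, Lt.b, Lt.a] (hat (rf_4 hy) 5 rfl) h
theorem dp_a_8_s (hy : Hy g H)
    (j u : ℕ) (hu : u < M) (h : dp_a_8 j u = true) : Gd g H Lt.a u := by
  unfold dp_a_8 at h
  rcases brec_true h with h | h
  · exact lF_good (T := T) (x := Lt.a) hM0 [Lt.a, Lt.d, Lt.ai, Lt.b, Lt.a, Lt.a, Lt.di, Lt.b, Lt.a] (hat (rf_4 hy) 9 rfl) h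
  · exact lF_good (T := T) (x := Lt.a) hM0 [Lt.a, Lt.a, Lt.d, Lt.ai, Lt.b, Lt.a, Lt.a, Lt.di, Lt.b] (hat (rf_4 hy) 8 rfl) h
theorem dp_a_9_s (hy : Hy g H)
    (j u : ℕ) (hu : u < M) (h : dp_a_9 j u = true) : Gd g H Lt.a u := by
  unfold dp_a_9 at h
  rcases brec_true h with h | h
  · exact lS_good (T := T) (x := Lt.a) hM0 hu [Lt.d, Lt.ai, Lt.b, Lt.a, Lt.a, Lt.di, Lt.b, Lt.a, Lt.a] (hat (rf_4 hy) 0 rfl) h
  · exact dp_a_8_s hy j u hu h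
theorem dp_a_10_s (hy : Hy g H)
    (j u : ℕ) (hu : u < M) (h : dp_a_10 j u = true) : Gd g H Lt.a u := by
  unfold dp_a_10 at h
  rcases brec_true h with h | h
  · exact dp_a_7_s hy j u hu h
  · exact dp_a_9_s hy j u hu h
theorem dp_a_11_s (hy : Hy g H)
    (j u : ℕ) (hu : u < M) (h : dp_a_11 j u = true) : Gd g H Lt.a u := by
  unfold dp_a_11 at h
  rcases brec_true h with h | h
  · exact dp_a_6_s hy j u hu h
  · exact dp_a_10_s hy j u hu h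
theorem dp_a_12_s (hy : Hy g H)
    (j u : ℕ) (hu : u < M) (h : dp_a_12 j u = true) : Gd g H Lt.a u := by
  unfold dp_a_12 at h
  rcases brec_true h with h | h
  · exact lS_good (T := T) (x := Lt.a) hM0 hu [Lt.a, Lt.b, Lt.ai, Lt.b, Lt.ai, Lt.bi, Lt.a, Lt.bi] (hat (rf_3 hy) 1 rfl) h
  · exact lF_good (T := T) (x := Lt.a) hM0 [Lt.a, Lt.di, Lt.b, Lt.a, Lt.a, Lt.a, Lt.d, Lt.ai, Lt.b] (hat (rf_4 hy) 4 rfl) h
theorem dp_a_13_s (hy : Hy g H)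
    (j u : ℕ) (hu : u < M) (h : dp_a_13 j u = true) : Gd g H Lt.a u := by
  unfold dp_a_13 at h
  rcases brec_true h with h | h
  · exact lS_good (T := T) (x := Lt.a) hM0 hu [Lt.bi, Lt.a, Lt.a, Lt.b, Lt.ai, Lt.b, Lt.ai, Lt.bi] (hat (rf_3 hy) 8 rfl) h
  · exact dp_a_12_s hy j u hu h
theorem dp_a_14_s (hy : Hy g H)
    (j u : ℕ) (hu : u < M) (h : dp_a_14 j u = true) : Gd g H Lt.a u := by
  unfold dp_a_14 at h
  rcases brec_true h with h | h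
  · exact lS_good (T := T) (x := Lt.a) hM0 hu [Lt.bi, Lt.ai, Lt.ai, Lt.b, Lt.ai, Lt.b, Lt.a, Lt.bi] (hat (rb_3 hy) 6 rfl) h
  · exact lS_good (T := T) (x := Lt.a) hM0 hu [Lt.a, Lt.a, Lt.d, Lt.ai, Lt.b, Lt.a, Lt.a, Lt.di, Lt.b] (hat (rf_4 hy) 8 rfl) h
theorem dp_a_15_s (hy : Hy g H)
    (j u : ℕ) (hu : u < M) (h : dp_a_15 j u = true) : Gd g H Lt.a u := by
  unfold dp_a_15 at h
  rcases brec_true h with h | h
  · exact lF_good (T := T) (x := Lt.a) hM0 [Lt.bi, Lt.a, Lt.bi, Lt.ai, Lt.ai, Lt.b, Lt.ai, Lt.b] (hat (rb_3 hy) 4 rfl) h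
  · exact dp_a_14_s hy j u hu h
theorem dp_a_16_s (hy : Hy g H)
    (j u : ℕ) (hu : u < M) (h : dp_a_16 j u = true) : Gd g H Lt.a u := by
  unfold dp_a_16 at h
  rcases brec_true h with h | h
  · exact dp_a_13_s hy j u hu h
  · exact dp_a_15_s hy j u hu h
theorem dp_a_17_s (hy : Hy g H)
    (j u : ℕ) (hu : u < M) (h : dp_a_17 j u = true) : Gd g H Lt.a u := by
  unfold dp_a_17 at h
  rcases brec_true h with h | h
  · exact lS_good (T := T) (x := Lt.a) hM0 hu [Lt.d, Lt.bi, Lt.ai, Lt.d, Lt.a, Lt.b, Lt.di, Lt.ai, Lt.di, Lt.a, Lt.b, Lt.d] (hat (rf_6 hy) 2 rfl) h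
  · exact lS_good (T := T) (x := Lt.a) hM0 hu [Lt.a, Lt.d, Lt.ai, Lt.b, Lt.a, Lt.a, Lt.di, Lt.b, Lt.a] (hat (rf_4 hy) 9 rfl) h
theorem dp_a_18_s (hy : Hy g H)
    (j u : ℕ) (hu : u < M) (h : dp_a_18 j u = true) : Gd g H Lt.a u := by
  unfold dp_a_18 at h
  rcases brec_true h with h | h
  · exact lS_good (T := T) (x := Lt.a) hM0 hu [Lt.d, Lt.bi, Lt.ai, Lt.di, Lt.a, Lt.b, Lt.di, Lt.ai, Lt.di, Lt.bi, Lt.ai, Lt.d] (hat (rb_6 hy) 4 rfl) h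
  · exact lS_good (T := T) (x := Lt.a) hM0 hu [Lt.bi, Lt.a, Lt.bi, Lt.ai, Lt.ai, Lt.b, Lt.ai, Lt.b] (hat (rb_3 hy) 4 rfl) h
theorem dp_a_19_s (hy : Hy g H)
    (j u : ℕ) (hu : u < M) (h : dp_a_19 j u = true) : Gd g H Lt.a u := by
  unfold dp_a_19 at h
  rcases brec_true h with h | h
  · exact lS_good (T := T) (x := Lt.a) hM0 hu [Lt.a, Lt.di, Lt.b, Lt.a, Lt.a, Lt.a, Lt.d, Lt.ai, Lt.b] (hat (rf_4 hy) 4 rfl) h
  · exact dp_a_18_s hy j u hu h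
theorem dp_a_20_s (hy : Hy g H)
    (j u : ℕ) (hu : u < M) (h : dp_a_20 j u = true) : Gd g H Lt.a u := by
  unfold dp_a_20 at h
  rcases brec_true h with h | h
  · exact dp_a_17_s hy j u hu h
  · exact dp_a_19_s hy j u hu h
theorem dp_a_21_s (hy : Hy g H)
    (j u : ℕ) (hu : u < M) (h : dp_a_21 j u = true) : Gd g H Lt.a u := by
  unfold dp_a_21 at h
  rcases brec_true h with h | h
  · exact lS_good (T := T) (x := Lt.a) hM0 hu [Lt.b, Lt.di, Lt.ai, Lt.di, Lt.bi, Lt.ai, Lt.d, Lt.a, Lt.d, Lt.bi, Lt.ai, Lt.di] (hat (rb_6 hy) 9 rfl) h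
  · exact lS_good (T := T) (x := Lt.a) hM0 hu [Lt.bi, Lt.d, Lt.b, Lt.ai, Lt.b, Lt.d, Lt.b, Lt.b, Lt.a, Lt.bi, Lt.di, Lt.bi] (hat (rf_5 hy) 11 rfl) h
theorem dp_a_22_s (hy : Hy g H)
    (j u : ℕ) (hu : u < M) (h : dp_a_22 j u = true) : Gd g H Lt.a u := by
  unfold dp_a_22 at h
  rcases brec_true h with h | h
  · exact lS_good (T := T) (x := Lt.a) hM0 hu [Lt.b, Lt.d, Lt.a, Lt.d, Lt.bi, Lt.ai, Lt.d, Lt.a, Lt.b, Lt.di, Lt.ai, Lt.di] (hat (rf_6 hy) 12 rfl) h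
  · exact dp_a_21_s hy j u hu h
theorem dp_a_23_s (hy : Hy g H)
    (j u : ℕ) (hu : u < M) (h : dp_a_23 j u = true) : Gd g H Lt.a u := by
  unfold dp_a_23 at h
  rcases brec_true h with h | h
  · exact lF_good (T := T) (x := Lt.a) hM0 [Lt.d, Lt.bi, Lt.ai, Lt.di, Lt.a, Lt.b, Lt.di, Lt.ai, Lt.di, Lt.bi, Lt.ai, Lt.d] (hat (rb_6 hy) 4 rfl) h
  · exact lS_good (T := T) (x := Lt.a) hM0 hu [Lt.b, Lt.di, Lt.ai, Lt.di, Lt.a, Lt.b, Lt.d, Lt.a, Lt.d, Lt.bi, Lt.ai, Lt.d] (hat (rf_6 hy) 7 rfl) h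
theorem dp_a_24_s (hy : Hy g H)
    (j u : ℕ) (hu : u < M) (h : dp_a_24 j u = true) : Gd g H Lt.a u := by
  unfold dp_a_24 at h
  rcases brec_true h with h | h
  · exact lF_good (T := T) (x := Lt.a) hM0 [Lt.d, Lt.bi, Lt.ai, Lt.d, Lt.a, Lt.b, Lt.di, Lt.ai, Lt.di, Lt.a, Lt.b, Lt.d] (hat (rf_6 hy) 2 rfl) h
  · exact dp_a_23_s hy j u hu h
theorem dp_a_25_s (hy : Hy g H)
    (j u : ℕ) (hu : u < M) (h : dp_a_25 j u = true) : Gd g H Lt.a u := by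
  unfold dp_a_25 at h
  rcases brec_true h with h | h
  · exact dp_a_22_s hy j u hu h
  · exact dp_a_24_s hy j u hu h
theorem dp_a_26_s (hy : Hy g H)
    (j u : ℕ) (hu : u < M) (h : dp_a_26 j u = true) : Gd g H Lt.a u := by
  unfold dp_a_26 at h
  rcases brec_true h with h | h
  · exact lS_good (T := T) (x := Lt.a) hM0 hu [Lt.bi, Lt.di, Lt.b, Lt.ai, Lt.b, Lt.d, Lt.b, Lt.ai, Lt.bi, Lt.bi, Lt.di, Lt.bi] (hat (rb_5 hy) 12 rfl) h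
  · exact lF_good (T := T) (x := Lt.a) hM0 [Lt.bi, Lt.di, Lt.bi, Lt.a, Lt.bi, Lt.d, Lt.b, Lt.ai, Lt.b, Lt.d, Lt.b, Lt.b] (hat (rf_5 hy) 7 rfl) h
theorem dp_a_27_s (hy : Hy g H)
    (j u : ℕ) (hu : u < M) (h : dp_a_27 j u = true) : Gd g H Lt.a u := by
  unfold dp_a_27 at h
  rcases brec_true h with h | h
  · exact lS_good (T := T) (x := Lt.a) hM0 hu [Lt.bi, Lt.di, Lt.bi, Lt.a, Lt.bi, Lt.d, Lt.b, Lt.ai, Lt.b, Lt.d, Lt.b, Lt.b] (hat (rf_5 hy) 7 rfl) h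
  · exact lF_good (T := T) (x := Lt.a) hM0 [Lt.b, Lt.di, Lt.ai, Lt.di, Lt.bi, Lt.ai, Lt.d, Lt.a, Lt.d, Lt.bi, Lt.ai, Lt.di] (hat (rb_6 hy) 9 rfl) h
theorem dp_a_28_s (hy : Hy g H)
    (j u : ℕ) (hu : u < M) (h : dp_a_28 j u = true) : Gd g H Lt.a u := by
  unfold dp_a_28 at h
  rcases brec_true h with h | h
  · exact dp_a_26_s hy j u hu h
  · exact dp_a_27_s hy j u hu h
theorem dp_a_29_s (hy : Hy g H)
    (j u : ℕ) (hu : u < M) (h : dp_a_29 j u = true) : Gd g H Lt.a u := by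
  unfold dp_a_29 at h
  rcases brec_true h with h | h
  · exact lF_good (T := T) (x := Lt.a) hM0 [Lt.bi, Lt.d, Lt.b, Lt.ai, Lt.b, Lt.d, Lt.b, Lt.b, Lt.a, Lt.bi, Lt.di, Lt.bi] (hat (rf_5 hy) 11 rfl) h
  · exact lF_good (T := T) (x := Lt.a) hM0 [Lt.b, Lt.d, Lt.a, Lt.d, Lt.bi, Lt.ai, Lt.d, Lt.a, Lt.b, Lt.di, Lt.ai, Lt.di] (hat (rf_6 hy) 12 rfl) h
theorem dp_a_30_s (hy : Hy g H)
    (j u : ℕ) (hu : u < M) (h : dp_a_30 j u = true) : Gd g H Lt.a u := by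
  unfold dp_a_30 at h
  rcases brec_true h with h | h
  · exact lF_good (T := T) (x := Lt.a) hM0 [Lt.bi, Lt.di, Lt.b, Lt.ai, Lt.b, Lt.d, Lt.b, Lt.ai, Lt.bi, Lt.bi, Lt.di, Lt.bi] (hat (rb_5 hy) 12 rfl) h
  · exact dp_a_29_s hy j u hu h
theorem dp_a_31_s (hy : Hy g H)
    (j u : ℕ) (hu : u < M) (h : dp_a_31 j u = true) : Gd g H Lt.a u := by
  unfold dp_a_31 at h
  rcases brec_true h with h | h
  · exact lF_good (T := T) (x := Lt.a) hM0 [Lt.b, Lt.di, Lt.ai, Lt.di, Lt.a, Lt.b, Lt.d, Lt.a, Lt.d, Lt.bi, Lt.ai, Lt.d] (hat (rf_6 hy) 7 rfl) h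
  · exact lS_good (T := T) (x := Lt.a) hM0 hu [Lt.d, Lt.b, Lt.di, Lt.a, Lt.b, Lt.ai, Lt.d, Lt.bi, Lt.di, Lt.ai, Lt.b, Lt.di, Lt.bi] (hat (rf_7 hy) 8 rfl) h
theorem dp_a_32_s (hy : Hy g H)
    (j u : ℕ) (hu : u < M) (h : dp_a_32 j u = true) : Gd g H Lt.a u := by
  unfold dp_a_32 at h
  rcases brec_true h with h | h
  · exact lF_good (T := T) (x := Lt.a) hM0 [Lt.d, Lt.b, Lt.di, Lt.a, Lt.b, Lt.ai, Lt.d, Lt.bi, Lt.di, Lt.ai, Lt.b, Lt.di, Lt.bi] (hat (rf_7 hy) 8 rfl) h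
  · exact lS_good (T := T) (x := Lt.a) hM0 hu [Lt.bi, Lt.ai, Lt.d, Lt.bi, Lt.di, Lt.ai, Lt.b, Lt.d, Lt.bi, Lt.a, Lt.d, Lt.b, Lt.di] (hat (rb_7 hy) 1 rfl) h
theorem dp_a_33_s (hy : Hy g H)
    (j u : ℕ) (hu : u < M) (h : dp_a_33 j u = true) : Gd g H Lt.a u := by
  unfold dp_a_33 at h
  rcases brec_true h with h | h
  · exact lH_good (T := T) (x := Lt.a) hM0 [] [] (by rw [show cP g H 0 = _ from cc_zero]; exact sub_rel hy.1 (hy.2.2 _ (by decide))) h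
  · exact lF_good (T := T) (x := Lt.a) hM0 [Lt.bi, Lt.ai, Lt.d, Lt.bi, Lt.di, Lt.ai, Lt.b, Lt.d, Lt.bi, Lt.a, Lt.d, Lt.b, Lt.di] (hat (rb_7 hy) 1 rfl) h
theorem dp_a_34_s (hy : Hy g H)
    (j u : ℕ) (hu : u < M) (h : dp_a_34 j u = true) : Gd g H Lt.a u := by
  unfold dp_a_34 at h
  rcases brec_true h with h | h
  · exact lS_good (T := T) (x := Lt.a) hM0 hu [Lt.d, Lt.b, Lt.di, Lt.a, Lt.bi, Lt.ai, Lt.d, Lt.bi, Lt.di, Lt.ai, Lt.b, Lt.d, Lt.bi] (hat (rb_7 hy) 11 rfl) h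
  · exact dp_a_33_s hy j u hu h
theorem dp_a_35_s (hy : Hy g H)
    (j u : ℕ) (hu : u < M) (h : dp_a_35 j u = true) : Gd g H Lt.a u := by
  unfold dp_a_35 at h
  rcases brec_true h with h | h
  · exact lS_good (T := T) (x := Lt.a) hM0 hu [Lt.b, Lt.ai, Lt.d, Lt.bi, Lt.di, Lt.ai, Lt.b, Lt.di, Lt.bi, Lt.a, Lt.d, Lt.b, Lt.di] (hat (rf_7 hy) 12 rfl) h
  · exact dp_a_34_s hy j u hu h
theorem dp_a_36_s (hy : Hy g H)
    (j u : ℕ) (hu : u < M) (h : dp_a_36 j u = true) : Gd g H Lt.a u := by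
  unfold dp_a_36 at h
  rcases brec_true h with h | h
  · exact dp_a_32_s hy j u hu h
  · exact dp_a_35_s hy j u hu h
theorem dp_a_37_s (hy : Hy g H)
    (j u : ℕ) (hu : u < M) (h : dp_a_37 j u = true) : Gd g H Lt.a u := by
  unfold dp_a_37 at h
  rcases brec_true h with h | h
  · exact dp_a_31_s hy j u hu h
  · exact dp_a_36_s hy j u hu h
theorem dp_a_38_s (hy : Hy g H)
    (j u : ℕ) (hu : u < M) (h : dp_a_38 j u = true) : Gd g H Lt.a u := by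
  unfold dp_a_38 at h
  rcases brec_true h with h | h
  · exact dp_a_30_s hy j u hu h
  · exact dp_a_37_s hy j u hu h
theorem dp_a_39_s (hy : Hy g H)
    (j u : ℕ) (hu : u < M) (h : dp_a_39 j u = true) : Gd g H Lt.a u := by
  unfold dp_a_39 at h
  rcases brec_true h with h | h
  · exact dp_a_28_s hy j u hu h
  · exact dp_a_38_s hy j u hu h
theorem dp_a_40_s (hy : Hy g H)
    (j u : ℕ) (hu : u < M) (h : dp_a_40 j u = true) : Gd g H Lt.a u := by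
  unfold dp_a_40 at h
  rcases brec_true h with h | h
  · exact dp_a_25_s hy j u hu h
  · exact dp_a_39_s hy j u hu h
theorem dp_a_41_s (hy : Hy g H)
    (j u : ℕ) (hu : u < M) (h : dp_a_41 j u = true) : Gd g H Lt.a u := by
  unfold dp_a_41 at h
  rcases brec_true h with h | h
  · exact dp_a_20_s hy j u hu h
  · exact dp_a_40_s hy j u hu h
theorem dp_a_42_s (hy : Hy g H)
    (j u : ℕ) (hu : u < M) (h : dp_a_42 j u = true) : Gd g H Lt.a u := by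
  unfold dp_a_42 at h
  rcases brec_true h with h | h
  · exact dp_a_16_s hy j u hu h
  · exact dp_a_41_s hy j u hu h
theorem dp_a_43_s (hy : Hy g H)
    (j u : ℕ) (hu : u < M) (h : dp_a_43 j u = true) : Gd g H Lt.a u := by
  unfold dp_a_43 at h
  rcases brec_true h with h | h
  · exact dp_a_11_s hy j u hu h
  · exact dp_a_42_s hy j u hu h
theorem dp_a_44_s (hy : Hy g H)
    (j u : ℕ) (hu : u < M) (h : dp_a_44 j u = true) : Gd g H Lt.a u := by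
  unfold dp_a_44 at h
  rcases brec_true h with h | h
  · rcases brec_true h with h | h
    · exact dp_a_0_s hy j u hu h
    · exact dp_a_4_s hy j u hu h
  · exact dp_a_43_s hy j u hu h
theorem snd_a (hy : Hy g H)
    (j u : ℕ) (hu : u < M) (h : disp_a j u = true) : Gd g H Lt.a u := by
  unfold disp_a at h
  rcases brec_true h with h | h
  · rcases brec_true h with h | h
    · exact lF1_good (T := T) (x := Lt.a) hM0 .ai (hat (rf_9 hy) 1 rfl) h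
    · exact lDef_good (T := T) (x := Lt.a) (by decide) rfl h
  · rcases brec_true h with h | h
    · rcases brec_true h with h | h
      · exact lPar_good (T := T) (x := Lt.a) (x' := Lt.ai) (by decide) rfl (ivt hy _ _ rfl) h
      · exact lF_good (T := T) (x := Lt.a) hM0 [Lt.b, Lt.a, Lt.b, Lt.a, Lt.b] (hat (rf_2 hy) 1 rfl) h
    · exact dp_a_44_s hy j u hu h
theorem snc_a (hy : Hy g H)
    (j u : ℕ) (hu : u < M) (h : chk_a j u = true) : (T Lt.a u < A ∧ Gd g H Lt.a u) ∨ (A ≤ T Lt.a u ∧ MG u < A) := by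
  unfold chk_a at h
  cases hb : Nat.ble A (T_a u) with
  | true => rw [hb] at h; exact Or.inr ⟨le_of_ble hb, le_of_ble h⟩
  | false => rw [hb] at h; exact Or.inl ⟨lt_of_ble_false hb, snd_a hy j u hu h⟩
theorem dp_ai_0_s (hy : Hy g H)
    (j u : ℕ) (hu : u < M) (h : dp_ai_0 j u = true) : Gd g H Lt.ai u := by
  unfold dp_ai_0 at h
  rcases brec_true h with h | h
  · exact lS_good (T := T) (x := Lt.ai) hM0 hu [Lt.a] (hat (rf_9 hy) 0 rfl) h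
  · exact lF_good (T := T) (x := Lt.ai) hM0 [Lt.ai, Lt.b, Lt.ai, Lt.b, Lt.a, Lt.bi, Lt.a, Lt.bi] (hat (rb_3 hy) 8 rfl) h
theorem dp_ai_1_s (hy : Hy g H)
    (j u : ℕ) (hu : u < M) (h : dp_ai_1 j u = true) : Gd g H Lt.ai u := by
  unfold dp_ai_1 at h
  rcases brec_true h with h | h
  · exact lF_good (T := T) (x := Lt.ai) hM0 [Lt.b, Lt.ai, Lt.bi, Lt.a, Lt.bi, Lt.a, Lt.a, Lt.b] (hat (rf_3 hy) 4 rfl) h
  · exact lF_good (T := T) (x := Lt.ai) hM0 [Lt.ai, Lt.ai, Lt.bi, Lt.d, Lt.ai, Lt.ai, Lt.bi, Lt.a, Lt.di] (hat (rb_4 hy) 1 rfl) h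
theorem dp_ai_2_s (hy : Hy g H)
    (j u : ℕ) (hu : u < M) (h : dp_ai_2 j u = true) : Gd g H Lt.ai u := by
  unfold dp_ai_2 at h
  rcases brec_true h with h | h
  · exact lF_good (T := T) (x := Lt.ai) hM0 [Lt.b, Lt.ai, Lt.b, Lt.a, Lt.bi, Lt.a, Lt.bi, Lt.ai] (hat (rb_3 hy) 0 rfl) h
  · exact lF_good (T := T) (x := Lt.ai) hM0 [Lt.ai, Lt.bi, Lt.a, Lt.di, Lt.ai, Lt.ai, Lt.ai, Lt.bi, Lt.d] (hat (rb_4 hy) 6 rfl) h
theorem dp_ai_3_s (hy : Hy g H)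
    (j u : ℕ) (hu : u < M) (h : dp_ai_3 j u = true) : Gd g H Lt.ai u := by
  unfold dp_ai_3 at h
  rcases brec_true h with h | h
  · exact dp_ai_1_s hy j u hu h
  · exact dp_ai_2_s hy j u hu h
theorem dp_ai_4_s (hy : Hy g H)
    (j u : ℕ) (hu : u < M) (h : dp_ai_4 j u = true) : Gd g H Lt.ai u := by
  unfold dp_ai_4 at h
  rcases brec_true h with h | h
  · exact lS_good (T := T) (x := Lt.ai) hM0 hu [Lt.bi, Lt.ai, Lt.bi, Lt.ai, Lt.bi] (hat (rb_2 hy) 0 rfl) h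
  · exact lF_good (T := T) (x := Lt.ai) hM0 [Lt.bi, Lt.a, Lt.bi, Lt.a, Lt.a, Lt.b, Lt.ai, Lt.b] (hat (rf_3 hy) 6 rfl) h
theorem dp_ai_5_s (hy : Hy g H)
    (j u : ℕ) (hu : u < M) (h : dp_ai_5 j u = true) : Gd g H Lt.ai u := by
  unfold dp_ai_5 at h
  rcases brec_true h with h | h
  · exact lF_good (T := T) (x := Lt.ai) hM0 [Lt.b, Lt.a, Lt.a, Lt.di, Lt.b, Lt.a, Lt.a, Lt.a, Lt.d] (hat (rf_4 hy) 2 rfl) h
  · exact dp_ai_4_s hy j u hu h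
theorem dp_ai_6_s (hy : Hy g H)
    (j u : ℕ) (hu : u < M) (h : dp_ai_6 j u = true) : Gd g H Lt.ai u := by
  unfold dp_ai_6 at h
  rcases brec_true h with h | h
  · exact lF_good (T := T) (x := Lt.ai) hM0 [Lt.ai, Lt.bi, Lt.d, Lt.ai, Lt.ai, Lt.bi, Lt.a, Lt.di, Lt.ai] (hat (rb_4 hy) 2 rfl) h
  · exact lS_good (T := T) (x := Lt.ai) hM0 hu [Lt.ai, Lt.b, Lt.ai, Lt.b, Lt.a, Lt.bi, Lt.a, Lt.bi] (hat (rb_3 hy) 8 rfl) h
theorem dp_ai_7_s (hy : Hy g H)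
    (j u : ℕ) (hu : u < M) (h : dp_ai_7 j u = true) : Gd g H Lt.ai u := by
  unfold dp_ai_7 at h
  rcases brec_true h with h | h
  · exact lS_good (T := T) (x := Lt.ai) hM0 hu [Lt.ai, Lt.bi, Lt.a, Lt.di, Lt.ai, Lt.ai, Lt.ai, Lt.bi, Lt.d] (hat (rb_4 hy) 6 rfl) h
  · exact lF_good (T := T) (x := Lt.ai) hM0 [Lt.b, Lt.a, Lt.bi, Lt.a, Lt.bi, Lt.ai, Lt.ai, Lt.b] (hat (rb_3 hy) 2 rfl) h
theorem dp_ai_8_s (hy : Hy g H)
    (j u : ℕ) (hu : u < M) (h : dp_ai_8 j u = true) : Gd g H Lt.ai u := by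
  unfold dp_ai_8 at h
  rcases brec_true h with h | h
  · exact lS_good (T := T) (x := Lt.ai) hM0 hu [Lt.ai, Lt.ai, Lt.bi, Lt.d, Lt.ai, Lt.ai, Lt.bi, Lt.a, Lt.di] (hat (rb_4 hy) 1 rfl) h
  · exact dp_ai_7_s hy j u hu h
theorem dp_ai_9_s (hy : Hy g H)
    (j u : ℕ) (hu : u < M) (h : dp_ai_9 j u = true) : Gd g H Lt.ai u := by
  unfold dp_ai_9 at h
  rcases brec_true h with h | h
  · exact dp_ai_6_s hy j u hu h
  · exact dp_ai_8_s hy j u hu h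
theorem dp_ai_10_s (hy : Hy g H)
    (j u : ℕ) (hu : u < M) (h : dp_ai_10 j u = true) : Gd g H Lt.ai u := by
  unfold dp_ai_10 at h
  rcases brec_true h with h | h
  · exact dp_ai_5_s hy j u hu h
  · exact dp_ai_9_s hy j u hu h
theorem dp_ai_11_s (hy : Hy g H)
    (j u : ℕ) (hu : u < M) (h : dp_ai_11 j u = true) : Gd g H Lt.ai u := by
  unfold dp_ai_11 at h
  rcases brec_true h with h | h
  · exact lF_good (T := T) (x := Lt.ai) hM0 [Lt.bi, Lt.d, Lt.ai, Lt.ai, Lt.bi, Lt.a, Lt.di, Lt.ai, Lt.ai] (hat (rb_4 hy) 3 rfl) h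
  · exact lS_good (T := T) (x := Lt.ai) hM0 hu [Lt.b, Lt.ai, Lt.bi, Lt.a, Lt.bi, Lt.a, Lt.a, Lt.b] (hat (rf_3 hy) 4 rfl) h
theorem dp_ai_12_s (hy : Hy g H)
    (j u : ℕ) (hu : u < M) (h : dp_ai_12 j u = true) : Gd g H Lt.ai u := by
  unfold dp_ai_12 at h
  rcases brec_true h with h | h
  · exact lS_good (T := T) (x := Lt.ai) hM0 hu [Lt.b, Lt.a, Lt.a, Lt.di, Lt.b, Lt.a, Lt.a, Lt.a, Lt.d] (hat (rf_4 hy) 2 rfl) h
  · exact dp_ai_11_s hy j u hu h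
theorem dp_ai_13_s (hy : Hy g H)
    (j u : ℕ) (hu : u < M) (h : dp_ai_13 j u = true) : Gd g H Lt.ai u := by
  unfold dp_ai_13 at h
  rcases brec_true h with h | h
  · exact lS_good (T := T) (x := Lt.ai) hM0 hu [Lt.b, Lt.ai, Lt.b, Lt.a, Lt.bi, Lt.a, Lt.bi, Lt.ai] (hat (rb_3 hy) 0 rfl) h
  · exact lS_good (T := T) (x := Lt.ai) hM0 hu [Lt.ai, Lt.bi, Lt.d, Lt.ai, Lt.ai, Lt.bi, Lt.a, Lt.di, Lt.ai] (hat (rb_4 hy) 2 rfl) h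
theorem dp_ai_14_s (hy : Hy g H)
    (j u : ℕ) (hu : u < M) (h : dp_ai_14 j u = true) : Gd g H Lt.ai u := by
  unfold dp_ai_14 at h
  rcases brec_true h with h | h
  · exact lS_good (T := T) (x := Lt.ai) hM0 hu [Lt.bi, Lt.d, Lt.ai, Lt.ai, Lt.bi, Lt.a, Lt.di, Lt.ai, Lt.ai] (hat (rb_4 hy) 3 rfl) h
  · exact lF_good (T := T) (x := Lt.ai) hM0 [Lt.bi, Lt.a, Lt.di, Lt.ai, Lt.ai, Lt.ai, Lt.bi, Lt.d, Lt.ai] (hat (rb_4 hy) 7 rfl) h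
theorem dp_ai_15_s (hy : Hy g H)
    (j u : ℕ) (hu : u < M) (h : dp_ai_15 j u = true) : Gd g H Lt.ai u := by
  unfold dp_ai_15 at h
  rcases brec_true h with h | h
  · exact dp_ai_13_s hy j u hu h
  · exact dp_ai_14_s hy j u hu h
theorem dp_ai_16_s (hy : Hy g H)
    (j u : ℕ) (hu : u < M) (h : dp_ai_16 j u = true) : Gd g H Lt.ai u := by
  unfold dp_ai_16 at h
  rcases brec_true h with h | h
  · exact dp_ai_12_s hy j u hu h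
  · exact dp_ai_15_s hy j u hu h
theorem dp_ai_17_s (hy : Hy g H)
    (j u : ℕ) (hu : u < M) (h : dp_ai_17 j u = true) : Gd g H Lt.ai u := by
  unfold dp_ai_17 at h
  rcases brec_true h with h | h
  · exact lS_good (T := T) (x := Lt.ai) hM0 hu [Lt.di, Lt.bi, Lt.ai, Lt.d, Lt.a, Lt.d, Lt.bi, Lt.ai, Lt.di, Lt.a, Lt.b, Lt.di] (hat (rb_6 hy) 12 rfl) h
  · exact lS_good (T := T) (x := Lt.ai) hM0 hu [Lt.di, Lt.a, Lt.b, Lt.d, Lt.a, Lt.d, Lt.bi, Lt.ai, Lt.d, Lt.a, Lt.b, Lt.di] (hat (rf_6 hy) 10 rfl) h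
theorem dp_ai_18_s (hy : Hy g H)
    (j u : ℕ) (hu : u < M) (h : dp_ai_18 j u = true) : Gd g H Lt.ai u := by
  unfold dp_ai_18 at h
  rcases brec_true h with h | h
  · exact lS_good (T := T) (x := Lt.ai) hM0 hu [Lt.bi, Lt.a, Lt.di, Lt.ai, Lt.ai, Lt.ai, Lt.bi, Lt.d, Lt.ai] (hat (rb_4 hy) 7 rfl) h
  · exact dp_ai_17_s hy j u hu h
theorem dp_ai_19_s (hy : Hy g H)
    (j u : ℕ) (hu : u < M) (h : dp_ai_19 j u = true) : Gd g H Lt.ai u := by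
  unfold dp_ai_19 at h
  rcases brec_true h with h | h
  · exact lS_good (T := T) (x := Lt.ai) hM0 hu [Lt.bi, Lt.a, Lt.bi, Lt.a, Lt.a, Lt.b, Lt.ai, Lt.b] (hat (rf_3 hy) 6 rfl) h
  · exact lS_good (T := T) (x := Lt.ai) hM0 hu [Lt.b, Lt.a, Lt.bi, Lt.a, Lt.bi, Lt.ai, Lt.ai, Lt.b] (hat (rb_3 hy) 2 rfl) h
theorem dp_ai_20_s (hy : Hy g H)
    (j u : ℕ) (hu : u < M) (h : dp_ai_20 j u = true) : Gd g H Lt.ai u := by
  unfold dp_ai_20 at h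
  rcases brec_true h with h | h
  · exact lF_good (T := T) (x := Lt.ai) hM0 [Lt.di, Lt.a, Lt.b, Lt.d, Lt.a, Lt.d, Lt.bi, Lt.ai, Lt.d, Lt.a, Lt.b, Lt.di] (hat (rf_6 hy) 10 rfl) h
  · exact lS_good (T := T) (x := Lt.ai) hM0 hu [Lt.d, Lt.a, Lt.b, Lt.di, Lt.ai, Lt.di, Lt.a, Lt.b, Lt.d, Lt.a, Lt.d, Lt.bi] (hat (rf_6 hy) 5 rfl) h
theorem dp_ai_21_s (hy : Hy g H)
    (j u : ℕ) (hu : u < M) (h : dp_ai_21 j u = true) : Gd g H Lt.ai u := by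
  unfold dp_ai_21 at h
  rcases brec_true h with h | h
  · exact dp_ai_19_s hy j u hu h
  · exact dp_ai_20_s hy j u hu h
theorem dp_ai_22_s (hy : Hy g H)
    (j u : ℕ) (hu : u < M) (h : dp_ai_22 j u = true) : Gd g H Lt.ai u := by
  unfold dp_ai_22 at h
  rcases brec_true h with h | h
  · exact dp_ai_18_s hy j u hu h
  · exact dp_ai_21_s hy j u hu h
theorem dp_ai_23_s (hy : Hy g H)
    (j u : ℕ) (hu : u < M) (h : dp_ai_23 j u = true) : Gd g H Lt.ai u := by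
  unfold dp_ai_23 at h
  rcases brec_true h with h | h
  · exact lF_good (T := T) (x := Lt.ai) hM0 [Lt.b, Lt.d, Lt.b, Lt.b, Lt.a, Lt.bi, Lt.di, Lt.bi, Lt.a, Lt.bi, Lt.d, Lt.b] (hat (rf_5 hy) 2 rfl) h
  · exact lS_good (T := T) (x := Lt.ai) hM0 hu [Lt.d, Lt.a, Lt.d, Lt.bi, Lt.ai, Lt.di, Lt.a, Lt.b, Lt.di, Lt.ai, Lt.di, Lt.bi] (hat (rb_6 hy) 2 rfl) h
theorem dp_ai_24_s (hy : Hy g H)
    (j u : ℕ) (hu : u < M) (h : dp_ai_24 j u = true) : Gd g H Lt.ai u := by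
  unfold dp_ai_24 at h
  rcases brec_true h with h | h
  · exact lF_good (T := T) (x := Lt.ai) hM0 [Lt.di, Lt.bi, Lt.ai, Lt.d, Lt.a, Lt.d, Lt.bi, Lt.ai, Lt.di, Lt.a, Lt.b, Lt.di] (hat (rb_6 hy) 12 rfl) h
  · exact dp_ai_23_s hy j u hu h
theorem dp_ai_25_s (hy : Hy g H)
    (j u : ℕ) (hu : u < M) (h : dp_ai_25 j u = true) : Gd g H Lt.ai u := by
  unfold dp_ai_25 at h
  rcases brec_true h with h | h
  · exact lF_good (T := T) (x := Lt.ai) hM0 [Lt.d, Lt.a, Lt.b, Lt.di, Lt.ai, Lt.di, Lt.a, Lt.b, Lt.d, Lt.a, Lt.d, Lt.bi] (hat (rf_6 hy) 5 rfl) h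
  · exact lF_good (T := T) (x := Lt.ai) hM0 [Lt.d, Lt.a, Lt.d, Lt.bi, Lt.ai, Lt.di, Lt.a, Lt.b, Lt.di, Lt.ai, Lt.di, Lt.bi] (hat (rb_6 hy) 2 rfl) h
theorem dp_ai_26_s (hy : Hy g H)
    (j u : ℕ) (hu : u < M) (h : dp_ai_26 j u = true) : Gd g H Lt.ai u := by
  unfold dp_ai_26 at h
  rcases brec_true h with h | h
  · exact lS_good (T := T) (x := Lt.ai) hM0 hu [Lt.b, Lt.d, Lt.b, Lt.b, Lt.a, Lt.bi, Lt.di, Lt.bi, Lt.a, Lt.bi, Lt.d, Lt.b] (hat (rf_5 hy) 2 rfl) h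
  · exact dp_ai_25_s hy j u hu h
theorem dp_ai_27_s (hy : Hy g H)
    (j u : ℕ) (hu : u < M) (h : dp_ai_27 j u = true) : Gd g H Lt.ai u := by
  unfold dp_ai_27 at h
  rcases brec_true h with h | h
  · exact dp_ai_24_s hy j u hu h
  · exact dp_ai_26_s hy j u hu h
theorem dp_ai_28_s (hy : Hy g H)
    (j u : ℕ) (hu : u < M) (h : dp_ai_28 j u = true) : Gd g H Lt.ai u := by
  unfold dp_ai_28 at h
  rcases brec_true h with h | h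
  · exact lF_good (T := T) (x := Lt.ai) hM0 [Lt.b, Lt.d, Lt.b, Lt.ai, Lt.bi, Lt.bi, Lt.di, Lt.bi, Lt.a, Lt.bi, Lt.di, Lt.b] (hat (rb_5 hy) 3 rfl) h
  · exact lF_good (T := T) (x := Lt.ai) hM0 [Lt.bi, Lt.bi, Lt.di, Lt.bi, Lt.a, Lt.bi, Lt.di, Lt.b, Lt.ai, Lt.b, Lt.d, Lt.b] (hat (rb_5 hy) 7 rfl) h
theorem dp_ai_29_s (hy : Hy g H)
    (j u : ℕ) (hu : u < M) (h : dp_ai_29 j u = true) : Gd g H Lt.ai u := by
  unfold dp_ai_29 at h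
  rcases brec_true h with h | h
  · exact lS_good (T := T) (x := Lt.ai) hM0 hu [Lt.di, Lt.a, Lt.b, Lt.di, Lt.ai, Lt.di, Lt.bi, Lt.ai, Lt.d, Lt.a, Lt.d, Lt.bi] (hat (rb_6 hy) 7 rfl) h
  · exact dp_ai_28_s hy j u hu h
theorem dp_ai_30_s (hy : Hy g H)
    (j u : ℕ) (hu : u < M) (h : dp_ai_30 j u = true) : Gd g H Lt.ai u := by
  unfold dp_ai_30 at h
  rcases brec_true h with h | h
  · exact lS_good (T := T) (x := Lt.ai) hM0 hu [Lt.b, Lt.d, Lt.b, Lt.ai, Lt.bi, Lt.bi, Lt.di, Lt.bi, Lt.a, Lt.bi, Lt.di, Lt.b] (hat (rb_5 hy) 3 rfl) h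
  · exact lS_good (T := T) (x := Lt.ai) hM0 hu [Lt.bi, Lt.bi, Lt.di, Lt.bi, Lt.a, Lt.bi, Lt.di, Lt.b, Lt.ai, Lt.b, Lt.d, Lt.b] (hat (rb_5 hy) 7 rfl) h
theorem dp_ai_31_s (hy : Hy g H)
    (j u : ℕ) (hu : u < M) (h : dp_ai_31 j u = true) : Gd g H Lt.ai u := by
  unfold dp_ai_31 at h
  rcases brec_true h with h | h
  · exact lF_good (T := T) (x := Lt.ai) hM0 [Lt.di, Lt.a, Lt.b, Lt.di, Lt.ai, Lt.di, Lt.bi, Lt.ai, Lt.d, Lt.a, Lt.d, Lt.bi] (hat (rb_6 hy) 7 rfl) h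
  · exact lS_good (T := T) (x := Lt.ai) hM0 hu [Lt.b, Lt.d, Lt.bi, Lt.a, Lt.d, Lt.b, Lt.di, Lt.a, Lt.bi, Lt.ai, Lt.d, Lt.bi, Lt.di] (hat (rb_7 hy) 7 rfl) h
theorem dp_ai_32_s (hy : Hy g H)
    (j u : ℕ) (hu : u < M) (h : dp_ai_32 j u = true) : Gd g H Lt.ai u := by
  unfold dp_ai_32 at h
  rcases brec_true h with h | h
  · exact lS_good (T := T) (x := Lt.ai) hM0 hu [Lt.b, Lt.di, Lt.bi, Lt.a, Lt.d, Lt.b, Lt.di, Lt.a, Lt.b, Lt.ai, Lt.d, Lt.bi, Lt.di] (hat (rf_7 hy) 4 rfl) h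
  · exact lF_good (T := T) (x := Lt.ai) hM0 [Lt.bi, Lt.di, Lt.bi, Lt.a, Lt.bi, Lt.ai, Lt.d, Lt.b, Lt.a, Lt.bi, Lt.d, Lt.b, Lt.di, Lt.b] (hat (rb_8 hy) 13 rfl) h
theorem dp_ai_33_s (hy : Hy g H)
    (j u : ℕ) (hu : u < M) (h : dp_ai_33 j u = true) : Gd g H Lt.ai u := by
  unfold dp_ai_33 at h
  rcases brec_true h with h | h
  · exact lS_good (T := T) (x := Lt.ai) hM0 hu [Lt.d, Lt.bi, Lt.di, Lt.ai, Lt.b, Lt.di, Lt.bi, Lt.a, Lt.d, Lt.b, Lt.di, Lt.a, Lt.b] (hat (rf_7 hy) 0 rfl) h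
  · exact lF_good (T := T) (x := Lt.ai) hM0 [Lt.b, Lt.d, Lt.bi, Lt.a, Lt.d, Lt.b, Lt.di, Lt.a, Lt.bi, Lt.ai, Lt.d, Lt.bi, Lt.di] (hat (rb_7 hy) 7 rfl) h
theorem dp_ai_34_s (hy : Hy g H)
    (j u : ℕ) (hu : u < M) (h : dp_ai_34 j u = true) : Gd g H Lt.ai u := by
  unfold dp_ai_34 at h
  rcases brec_true h with h | h
  · exact lF_good (T := T) (x := Lt.ai) hM0 [Lt.d, Lt.bi, Lt.di, Lt.ai, Lt.b, Lt.di, Lt.bi, Lt.a, Lt.d, Lt.b, Lt.di, Lt.a, Lt.b] (hat (rf_7 hy) 0 rfl) h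
  · exact lF_good (T := T) (x := Lt.ai) hM0 [Lt.b, Lt.di, Lt.bi, Lt.a, Lt.d, Lt.b, Lt.di, Lt.a, Lt.b, Lt.ai, Lt.d, Lt.bi, Lt.di] (hat (rf_7 hy) 4 rfl) h
theorem dp_ai_35_s (hy : Hy g H)
    (j u : ℕ) (hu : u < M) (h : dp_ai_35 j u = true) : Gd g H Lt.ai u := by
  unfold dp_ai_35 at h
  rcases brec_true h with h | h
  · exact lS_good (T := T) (x := Lt.ai) hM0 hu [Lt.b, Lt.d, Lt.b, Lt.a, Lt.bi, Lt.d, Lt.bi, Lt.di, Lt.b, Lt.ai, Lt.bi, Lt.di, Lt.a, Lt.b] (hat (rf_8 hy) 14 rfl) h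
  · exact dp_ai_34_s hy j u hu h
theorem dp_ai_36_s (hy : Hy g H)
    (j u : ℕ) (hu : u < M) (h : dp_ai_36 j u = true) : Gd g H Lt.ai u := by
  unfold dp_ai_36 at h
  rcases brec_true h with h | h
  · exact dp_ai_33_s hy j u hu h
  · exact dp_ai_35_s hy j u hu h
theorem dp_ai_37_s (hy : Hy g H)
    (j u : ℕ) (hu : u < M) (h : dp_ai_37 j u = true) : Gd g H Lt.ai u := by
  unfold dp_ai_37 at h
  rcases brec_true h with h | h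
  · exact dp_ai_32_s hy j u hu h
  · exact dp_ai_36_s hy j u hu h
theorem dp_ai_38_s (hy : Hy g H)
    (j u : ℕ) (hu : u < M) (h : dp_ai_38 j u = true) : Gd g H Lt.ai u := by
  unfold dp_ai_38 at h
  rcases brec_true h with h | h
  · exact dp_ai_31_s hy j u hu h
  · exact dp_ai_37_s hy j u hu h
theorem dp_ai_39_s (hy : Hy g H)
    (j u : ℕ) (hu : u < M) (h : dp_ai_39 j u = true) : Gd g H Lt.ai u := by
  unfold dp_ai_39 at h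
  rcases brec_true h with h | h
  · exact dp_ai_30_s hy j u hu h
  · exact dp_ai_38_s hy j u hu h
theorem dp_ai_40_s (hy : Hy g H)
    (j u : ℕ) (hu : u < M) (h : dp_ai_40 j u = true) : Gd g H Lt.ai u := by
  unfold dp_ai_40 at h
  rcases brec_true h with h | h
  · exact dp_ai_29_s hy j u hu h
  · exact dp_ai_39_s hy j u hu h
theorem dp_ai_41_s (hy : Hy g H)
    (j u : ℕ) (hu : u < M) (h : dp_ai_41 j u = true) : Gd g H Lt.ai u := by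
  unfold dp_ai_41 at h
  rcases brec_true h with h | h
  · exact dp_ai_27_s hy j u hu h
  · exact dp_ai_40_s hy j u hu h
theorem dp_ai_42_s (hy : Hy g H)
    (j u : ℕ) (hu : u < M) (h : dp_ai_42 j u = true) : Gd g H Lt.ai u := by
  unfold dp_ai_42 at h
  rcases brec_true h with h | h
  · exact dp_ai_22_s hy j u hu h
  · exact dp_ai_41_s hy j u hu h
theorem dp_ai_43_s (hy : Hy g H)
    (j u : ℕ) (hu : u < M) (h : dp_ai_43 j u = true) : Gd g H Lt.ai u := by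
  unfold dp_ai_43 at h
  rcases brec_true h with h | h
  · exact dp_ai_16_s hy j u hu h
  · exact dp_ai_42_s hy j u hu h
theorem dp_ai_44_s (hy : Hy g H)
    (j u : ℕ) (hu : u < M) (h : dp_ai_44 j u = true) : Gd g H Lt.ai u := by
  unfold dp_ai_44 at h
  rcases brec_true h with h | h
  · exact dp_ai_10_s hy j u hu h
  · exact dp_ai_43_s hy j u hu h
theorem dp_ai_45_s (hy : Hy g H)
    (j u : ℕ) (hu : u < M) (h : dp_ai_45 j u = true) : Gd g H Lt.ai u := by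
  unfold dp_ai_45 at h
  rcases brec_true h with h | h
  · rcases brec_true h with h | h
    · exact dp_ai_0_s hy j u hu h
    · exact dp_ai_3_s hy j u hu h
  · exact dp_ai_44_s hy j u hu h
theorem snd_ai (hy : Hy g H)
    (j u : ℕ) (hu : u < M) (h : disp_ai j u = true) : Gd g H Lt.ai u := by
  unfold disp_ai at h
  rcases brec_true h with h | h
  · rcases brec_true h with h | h
    · exact lF1_good (T := T) (x := Lt.ai) hM0 .a (hat (rf_9 hy) 0 rfl) h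
    · exact lPar_good (T := T) (x := Lt.ai) (x' := Lt.a) (by decide) rfl (ivt hy _ _ rfl) h
  · rcases brec_true h with h | h
    · rcases brec_true h with h | h
      · exact lDef_good (T := T) (x := Lt.ai) (by decide) rfl h
      · exact lF_good (T := T) (x := Lt.ai) hM0 [Lt.bi, Lt.ai, Lt.bi, Lt.ai, Lt.bi] (hat (rb_2 hy) 0 rfl) h
    · exact dp_ai_45_s hy j u hu h
theorem snc_ai (hy : Hy g H)
    (j u : ℕ) (hu : u < M) (h : chk_ai j u = true) : (T Lt.ai u < A ∧ Gd g H Lt.ai u) ∨ (A ≤ T Lt.ai u ∧ MG u < A) := by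
  unfold chk_ai at h
  cases hb : Nat.ble A (T_ai u) with
  | true => rw [hb] at h; exact Or.inr ⟨le_of_ble hb, le_of_ble h⟩
  | false => rw [hb] at h; exact Or.inl ⟨lt_of_ble_false hb, snd_ai hy j u hu h⟩
theorem dp_b_0_s (hy : Hy g H)
    (j u : ℕ) (hu : u < M) (h : dp_b_0 j u = true) : Gd g H Lt.b u := by
  unfold dp_b_0 at h
  rcases brec_true h with h | h
  · exact lS_good (T := T) (x := Lt.b) hM0 hu [Lt.bi] (hat (rf_11 hy) 1 rfl) h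
  · exact lF_good (T := T) (x := Lt.b) hM0 [Lt.a, Lt.b, Lt.a, Lt.b, Lt.a] (hat (rf_2 hy) 0 rfl) h
theorem dp_b_1_s (hy : Hy g H)
    (j u : ℕ) (hu : u < M) (h : dp_b_1 j u = true) : Gd g H Lt.b u := by
  unfold dp_b_1 at h
  rcases brec_true h with h | h
  · exact lF_good (T := T) (x := Lt.b) hM0 [Lt.ai, Lt.b, Lt.ai, Lt.bi, Lt.a, Lt.bi, Lt.a, Lt.a] (hat (rf_3 hy) 3 rfl) h
  · exact lF_good (T := T) (x := Lt.b) hM0 [Lt.a, Lt.a, Lt.a, Lt.d, Lt.ai, Lt.b, Lt.a, Lt.a, Lt.di] (hat (rf_4 hy) 7 rfl) h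
theorem dp_b_2_s (hy : Hy g H)
    (j u : ℕ) (hu : u < M) (h : dp_b_2 j u = true) : Gd g H Lt.b u := by
  unfold dp_b_2 at h
  rcases brec_true h with h | h
  · exact lF_good (T := T) (x := Lt.b) hM0 [Lt.ai, Lt.b, Lt.a, Lt.bi, Lt.a, Lt.bi, Lt.ai, Lt.ai] (hat (rb_3 hy) 1 rfl) h
  · exact lF_good (T := T) (x := Lt.b) hM0 [Lt.ai, Lt.bi, Lt.a, Lt.bi, Lt.a, Lt.a, Lt.b, Lt.ai] (hat (rf_3 hy) 5 rfl) h
theorem dp_b_3_s (hy : Hy g H)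
    (j u : ℕ) (hu : u < M) (h : dp_b_3 j u = true) : Gd g H Lt.b u := by
  unfold dp_b_3 at h
  rcases brec_true h with h | h
  · exact lS_good (T := T) (x := Lt.b) hM0 hu [Lt.a, Lt.b, Lt.a, Lt.b, Lt.a] (hat (rf_2 hy) 0 rfl) h
  · exact dp_b_2_s hy j u hu h
theorem dp_b_4_s (hy : Hy g H)
    (j u : ℕ) (hu : u < M) (h : dp_b_4 j u = true) : Gd g H Lt.b u := by
  unfold dp_b_4 at h
  rcases brec_true h with h | h
  · exact dp_b_1_s hy j u hu h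
  · exact dp_b_3_s hy j u hu h
theorem dp_b_5_s (hy : Hy g H)
    (j u : ℕ) (hu : u < M) (h : dp_b_5 j u = true) : Gd g H Lt.b u := by
  unfold dp_b_5 at h
  rcases brec_true h with h | h
  · exact lF_good (T := T) (x := Lt.b) hM0 [Lt.a, Lt.a, Lt.di, Lt.b, Lt.a, Lt.a, Lt.a, Lt.d, Lt.ai] (hat (rf_4 hy) 3 rfl) h
  · exact lS_good (T := T) (x := Lt.b) hM0 hu [Lt.ai, Lt.b, Lt.ai, Lt.bi, Lt.a, Lt.bi, Lt.a, Lt.a] (hat (rf_3 hy) 3 rfl) h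
theorem dp_b_6_s (hy : Hy g H)
    (j u : ℕ) (hu : u < M) (h : dp_b_6 j u = true) : Gd g H Lt.b u := by
  unfold dp_b_6 at h
  rcases brec_true h with h | h
  · exact lS_good (T := T) (x := Lt.b) hM0 hu [Lt.a, Lt.a, Lt.a, Lt.d, Lt.ai, Lt.b, Lt.a, Lt.a, Lt.di] (hat (rf_4 hy) 7 rfl) h
  · exact dp_b_5_s hy j u hu h
theorem dp_b_7_s (hy : Hy g H)
    (j u : ℕ) (hu : u < M) (h : dp_b_7 j u = true) : Gd g H Lt.b u := by
  unfold dp_b_7 at h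
  rcases brec_true h with h | h
  · exact lF_good (T := T) (x := Lt.b) hM0 [Lt.a, Lt.bi, Lt.a, Lt.bi, Lt.ai, Lt.ai, Lt.b, Lt.ai] (hat (rb_3 hy) 3 rfl) h
  · exact lS_good (T := T) (x := Lt.b) hM0 hu [Lt.a, Lt.a, Lt.di, Lt.b, Lt.a, Lt.a, Lt.a, Lt.d, Lt.ai] (hat (rf_4 hy) 3 rfl) h
theorem dp_b_8_s (hy : Hy g H)
    (j u : ℕ) (hu : u < M) (h : dp_b_8 j u = true) : Gd g H Lt.b u := by
  unfold dp_b_8 at h
  rcases brec_true h with h | h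
  · exact lS_good (T := T) (x := Lt.b) hM0 hu [Lt.ai, Lt.bi, Lt.a, Lt.bi, Lt.a, Lt.a, Lt.b, Lt.ai] (hat (rf_3 hy) 5 rfl) h
  · exact lS_good (T := T) (x := Lt.b) hM0 hu [Lt.ai, Lt.b, Lt.a, Lt.bi, Lt.a, Lt.bi, Lt.ai, Lt.ai] (hat (rb_3 hy) 1 rfl) h
theorem dp_b_9_s (hy : Hy g H)
    (j u : ℕ) (hu : u < M) (h : dp_b_9 j u = true) : Gd g H Lt.b u := by
  unfold dp_b_9 at h
  rcases brec_true h with h | h
  · exact dp_b_7_s hy j u hu h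
  · exact dp_b_8_s hy j u hu h
theorem dp_b_10_s (hy : Hy g H)
    (j u : ℕ) (hu : u < M) (h : dp_b_10 j u = true) : Gd g H Lt.b u := by
  unfold dp_b_10 at h
  rcases brec_true h with h | h
  · exact dp_b_6_s hy j u hu h
  · exact dp_b_9_s hy j u hu h
theorem dp_b_11_s (hy : Hy g H)
    (j u : ℕ) (hu : u < M) (h : dp_b_11 j u = true) : Gd g H Lt.b u := by
  unfold dp_b_11 at h
  rcases brec_true h with h | h
  · exact lS_good (T := T) (x := Lt.b) hM0 hu [Lt.di, Lt.ai, Lt.di, Lt.a, Lt.b, Lt.d, Lt.a, Lt.d, Lt.bi, Lt.ai, Lt.d, Lt.a] (hat (rf_6 hy) 8 rfl) h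
  · exact lF_good (T := T) (x := Lt.b) hM0 [Lt.ai, Lt.b, Lt.d, Lt.b, Lt.ai, Lt.bi, Lt.bi, Lt.di, Lt.bi, Lt.a, Lt.bi, Lt.di] (hat (rb_5 hy) 2 rfl) h
theorem dp_b_12_s (hy : Hy g H)
    (j u : ℕ) (hu : u < M) (h : dp_b_12 j u = true) : Gd g H Lt.b u := by
  unfold dp_b_12 at h
  rcases brec_true h with h | h
  · exact lS_good (T := T) (x := Lt.b) hM0 hu [Lt.ai, Lt.b, Lt.d, Lt.b, Lt.ai, Lt.bi, Lt.bi, Lt.di, Lt.bi, Lt.a, Lt.bi, Lt.di] (hat (rb_5 hy) 2 rfl) h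
  · exact lS_good (T := T) (x := Lt.b) hM0 hu [Lt.d, Lt.b, Lt.ai, Lt.bi, Lt.bi, Lt.di, Lt.bi, Lt.a, Lt.bi, Lt.di, Lt.b, Lt.ai] (hat (rb_5 hy) 4 rfl) h
theorem dp_b_13_s (hy : Hy g H)
    (j u : ℕ) (hu : u < M) (h : dp_b_13 j u = true) : Gd g H Lt.b u := by
  unfold dp_b_13 at h
  rcases brec_true h with h | h
  · exact dp_b_11_s hy j u hu h
  · exact dp_b_12_s hy j u hu h
theorem dp_b_14_s (hy : Hy g H)
    (j u : ℕ) (hu : u < M) (h : dp_b_14 j u = true) : Gd g H Lt.b u := by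
  unfold dp_b_14 at h
  rcases brec_true h with h | h
  · exact lF_good (T := T) (x := Lt.b) hM0 [Lt.d, Lt.b, Lt.b, Lt.a, Lt.bi, Lt.di, Lt.bi, Lt.a, Lt.bi, Lt.d, Lt.b, Lt.ai] (hat (rf_5 hy) 3 rfl) h
  · exact lS_good (T := T) (x := Lt.b) hM0 hu [Lt.d, Lt.a, Lt.d, Lt.bi, Lt.ai, Lt.d, Lt.a, Lt.b, Lt.di, Lt.ai, Lt.di, Lt.a] (hat (rf_6 hy) 0 rfl) h
theorem dp_b_15_s (hy : Hy g H)
    (j u : ℕ) (hu : u < M) (h : dp_b_15 j u = true) : Gd g H Lt.b u := by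
  unfold dp_b_15 at h
  rcases brec_true h with h | h
  · exact lF_good (T := T) (x := Lt.b) hM0 [Lt.ai, Lt.bi, Lt.bi, Lt.di, Lt.bi, Lt.a, Lt.bi, Lt.di, Lt.b, Lt.ai, Lt.b, Lt.d] (hat (rb_5 hy) 6 rfl) h
  · exact lS_good (T := T) (x := Lt.b) hM0 hu [Lt.di, Lt.ai, Lt.di, Lt.bi, Lt.ai, Lt.d, Lt.a, Lt.d, Lt.bi, Lt.ai, Lt.di, Lt.a] (hat (rb_6 hy) 10 rfl) h
theorem dp_b_16_s (hy : Hy g H)
    (j u : ℕ) (hu : u < M) (h : dp_b_16 j u = true) : Gd g H Lt.b u := by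
  unfold dp_b_16 at h
  rcases brec_true h with h | h
  · exact lS_good (T := T) (x := Lt.b) hM0 hu [Lt.ai, Lt.b, Lt.d, Lt.b, Lt.b, Lt.a, Lt.bi, Lt.di, Lt.bi, Lt.a, Lt.bi, Lt.d] (hat (rf_5 hy) 1 rfl) h
  · exact dp_b_15_s hy j u hu h
theorem dp_b_17_s (hy : Hy g H)
    (j u : ℕ) (hu : u < M) (h : dp_b_17 j u = true) : Gd g H Lt.b u := by
  unfold dp_b_17 at h
  rcases brec_true h with h | h
  · exact dp_b_14_s hy j u hu h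
  · exact dp_b_16_s hy j u hu h
theorem dp_b_18_s (hy : Hy g H)
    (j u : ℕ) (hu : u < M) (h : dp_b_18 j u = true) : Gd g H Lt.b u := by
  unfold dp_b_18 at h
  rcases brec_true h with h | h
  · exact dp_b_13_s hy j u hu h
  · exact dp_b_17_s hy j u hu h
theorem dp_b_19_s (hy : Hy g H)
    (j u : ℕ) (hu : u < M) (h : dp_b_19 j u = true) : Gd g H Lt.b u := by
  unfold dp_b_19 at h
  rcases brec_true h with h | h
  · exact lF_good (T := T) (x := Lt.b) hM0 [Lt.di, Lt.ai, Lt.di, Lt.bi, Lt.ai, Lt.d, Lt.a, Lt.d, Lt.bi, Lt.ai, Lt.di, Lt.a] (hat (rb_6 hy) 10 rfl) h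
  · exact lS_good (T := T) (x := Lt.b) hM0 hu [Lt.a, Lt.bi, Lt.a, Lt.bi, Lt.ai, Lt.ai, Lt.b, Lt.ai] (hat (rb_3 hy) 3 rfl) h
theorem dp_b_20_s (hy : Hy g H)
    (j u : ℕ) (hu : u < M) (h : dp_b_20 j u = true) : Gd g H Lt.b u := by
  unfold dp_b_20 at h
  rcases brec_true h with h | h
  · exact lS_good (T := T) (x := Lt.b) hM0 hu [Lt.d, Lt.b, Lt.b, Lt.a, Lt.bi, Lt.di, Lt.bi, Lt.a, Lt.bi, Lt.d, Lt.b, Lt.ai] (hat (rf_5 hy) 3 rfl) h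
  · exact dp_b_19_s hy j u hu h
theorem dp_b_21_s (hy : Hy g H)
    (j u : ℕ) (hu : u < M) (h : dp_b_21 j u = true) : Gd g H Lt.b u := by
  unfold dp_b_21 at h
  rcases brec_true h with h | h
  · exact lS_good (T := T) (x := Lt.b) hM0 hu [Lt.b, Lt.b] (hat (rf_1 hy) 0 rfl) h
  · exact lS_good (T := T) (x := Lt.b) hM0 hu [Lt.di, Lt.a, Lt.bi, Lt.ai, Lt.d, Lt.bi, Lt.di, Lt.ai, Lt.b, Lt.d, Lt.bi, Lt.a, Lt.d] (hat (rb_7 hy) 13 rfl) h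
theorem dp_b_22_s (hy : Hy g H)
    (j u : ℕ) (hu : u < M) (h : dp_b_22 j u = true) : Gd g H Lt.b u := by
  unfold dp_b_22 at h
  rcases brec_true h with h | h
  · exact lF_good (T := T) (x := Lt.b) hM0 [Lt.d, Lt.b, Lt.ai, Lt.bi, Lt.bi, Lt.di, Lt.bi, Lt.a, Lt.bi, Lt.di, Lt.b, Lt.ai] (hat (rb_5 hy) 4 rfl) h
  · exact dp_b_21_s hy j u hu h
theorem dp_b_23_s (hy : Hy g H)
    (j u : ℕ) (hu : u < M) (h : dp_b_23 j u = true) : Gd g H Lt.b u := by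
  unfold dp_b_23 at h
  rcases brec_true h with h | h
  · exact dp_b_20_s hy j u hu h
  · exact dp_b_22_s hy j u hu h
theorem dp_b_24_s (hy : Hy g H)
    (j u : ℕ) (hu : u < M) (h : dp_b_24 j u = true) : Gd g H Lt.b u := by
  unfold dp_b_24 at h
  rcases brec_true h with h | h
  · exact lF_good (T := T) (x := Lt.b) hM0 [Lt.ai, Lt.b, Lt.d, Lt.b, Lt.b, Lt.a, Lt.bi, Lt.di, Lt.bi, Lt.a, Lt.bi, Lt.d] (hat (rf_5 hy) 1 rfl) h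
  · exact lF_good (T := T) (x := Lt.b) hM0 [Lt.d, Lt.a, Lt.d, Lt.bi, Lt.ai, Lt.d, Lt.a, Lt.b, Lt.di, Lt.ai, Lt.di, Lt.a] (hat (rf_6 hy) 0 rfl) h
theorem dp_b_25_s (hy : Hy g H)
    (j u : ℕ) (hu : u < M) (h : dp_b_25 j u = true) : Gd g H Lt.b u := by
  unfold dp_b_25 at h
  rcases brec_true h with h | h
  · exact lS_good (T := T) (x := Lt.b) hM0 hu [Lt.ai, Lt.bi, Lt.bi, Lt.di, Lt.bi, Lt.a, Lt.bi, Lt.di, Lt.b, Lt.ai, Lt.b, Lt.d] (hat (rb_5 hy) 6 rfl) h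
  · exact lF_good (T := T) (x := Lt.b) hM0 [Lt.di, Lt.ai, Lt.di, Lt.a, Lt.b, Lt.d, Lt.a, Lt.d, Lt.bi, Lt.ai, Lt.d, Lt.a] (hat (rf_6 hy) 8 rfl) h
theorem dp_b_26_s (hy : Hy g H)
    (j u : ℕ) (hu : u < M) (h : dp_b_26 j u = true) : Gd g H Lt.b u := by
  unfold dp_b_26 at h
  rcases brec_true h with h | h
  · exact dp_b_24_s hy j u hu h
  · exact dp_b_25_s hy j u hu h
theorem dp_b_27_s (hy : Hy g H)
    (j u : ℕ) (hu : u < M) (h : dp_b_27 j u = true) : Gd g H Lt.b u := by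
  unfold dp_b_27 at h
  rcases brec_true h with h | h
  · exact lS_good (T := T) (x := Lt.b) hM0 hu [Lt.a, Lt.bi, Lt.di, Lt.bi, Lt.a, Lt.bi, Lt.d, Lt.b, Lt.ai, Lt.b, Lt.d, Lt.b] (hat (rf_5 hy) 6 rfl) h
  · exact lS_good (T := T) (x := Lt.b) hM0 hu [Lt.di, Lt.bi, Lt.a, Lt.d, Lt.b, Lt.di, Lt.a, Lt.b, Lt.ai, Lt.d, Lt.bi, Lt.di, Lt.ai] (hat (rf_7 hy) 5 rfl) h
theorem dp_b_28_s (hy : Hy g H)
    (j u : ℕ) (hu : u < M) (h : dp_b_28 j u = true) : Gd g H Lt.b u := by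
  unfold dp_b_28 at h
  rcases brec_true h with h | h
  · exact lF_good (T := T) (x := Lt.b) hM0 [Lt.b, Lt.a, Lt.bi, Lt.di, Lt.bi, Lt.a, Lt.bi, Lt.d, Lt.b, Lt.ai, Lt.b, Lt.d] (hat (rf_5 hy) 5 rfl) h
  · exact lS_good (T := T) (x := Lt.b) hM0 hu [Lt.b, Lt.a, Lt.bi, Lt.di, Lt.bi, Lt.a, Lt.bi, Lt.d, Lt.b, Lt.ai, Lt.b, Lt.d] (hat (rf_5 hy) 5 rfl) h
theorem dp_b_29_s (hy : Hy g H)
    (j u : ℕ) (hu : u < M) (h : dp_b_29 j u = true) : Gd g H Lt.b u := by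
  unfold dp_b_29 at h
  rcases brec_true h with h | h
  · exact dp_b_27_s hy j u hu h
  · exact dp_b_28_s hy j u hu h
theorem dp_b_30_s (hy : Hy g H)
    (j u : ℕ) (hu : u < M) (h : dp_b_30 j u = true) : Gd g H Lt.b u := by
  unfold dp_b_30 at h
  rcases brec_true h with h | h
  · exact lF_good (T := T) (x := Lt.b) hM0 [Lt.di, Lt.bi, Lt.a, Lt.d, Lt.b, Lt.di, Lt.a, Lt.b, Lt.ai, Lt.d, Lt.bi, Lt.di, Lt.ai] (hat (rf_7 hy) 5 rfl) h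
  · exact lF_good (T := T) (x := Lt.b) hM0 [Lt.di, Lt.a, Lt.b, Lt.ai, Lt.d, Lt.bi, Lt.di, Lt.ai, Lt.b, Lt.di, Lt.bi, Lt.a, Lt.d] (hat (rf_7 hy) 10 rfl) h
theorem dp_b_31_s (hy : Hy g H)
    (j u : ℕ) (hu : u < M) (h : dp_b_31 j u = true) : Gd g H Lt.b u := by
  unfold dp_b_31 at h
  rcases brec_true h with h | h
  · exact lS_good (T := T) (x := Lt.b) hM0 hu [Lt.ai, Lt.d, Lt.bi, Lt.di, Lt.ai, Lt.b, Lt.di, Lt.bi, Lt.a, Lt.d, Lt.b, Lt.di, Lt.a] (hat (rf_7 hy) 13 rfl) h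
  · exact dp_b_30_s hy j u hu h
theorem dp_b_32_s (hy : Hy g H)
    (j u : ℕ) (hu : u < M) (h : dp_b_32 j u = true) : Gd g H Lt.b u := by
  unfold dp_b_32 at h
  rcases brec_true h with h | h
  · exact lF_good (T := T) (x := Lt.b) hM0 [Lt.a, Lt.bi, Lt.di, Lt.bi, Lt.a, Lt.bi, Lt.d, Lt.b, Lt.ai, Lt.b, Lt.d, Lt.b] (hat (rf_5 hy) 6 rfl) h
  · exact lS_good (T := T) (x := Lt.b) hM0 hu [Lt.di, Lt.a, Lt.b, Lt.ai, Lt.d, Lt.bi, Lt.di, Lt.ai, Lt.b, Lt.di, Lt.bi, Lt.a, Lt.d] (hat (rf_7 hy) 10 rfl) h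
theorem dp_b_33_s (hy : Hy g H)
    (j u : ℕ) (hu : u < M) (h : dp_b_33 j u = true) : Gd g H Lt.b u := by
  unfold dp_b_33 at h
  rcases brec_true h with h | h
  · exact lH_good (T := T) (x := Lt.b) hM0 [] [] (by rw [show cP g H 0 = _ from cc_zero]; exact sub_rel hy.1 (hy.2.2 _ (by decide))) h
  · exact lF_good (T := T) (x := Lt.b) hM0 [Lt.ai, Lt.d, Lt.bi, Lt.di, Lt.ai, Lt.b, Lt.di, Lt.bi, Lt.a, Lt.d, Lt.b, Lt.di, Lt.a] (hat (rf_7 hy) 13 rfl) h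
theorem dp_b_34_s (hy : Hy g H)
    (j u : ℕ) (hu : u < M) (h : dp_b_34 j u = true) : Gd g H Lt.b u := by
  unfold dp_b_34 at h
  rcases brec_true h with h | h
  · exact lS_good (T := T) (x := Lt.b) hM0 hu [Lt.d, Lt.bi, Lt.a, Lt.d, Lt.b, Lt.di, Lt.a, Lt.bi, Lt.ai, Lt.d, Lt.bi, Lt.di, Lt.ai] (hat (rb_7 hy) 8 rfl) h
  · exact lF_good (T := T) (x := Lt.b) hM0 [Lt.di, Lt.a, Lt.bi, Lt.ai, Lt.d, Lt.bi, Lt.di, Lt.ai, Lt.b, Lt.d, Lt.bi, Lt.a, Lt.d] (hat (rb_7 hy) 13 rfl) h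
theorem dp_b_35_s (hy : Hy g H)
    (j u : ℕ) (hu : u < M) (h : dp_b_35 j u = true) : Gd g H Lt.b u := by
  unfold dp_b_35 at h
  rcases brec_true h with h | h
  · exact lS_good (T := T) (x := Lt.b) hM0 hu [Lt.di, Lt.b, Lt.ai, Lt.bi, Lt.di, Lt.bi, Lt.a, Lt.bi, Lt.ai, Lt.d, Lt.b, Lt.a, Lt.bi, Lt.d] (hat (rb_8 hy) 10 rfl) h
  · exact dp_b_34_s hy j u hu h
theorem dp_b_36_s (hy : Hy g H)
    (j u : ℕ) (hu : u < M) (h : dp_b_36 j u = true) : Gd g H Lt.b u := by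
  unfold dp_b_36 at h
  rcases brec_true h with h | h
  · exact dp_b_33_s hy j u hu h
  · exact dp_b_35_s hy j u hu h
theorem dp_b_37_s (hy : Hy g H)
    (j u : ℕ) (hu : u < M) (h : dp_b_37 j u = true) : Gd g H Lt.b u := by
  unfold dp_b_37 at h
  rcases brec_true h with h | h
  · exact dp_b_32_s hy j u hu h
  · exact dp_b_36_s hy j u hu h
theorem dp_b_38_s (hy : Hy g H)
    (j u : ℕ) (hu : u < M) (h : dp_b_38 j u = true) : Gd g H Lt.b u := by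
  unfold dp_b_38 at h
  rcases brec_true h with h | h
  · exact dp_b_31_s hy j u hu h
  · exact dp_b_37_s hy j u hu h
theorem dp_b_39_s (hy : Hy g H)
    (j u : ℕ) (hu : u < M) (h : dp_b_39 j u = true) : Gd g H Lt.b u := by
  unfold dp_b_39 at h
  rcases brec_true h with h | h
  · exact dp_b_29_s hy j u hu h
  · exact dp_b_38_s hy j u hu h
theorem dp_b_40_s (hy : Hy g H)
    (j u : ℕ) (hu : u < M) (h : dp_b_40 j u = true) : Gd g H Lt.b u := by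
  unfold dp_b_40 at h
  rcases brec_true h with h | h
  · exact dp_b_26_s hy j u hu h
  · exact dp_b_39_s hy j u hu h
theorem dp_b_41_s (hy : Hy g H)
    (j u : ℕ) (hu : u < M) (h : dp_b_41 j u = true) : Gd g H Lt.b u := by
  unfold dp_b_41 at h
  rcases brec_true h with h | h
  · exact dp_b_23_s hy j u hu h
  · exact dp_b_40_s hy j u hu h
theorem dp_b_42_s (hy : Hy g H)
    (j u : ℕ) (hu : u < M) (h : dp_b_42 j u = true) : Gd g H Lt.b u := by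
  unfold dp_b_42 at h
  rcases brec_true h with h | h
  · exact dp_b_18_s hy j u hu h
  · exact dp_b_41_s hy j u hu h
theorem dp_b_43_s (hy : Hy g H)
    (j u : ℕ) (hu : u < M) (h : dp_b_43 j u = true) : Gd g H Lt.b u := by
  unfold dp_b_43 at h
  rcases brec_true h with h | h
  · exact dp_b_10_s hy j u hu h
  · exact dp_b_42_s hy j u hu h
theorem dp_b_44_s (hy : Hy g H)
    (j u : ℕ) (hu : u < M) (h : dp_b_44 j u = true) : Gd g H Lt.b u := by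
  unfold dp_b_44 at h
  rcases brec_true h with h | h
  · exact dp_b_4_s hy j u hu h
  · exact dp_b_43_s hy j u hu h
theorem dp_b_45_s (hy : Hy g H)
    (j u : ℕ) (hu : u < M) (h : dp_b_45 j u = true) : Gd g H Lt.b u := by
  unfold dp_b_45 at h
  rcases brec_true h with h | h
  · exact dp_b_0_s hy j u hu h
  · exact dp_b_44_s hy j u hu h
theorem snd_b (hy : Hy g H)
    (j u : ℕ) (hu : u < M) (h : disp_b j u = true) : Gd g H Lt.b u := by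
  unfold disp_b at h
  rcases brec_true h with h | h
  · rcases brec_true h with h | h
    · exact lF_good (T := T) (x := Lt.b) hM0 [Lt.b, Lt.b] (hat (rf_1 hy) 0 rfl) h
    · exact lF1_good (T := T) (x := Lt.b) hM0 .bi (hat (rf_11 hy) 1 rfl) h
  · rcases brec_true h with h | h
    · rcases brec_true h with h | h
      · exact lDef_good (T := T) (x := Lt.b) (by decide) rfl h
      · exact lPar_good (T := T) (x := Lt.b) (x' := Lt.bi) (by decide) rfl (ivt hy _ _ rfl) h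
    · exact dp_b_45_s hy j u hu h
theorem snc_b (hy : Hy g H)
    (j u : ℕ) (hu : u < M) (h : chk_b j u = true) : (T Lt.b u < A ∧ Gd g H Lt.b u) ∨ (A ≤ T Lt.b u ∧ MG u < A) := by
  unfold chk_b at h
  cases hb : Nat.ble A (T_b u) with
  | true => rw [hb] at h; exact Or.inr ⟨le_of_ble hb, le_of_ble h⟩
  | false => rw [hb] at h; exact Or.inl ⟨lt_of_ble_false hb, snd_b hy j u hu h⟩
theorem dp_bi_0_s (hy : Hy g H)
    (j u : ℕ) (hu : u < M) (h : dp_bi_0 j u = true) : Gd g H Lt.bi u := by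
  unfold dp_bi_0 at h
  rcases brec_true h with h | h
  · exact lS_good (T := T) (x := Lt.bi) hM0 hu [Lt.b] (hat (rf_11 hy) 0 rfl) h
  · exact lF_good (T := T) (x := Lt.bi) hM0 [Lt.ai, Lt.bi, Lt.ai, Lt.bi, Lt.ai] (hat (rb_2 hy) 1 rfl) h
theorem dp_bi_1_s (hy : Hy g H)
    (j u : ℕ) (hu : u < M) (h : dp_bi_1 j u = true) : Gd g H Lt.bi u := by
  unfold dp_bi_1 at h
  rcases brec_true h with h | h
  · exact lF_good (T := T) (x := Lt.bi) hM0 [Lt.ai, Lt.ai, Lt.b, Lt.ai, Lt.b, Lt.a, Lt.bi, Lt.a] (hat (rb_3 hy) 7 rfl) h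
  · exact lF_good (T := T) (x := Lt.bi) hM0 [Lt.a, Lt.a, Lt.b, Lt.ai, Lt.b, Lt.ai, Lt.bi, Lt.a] (hat (rf_3 hy) 0 rfl) h
theorem dp_bi_2_s (hy : Hy g H)
    (j u : ℕ) (hu : u < M) (h : dp_bi_2 j u = true) : Gd g H Lt.bi u := by
  unfold dp_bi_2 at h
  rcases brec_true h with h | h
  · exact lS_good (T := T) (x := Lt.bi) hM0 hu [Lt.ai, Lt.bi, Lt.ai, Lt.bi, Lt.ai] (hat (rb_2 hy) 1 rfl) h
  · exact lF_good (T := T) (x := Lt.bi) hM0 [Lt.a, Lt.bi, Lt.ai, Lt.ai, Lt.b, Lt.ai, Lt.b, Lt.a] (hat (rb_3 hy) 5 rfl) h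
theorem dp_bi_3_s (hy : Hy g H)
    (j u : ℕ) (hu : u < M) (h : dp_bi_3 j u = true) : Gd g H Lt.bi u := by
  unfold dp_bi_3 at h
  rcases brec_true h with h | h
  · exact lF_good (T := T) (x := Lt.bi) hM0 [Lt.d, Lt.ai, Lt.ai, Lt.bi, Lt.a, Lt.di, Lt.ai, Lt.ai, Lt.ai] (hat (rb_4 hy) 4 rfl) h
  · exact dp_bi_2_s hy j u hu h
theorem dp_bi_4_s (hy : Hy g H)
    (j u : ℕ) (hu : u < M) (h : dp_bi_4 j u = true) : Gd g H Lt.bi u := by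
  unfold dp_bi_4 at h
  rcases brec_true h with h | h
  · exact dp_bi_1_s hy j u hu h
  · exact dp_bi_3_s hy j u hu h
theorem dp_bi_5_s (hy : Hy g H)
    (j u : ℕ) (hu : u < M) (h : dp_bi_5 j u = true) : Gd g H Lt.bi u := by
  unfold dp_bi_5 at h
  rcases brec_true h with h | h
  · exact lS_good (T := T) (x := Lt.bi) hM0 hu [Lt.d, Lt.ai, Lt.ai, Lt.bi, Lt.a, Lt.di, Lt.ai, Lt.ai, Lt.ai] (hat (rb_4 hy) 4 rfl) h
  · exact lS_good (T := T) (x := Lt.bi) hM0 hu [Lt.a, Lt.a, Lt.b, Lt.ai, Lt.b, Lt.ai, Lt.bi, Lt.a] (hat (rf_3 hy) 0 rfl) h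
theorem dp_bi_6_s (hy : Hy g H)
    (j u : ℕ) (hu : u < M) (h : dp_bi_6 j u = true) : Gd g H Lt.bi u := by
  unfold dp_bi_6 at h
  rcases brec_true h with h | h
  · exact lF_good (T := T) (x := Lt.bi) hM0 [Lt.a, Lt.di, Lt.ai, Lt.ai, Lt.ai, Lt.bi, Lt.d, Lt.ai, Lt.ai] (hat (rb_4 hy) 8 rfl) h
  · exact lS_good (T := T) (x := Lt.bi) hM0 hu [Lt.ai, Lt.ai, Lt.b, Lt.ai, Lt.b, Lt.a, Lt.bi, Lt.a] (hat (rb_3 hy) 7 rfl) h
theorem dp_bi_7_s (hy : Hy g H)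
    (j u : ℕ) (hu : u < M) (h : dp_bi_7 j u = true) : Gd g H Lt.bi u := by
  unfold dp_bi_7 at h
  rcases brec_true h with h | h
  · exact lF_good (T := T) (x := Lt.bi) hM0 [Lt.a, Lt.bi, Lt.a, Lt.a, Lt.b, Lt.ai, Lt.b, Lt.ai] (hat (rf_3 hy) 7 rfl) h
  · exact lS_good (T := T) (x := Lt.bi) hM0 hu [Lt.a, Lt.bi, Lt.ai, Lt.ai, Lt.b, Lt.ai, Lt.b, Lt.a] (hat (rb_3 hy) 5 rfl) h
theorem dp_bi_8_s (hy : Hy g H)
    (j u : ℕ) (hu : u < M) (h : dp_bi_8 j u = true) : Gd g H Lt.bi u := by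
  unfold dp_bi_8 at h
  rcases brec_true h with h | h
  · exact dp_bi_6_s hy j u hu h
  · exact dp_bi_7_s hy j u hu h
theorem dp_bi_9_s (hy : Hy g H)
    (j u : ℕ) (hu : u < M) (h : dp_bi_9 j u = true) : Gd g H Lt.bi u := by
  unfold dp_bi_9 at h
  rcases brec_true h with h | h
  · exact dp_bi_5_s hy j u hu h
  · exact dp_bi_8_s hy j u hu h
theorem dp_bi_10_s (hy : Hy g H)
    (j u : ℕ) (hu : u < M) (h : dp_bi_10 j u = true) : Gd g H Lt.bi u := by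
  unfold dp_bi_10 at h
  rcases brec_true h with h | h
  · exact lS_good (T := T) (x := Lt.bi) hM0 hu [Lt.a, Lt.di, Lt.ai, Lt.ai, Lt.ai, Lt.bi, Lt.d, Lt.ai, Lt.ai] (hat (rb_4 hy) 8 rfl) h
  · exact lS_good (T := T) (x := Lt.bi) hM0 hu [Lt.d, Lt.b, Lt.ai, Lt.b, Lt.d, Lt.b, Lt.b, Lt.a, Lt.bi, Lt.di, Lt.bi, Lt.a] (hat (rf_5 hy) 12 rfl) h
theorem dp_bi_11_s (hy : Hy g H)
    (j u : ℕ) (hu : u < M) (h : dp_bi_11 j u = true) : Gd g H Lt.bi u := by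
  unfold dp_bi_11 at h
  rcases brec_true h with h | h
  · exact lF_good (T := T) (x := Lt.bi) hM0 [Lt.d, Lt.b, Lt.ai, Lt.b, Lt.d, Lt.b, Lt.b, Lt.a, Lt.bi, Lt.di, Lt.bi, Lt.a] (hat (rf_5 hy) 12 rfl) h
  · exact lS_good (T := T) (x := Lt.bi) hM0 hu [Lt.ai, Lt.d, Lt.a, Lt.b, Lt.di, Lt.ai, Lt.di, Lt.a, Lt.b, Lt.d, Lt.a, Lt.d] (hat (rf_6 hy) 4 rfl) h
theorem dp_bi_12_s (hy : Hy g H)
    (j u : ℕ) (hu : u < M) (h : dp_bi_12 j u = true) : Gd g H Lt.bi u := by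
  unfold dp_bi_12 at h
  rcases brec_true h with h | h
  · exact dp_bi_10_s hy j u hu h
  · exact dp_bi_11_s hy j u hu h
theorem dp_bi_13_s (hy : Hy g H)
    (j u : ℕ) (hu : u < M) (h : dp_bi_13 j u = true) : Gd g H Lt.bi u := by
  unfold dp_bi_13 at h
  rcases brec_true h with h | h
  · exact lS_good (T := T) (x := Lt.bi) hM0 hu [Lt.ai, Lt.di, Lt.a, Lt.b, Lt.di, Lt.ai, Lt.di, Lt.bi, Lt.ai, Lt.d, Lt.a, Lt.d] (hat (rb_6 hy) 6 rfl) h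
  · exact lS_good (T := T) (x := Lt.bi) hM0 hu [Lt.di, Lt.bi, Lt.a, Lt.bi, Lt.d, Lt.b, Lt.ai, Lt.b, Lt.d, Lt.b, Lt.b, Lt.a] (hat (rf_5 hy) 8 rfl) h
theorem dp_bi_14_s (hy : Hy g H)
    (j u : ℕ) (hu : u < M) (h : dp_bi_14 j u = true) : Gd g H Lt.bi u := by
  unfold dp_bi_14 at h
  rcases brec_true h with h | h
  · exact lS_good (T := T) (x := Lt.bi) hM0 hu [Lt.ai, Lt.d, Lt.a, Lt.d, Lt.bi, Lt.ai, Lt.di, Lt.a, Lt.b, Lt.di, Lt.ai, Lt.di] (hat (rb_6 hy) 1 rfl) h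
  · exact lS_good (T := T) (x := Lt.bi) hM0 hu [Lt.a, Lt.bi, Lt.a, Lt.a, Lt.b, Lt.ai, Lt.b, Lt.ai] (hat (rf_3 hy) 7 rfl) h
theorem dp_bi_15_s (hy : Hy g H)
    (j u : ℕ) (hu : u < M) (h : dp_bi_15 j u = true) : Gd g H Lt.bi u := by
  unfold dp_bi_15 at h
  rcases brec_true h with h | h
  · exact lS_good (T := T) (x := Lt.bi) hM0 hu [Lt.a, Lt.bi, Lt.di, Lt.b, Lt.ai, Lt.b, Lt.d, Lt.b, Lt.ai, Lt.bi, Lt.bi, Lt.di] (hat (rb_5 hy) 11 rfl) h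
  · exact dp_bi_14_s hy j u hu h
theorem dp_bi_16_s (hy : Hy g H)
    (j u : ℕ) (hu : u < M) (h : dp_bi_16 j u = true) : Gd g H Lt.bi u := by
  unfold dp_bi_16 at h
  rcases brec_true h with h | h
  · exact dp_bi_13_s hy j u hu h
  · exact dp_bi_15_s hy j u hu h
theorem dp_bi_17_s (hy : Hy g H)
    (j u : ℕ) (hu : u < M) (h : dp_bi_17 j u = true) : Gd g H Lt.bi u := by
  unfold dp_bi_17 at h
  rcases brec_true h with h | h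
  · exact dp_bi_12_s hy j u hu h
  · exact dp_bi_16_s hy j u hu h
theorem dp_bi_18_s (hy : Hy g H)
    (j u : ℕ) (hu : u < M) (h : dp_bi_18 j u = true) : Gd g H Lt.bi u := by
  unfold dp_bi_18 at h
  rcases brec_true h with h | h
  · exact lF_good (T := T) (x := Lt.bi) hM0 [Lt.ai, Lt.di, Lt.a, Lt.b, Lt.di, Lt.ai, Lt.di, Lt.bi, Lt.ai, Lt.d, Lt.a, Lt.d] (hat (rb_6 hy) 6 rfl) h
  · exact lS_good (T := T) (x := Lt.bi) hM0 hu [Lt.bi, Lt.bi] (hat (rb_1 hy) 0 rfl) h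
theorem dp_bi_19_s (hy : Hy g H)
    (j u : ℕ) (hu : u < M) (h : dp_bi_19 j u = true) : Gd g H Lt.bi u := by
  unfold dp_bi_19 at h
  rcases brec_true h with h | h
  · exact lS_good (T := T) (x := Lt.bi) hM0 hu [Lt.a, Lt.bi, Lt.d, Lt.b, Lt.ai, Lt.b, Lt.d, Lt.b, Lt.b, Lt.a, Lt.bi, Lt.di] (hat (rf_5 hy) 10 rfl) h
  · exact dp_bi_18_s hy j u hu h
theorem dp_bi_20_s (hy : Hy g H)
    (j u : ℕ) (hu : u < M) (h : dp_bi_20 j u = true) : Gd g H Lt.bi u := by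
  unfold dp_bi_20 at h
  rcases brec_true h with h | h
  · exact lF_good (T := T) (x := Lt.bi) hM0 [Lt.a, Lt.bi, Lt.di, Lt.b, Lt.ai, Lt.b, Lt.d, Lt.b, Lt.ai, Lt.bi, Lt.bi, Lt.di] (hat (rb_5 hy) 11 rfl) h
  · exact lS_good (T := T) (x := Lt.bi) hM0 hu [Lt.di, Lt.bi, Lt.a, Lt.bi, Lt.di, Lt.b, Lt.ai, Lt.b, Lt.d, Lt.b, Lt.ai, Lt.bi] (hat (rb_5 hy) 9 rfl) h
theorem dp_bi_21_s (hy : Hy g H)
    (j u : ℕ) (hu : u < M) (h : dp_bi_21 j u = true) : Gd g H Lt.bi u := by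
  unfold dp_bi_21 at h
  rcases brec_true h with h | h
  · exact lF_good (T := T) (x := Lt.bi) hM0 [Lt.di, Lt.b, Lt.ai, Lt.b, Lt.d, Lt.b, Lt.ai, Lt.bi, Lt.bi, Lt.di, Lt.bi, Lt.a] (hat (rb_5 hy) 0 rfl) h
  · exact dp_bi_20_s hy j u hu h
theorem dp_bi_22_s (hy : Hy g H)
    (j u : ℕ) (hu : u < M) (h : dp_bi_22 j u = true) : Gd g H Lt.bi u := by
  unfold dp_bi_22 at h
  rcases brec_true h with h | h
  · exact dp_bi_19_s hy j u hu h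
  · exact dp_bi_21_s hy j u hu h
theorem dp_bi_23_s (hy : Hy g H)
    (j u : ℕ) (hu : u < M) (h : dp_bi_23 j u = true) : Gd g H Lt.bi u := by
  unfold dp_bi_23 at h
  rcases brec_true h with h | h
  · exact lF_good (T := T) (x := Lt.bi) hM0 [Lt.di, Lt.bi, Lt.a, Lt.bi, Lt.d, Lt.b, Lt.ai, Lt.b, Lt.d, Lt.b, Lt.b, Lt.a] (hat (rf_5 hy) 8 rfl) h
  · exact lS_good (T := T) (x := Lt.bi) hM0 hu [Lt.di, Lt.b, Lt.ai, Lt.b, Lt.d, Lt.b, Lt.ai, Lt.bi, Lt.bi, Lt.di, Lt.bi, Lt.a] (hat (rb_5 hy) 0 rfl) h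
theorem dp_bi_24_s (hy : Hy g H)
    (j u : ℕ) (hu : u < M) (h : dp_bi_24 j u = true) : Gd g H Lt.bi u := by
  unfold dp_bi_24 at h
  rcases brec_true h with h | h
  · exact lF_good (T := T) (x := Lt.bi) hM0 [Lt.ai, Lt.d, Lt.a, Lt.d, Lt.bi, Lt.ai, Lt.di, Lt.a, Lt.b, Lt.di, Lt.ai, Lt.di] (hat (rb_6 hy) 1 rfl) h
  · exact lS_good (T := T) (x := Lt.bi) hM0 hu [Lt.a, Lt.d, Lt.b, Lt.di, Lt.a, Lt.bi, Lt.ai, Lt.d, Lt.bi, Lt.di, Lt.ai, Lt.b, Lt.d] (hat (rb_7 hy) 10 rfl) h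
theorem dp_bi_25_s (hy : Hy g H)
    (j u : ℕ) (hu : u < M) (h : dp_bi_25 j u = true) : Gd g H Lt.bi u := by
  unfold dp_bi_25 at h
  rcases brec_true h with h | h
  · exact lF_good (T := T) (x := Lt.bi) hM0 [Lt.a, Lt.bi, Lt.d, Lt.b, Lt.ai, Lt.b, Lt.d, Lt.b, Lt.b, Lt.a, Lt.bi, Lt.di] (hat (rf_5 hy) 10 rfl) h
  · exact dp_bi_24_s hy j u hu h
theorem dp_bi_26_s (hy : Hy g H)
    (j u : ℕ) (hu : u < M) (h : dp_bi_26 j u = true) : Gd g H Lt.bi u := by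
  unfold dp_bi_26 at h
  rcases brec_true h with h | h
  · exact dp_bi_23_s hy j u hu h
  · exact dp_bi_25_s hy j u hu h
theorem dp_bi_27_s (hy : Hy g H)
    (j u : ℕ) (hu : u < M) (h : dp_bi_27 j u = true) : Gd g H Lt.bi u := by
  unfold dp_bi_27 at h
  rcases brec_true h with h | h
  · exact lS_good (T := T) (x := Lt.bi) hM0 hu [Lt.di, Lt.ai, Lt.b, Lt.d, Lt.bi, Lt.a, Lt.d, Lt.b, Lt.di, Lt.a, Lt.bi, Lt.ai, Lt.d] (hat (rb_7 hy) 5 rfl) h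
  · exact lF_good (T := T) (x := Lt.bi) hM0 [Lt.bi, Lt.di, Lt.bi, Lt.a, Lt.bi, Lt.di, Lt.b, Lt.ai, Lt.b, Lt.d, Lt.b, Lt.ai] (hat (rb_5 hy) 8 rfl) h
theorem dp_bi_28_s (hy : Hy g H)
    (j u : ℕ) (hu : u < M) (h : dp_bi_28 j u = true) : Gd g H Lt.bi u := by
  unfold dp_bi_28 at h
  rcases brec_true h with h | h
  · exact lS_good (T := T) (x := Lt.bi) hM0 hu [Lt.ai, Lt.d, Lt.bi, Lt.di, Lt.ai, Lt.b, Lt.d, Lt.bi, Lt.a, Lt.d, Lt.b, Lt.di, Lt.a] (hat (rb_7 hy) 2 rfl) h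
  · exact lS_good (T := T) (x := Lt.bi) hM0 hu [Lt.di, Lt.ai, Lt.b, Lt.di, Lt.bi, Lt.a, Lt.d, Lt.b, Lt.di, Lt.a, Lt.b, Lt.ai, Lt.d] (hat (rf_7 hy) 2 rfl) h
theorem dp_bi_29_s (hy : Hy g H)
    (j u : ℕ) (hu : u < M) (h : dp_bi_29 j u = true) : Gd g H Lt.bi u := by
  unfold dp_bi_29 at h
  rcases brec_true h with h | h
  · exact lS_good (T := T) (x := Lt.bi) hM0 hu [Lt.a, Lt.d, Lt.b, Lt.di, Lt.a, Lt.b, Lt.ai, Lt.d, Lt.bi, Lt.di, Lt.ai, Lt.b, Lt.di] (hat (rf_7 hy) 7 rfl) h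
  · exact dp_bi_28_s hy j u hu h
theorem dp_bi_30_s (hy : Hy g H)
    (j u : ℕ) (hu : u < M) (h : dp_bi_30 j u = true) : Gd g H Lt.bi u := by
  unfold dp_bi_30 at h
  rcases brec_true h with h | h
  · exact dp_bi_27_s hy j u hu h
  · exact dp_bi_29_s hy j u hu h
theorem dp_bi_31_s (hy : Hy g H)
    (j u : ℕ) (hu : u < M) (h : dp_bi_31 j u = true) : Gd g H Lt.bi u := by
  unfold dp_bi_31 at h
  rcases brec_true h with h | h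
  · exact lF_good (T := T) (x := Lt.bi) hM0 [Lt.ai, Lt.d, Lt.a, Lt.b, Lt.di, Lt.ai, Lt.di, Lt.a, Lt.b, Lt.d, Lt.a, Lt.d] (hat (rf_6 hy) 4 rfl) h
  · exact lF_good (T := T) (x := Lt.bi) hM0 [Lt.di, Lt.bi, Lt.a, Lt.bi, Lt.di, Lt.b, Lt.ai, Lt.b, Lt.d, Lt.b, Lt.ai, Lt.bi] (hat (rb_5 hy) 9 rfl) h
theorem dp_bi_32_s (hy : Hy g H)
    (j u : ℕ) (hu : u < M) (h : dp_bi_32 j u = true) : Gd g H Lt.bi u := by
  unfold dp_bi_32 at h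
  rcases brec_true h with h | h
  · exact lF_good (T := T) (x := Lt.bi) hM0 [Lt.di, Lt.b, Lt.ai, Lt.bi, Lt.di, Lt.a, Lt.b, Lt.ai, Lt.b, Lt.d, Lt.b, Lt.a, Lt.bi, Lt.d] (hat (rf_8 hy) 6 rfl) h
  · exact lS_good (T := T) (x := Lt.bi) hM0 hu [Lt.bi, Lt.di, Lt.bi, Lt.a, Lt.bi, Lt.di, Lt.b, Lt.ai, Lt.b, Lt.d, Lt.b, Lt.ai] (hat (rb_5 hy) 8 rfl) h
theorem dp_bi_33_s (hy : Hy g H)
    (j u : ℕ) (hu : u < M) (h : dp_bi_33 j u = true) : Gd g H Lt.bi u := by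
  unfold dp_bi_33 at h
  rcases brec_true h with h | h
  · exact dp_bi_31_s hy j u hu h
  · exact dp_bi_32_s hy j u hu h
theorem dp_bi_34_s (hy : Hy g H)
    (j u : ℕ) (hu : u < M) (h : dp_bi_34 j u = true) : Gd g H Lt.bi u := by
  unfold dp_bi_34 at h
  rcases brec_true h with h | h
  · exact lF_good (T := T) (x := Lt.bi) hM0 [Lt.a, Lt.d, Lt.b, Lt.di, Lt.a, Lt.bi, Lt.ai, Lt.d, Lt.bi, Lt.di, Lt.ai, Lt.b, Lt.d] (hat (rb_7 hy) 10 rfl) h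
  · exact lF_good (T := T) (x := Lt.bi) hM0 [Lt.di, Lt.ai, Lt.b, Lt.d, Lt.bi, Lt.a, Lt.d, Lt.b, Lt.di, Lt.a, Lt.bi, Lt.ai, Lt.d] (hat (rb_7 hy) 5 rfl) h
theorem dp_bi_35_s (hy : Hy g H)
    (j u : ℕ) (hu : u < M) (h : dp_bi_35 j u = true) : Gd g H Lt.bi u := by
  unfold dp_bi_35 at h
  rcases brec_true h with h | h
  · exact lF_good (T := T) (x := Lt.bi) hM0 [Lt.di, Lt.ai, Lt.b, Lt.di, Lt.bi, Lt.a, Lt.d, Lt.b, Lt.di, Lt.a, Lt.b, Lt.ai, Lt.d] (hat (rf_7 hy) 2 rfl) h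
  · exact lF_good (T := T) (x := Lt.bi) hM0 [Lt.d, Lt.bi, Lt.di, Lt.b, Lt.ai, Lt.bi, Lt.di, Lt.a, Lt.b, Lt.ai, Lt.b, Lt.d, Lt.b, Lt.a] (hat (rf_8 hy) 4 rfl) h
theorem dp_bi_36_s (hy : Hy g H)
    (j u : ℕ) (hu : u < M) (h : dp_bi_36 j u = true) : Gd g H Lt.bi u := by
  unfold dp_bi_36 at h
  rcases brec_true h with h | h
  · exact lS_good (T := T) (x := Lt.bi) hM0 hu [Lt.d, Lt.b, Lt.di, Lt.b, Lt.ai, Lt.bi, Lt.di, Lt.bi, Lt.a, Lt.bi, Lt.ai, Lt.d, Lt.b, Lt.a] (hat (rb_8 hy) 8 rfl) h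
  · exact dp_bi_35_s hy j u hu h
theorem dp_bi_37_s (hy : Hy g H)
    (j u : ℕ) (hu : u < M) (h : dp_bi_37 j u = true) : Gd g H Lt.bi u := by
  unfold dp_bi_37 at h
  rcases brec_true h with h | h
  · exact lF_good (T := T) (x := Lt.bi) hM0 [Lt.a, Lt.d, Lt.b, Lt.di, Lt.a, Lt.b, Lt.ai, Lt.d, Lt.bi, Lt.di, Lt.ai, Lt.b, Lt.di] (hat (rf_7 hy) 7 rfl) h
  · exact dp_bi_36_s hy j u hu h
theorem dp_bi_38_s (hy : Hy g H)
    (j u : ℕ) (hu : u < M) (h : dp_bi_38 j u = true) : Gd g H Lt.bi u := by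
  unfold dp_bi_38 at h
  rcases brec_true h with h | h
  · exact dp_bi_34_s hy j u hu h
  · exact dp_bi_37_s hy j u hu h
theorem dp_bi_39_s (hy : Hy g H)
    (j u : ℕ) (hu : u < M) (h : dp_bi_39 j u = true) : Gd g H Lt.bi u := by
  unfold dp_bi_39 at h
  rcases brec_true h with h | h
  · exact dp_bi_33_s hy j u hu h
  · exact dp_bi_38_s hy j u hu h
theorem dp_bi_40_s (hy : Hy g H)
    (j u : ℕ) (hu : u < M) (h : dp_bi_40 j u = true) : Gd g H Lt.bi u := by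
  unfold dp_bi_40 at h
  rcases brec_true h with h | h
  · exact dp_bi_30_s hy j u hu h
  · exact dp_bi_39_s hy j u hu h
theorem dp_bi_41_s (hy : Hy g H)
    (j u : ℕ) (hu : u < M) (h : dp_bi_41 j u = true) : Gd g H Lt.bi u := by
  unfold dp_bi_41 at h
  rcases brec_true h with h | h
  · exact dp_bi_26_s hy j u hu h
  · exact dp_bi_40_s hy j u hu h
theorem dp_bi_42_s (hy : Hy g H)
    (j u : ℕ) (hu : u < M) (h : dp_bi_42 j u = true) : Gd g H Lt.bi u := by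
  unfold dp_bi_42 at h
  rcases brec_true h with h | h
  · exact dp_bi_22_s hy j u hu h
  · exact dp_bi_41_s hy j u hu h
theorem dp_bi_43_s (hy : Hy g H)
    (j u : ℕ) (hu : u < M) (h : dp_bi_43 j u = true) : Gd g H Lt.bi u := by
  unfold dp_bi_43 at h
  rcases brec_true h with h | h
  · exact dp_bi_17_s hy j u hu h
  · exact dp_bi_42_s hy j u hu h
theorem dp_bi_44_s (hy : Hy g H)
    (j u : ℕ) (hu : u < M) (h : dp_bi_44 j u = true) : Gd g H Lt.bi u := by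
  unfold dp_bi_44 at h
  rcases brec_true h with h | h
  · exact dp_bi_9_s hy j u hu h
  · exact dp_bi_43_s hy j u hu h
theorem dp_bi_45_s (hy : Hy g H)
    (j u : ℕ) (hu : u < M) (h : dp_bi_45 j u = true) : Gd g H Lt.bi u := by
  unfold dp_bi_45 at h
  rcases brec_true h with h | h
  · exact dp_bi_4_s hy j u hu h
  · exact dp_bi_44_s hy j u hu h
theorem dp_bi_46_s (hy : Hy g H)
    (j u : ℕ) (hu : u < M) (h : dp_bi_46 j u = true) : Gd g H Lt.bi u := by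
  unfold dp_bi_46 at h
  rcases brec_true h with h | h
  · exact dp_bi_0_s hy j u hu h
  · exact dp_bi_45_s hy j u hu h
theorem dp_bi_47_s (hy : Hy g H)
    (j u : ℕ) (hu : u < M) (h : dp_bi_47 j u = true) : Gd g H Lt.bi u := by
  unfold dp_bi_47 at h
  rcases brec_true h with h | h
  · rcases brec_true h with h | h
    · exact lDef_good (T := T) (x := Lt.bi) (by decide) rfl h
    · exact lF_good (T := T) (x := Lt.bi) hM0 [Lt.bi, Lt.bi] (hat (rb_1 hy) 0 rfl) h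
  · exact dp_bi_46_s hy j u hu h
theorem snd_bi (hy : Hy g H)
    (j u : ℕ) (hu : u < M) (h : disp_bi j u = true) : Gd g H Lt.bi u := by
  unfold disp_bi at h
  rcases brec_true h with h | h
  · rcases brec_true h with h | h
    · exact lF1_good (T := T) (x := Lt.bi) hM0 .b (hat (rf_11 hy) 0 rfl) h
    · exact lPar_good (T := T) (x := Lt.bi) (x' := Lt.b) (by decide) rfl (ivt hy _ _ rfl) h
  · exact dp_bi_47_s hy j u hu h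
theorem snc_bi (hy : Hy g H)
    (j u : ℕ) (hu : u < M) (h : chk_bi j u = true) : (T Lt.bi u < A ∧ Gd g H Lt.bi u) ∨ (A ≤ T Lt.bi u ∧ MG u < A) := by
  unfold chk_bi at h
  cases hb : Nat.ble A (T_bi u) with
  | true => rw [hb] at h; exact Or.inr ⟨le_of_ble hb, le_of_ble h⟩
  | false => rw [hb] at h; exact Or.inl ⟨lt_of_ble_false hb, snd_bi hy j u hu h⟩
theorem dp_d_0_s (hy : Hy g H)
    (j u : ℕ) (hu : u < M) (h : dp_d_0 j u = true) : Gd g H Lt.d u := by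
  unfold dp_d_0 at h
  rcases brec_true h with h | h
  · exact lS_good (T := T) (x := Lt.d) hM0 hu [Lt.di] (hat (rf_13 hy) 1 rfl) h
  · exact lF_good (T := T) (x := Lt.d) hM0 [Lt.ai, Lt.b, Lt.a, Lt.a, Lt.di, Lt.b, Lt.a, Lt.a, Lt.a] (hat (rf_4 hy) 1 rfl) h
theorem dp_d_1_s (hy : Hy g H)
    (j u : ℕ) (hu : u < M) (h : dp_d_1 j u = true) : Gd g H Lt.d u := by
  unfold dp_d_1 at h
  rcases brec_true h with h | h
  · exact lF_good (T := T) (x := Lt.d) hM0 [Lt.ai, Lt.ai, Lt.bi, Lt.a, Lt.di, Lt.ai, Lt.ai, Lt.ai, Lt.bi] (hat (rb_4 hy) 5 rfl) h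
  · exact lS_good (T := T) (x := Lt.d) hM0 hu [Lt.ai, Lt.b, Lt.a, Lt.a, Lt.di, Lt.b, Lt.a, Lt.a, Lt.a] (hat (rf_4 hy) 1 rfl) h
theorem dp_d_2_s (hy : Hy g H)
    (j u : ℕ) (hu : u < M) (h : dp_d_2 j u = true) : Gd g H Lt.d u := by
  unfold dp_d_2 at h
  rcases brec_true h with h | h
  · exact lS_good (T := T) (x := Lt.d) hM0 hu [Lt.bi, Lt.ai, Lt.di, Lt.a, Lt.b, Lt.di, Lt.ai, Lt.di, Lt.bi, Lt.ai, Lt.d, Lt.a] (hat (rb_6 hy) 5 rfl) h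
  · exact lF_good (T := T) (x := Lt.d) hM0 [Lt.a, Lt.d, Lt.bi, Lt.ai, Lt.di, Lt.a, Lt.b, Lt.di, Lt.ai, Lt.di, Lt.bi, Lt.ai] (hat (rb_6 hy) 3 rfl) h
theorem dp_d_3_s (hy : Hy g H)
    (j u : ℕ) (hu : u < M) (h : dp_d_3 j u = true) : Gd g H Lt.d u := by
  unfold dp_d_3 at h
  rcases brec_true h with h | h
  · exact lF_good (T := T) (x := Lt.d) hM0 [Lt.bi, Lt.ai, Lt.d, Lt.a, Lt.b, Lt.di, Lt.ai, Lt.di, Lt.a, Lt.b, Lt.d, Lt.a] (hat (rf_6 hy) 3 rfl) h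
  · exact dp_d_2_s hy j u hu h
theorem dp_d_4_s (hy : Hy g H)
    (j u : ℕ) (hu : u < M) (h : dp_d_4 j u = true) : Gd g H Lt.d u := by
  unfold dp_d_4 at h
  rcases brec_true h with h | h
  · exact lS_good (T := T) (x := Lt.d) hM0 hu [Lt.ai, Lt.ai, Lt.bi, Lt.a, Lt.di, Lt.ai, Lt.ai, Lt.ai, Lt.bi] (hat (rb_4 hy) 5 rfl) h
  · exact dp_d_3_s hy j u hu h
theorem dp_d_5_s (hy : Hy g H)
    (j u : ℕ) (hu : u < M) (h : dp_d_5 j u = true) : Gd g H Lt.d u := by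
  unfold dp_d_5 at h
  rcases brec_true h with h | h
  · exact lF_good (T := T) (x := Lt.d) hM0 [Lt.bi, Lt.ai, Lt.di, Lt.a, Lt.b, Lt.di, Lt.ai, Lt.di, Lt.bi, Lt.ai, Lt.d, Lt.a] (hat (rb_6 hy) 5 rfl) h
  · exact lS_good (T := T) (x := Lt.d) hM0 hu [Lt.a, Lt.d, Lt.bi, Lt.ai, Lt.d, Lt.a, Lt.b, Lt.di, Lt.ai, Lt.di, Lt.a, Lt.b] (hat (rf_6 hy) 1 rfl) h
theorem dp_d_6_s (hy : Hy g H)
    (j u : ℕ) (hu : u < M) (h : dp_d_6 j u = true) : Gd g H Lt.d u := by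
  unfold dp_d_6 at h
  rcases brec_true h with h | h
  · exact lS_good (T := T) (x := Lt.d) hM0 hu [Lt.b, Lt.b, Lt.a, Lt.bi, Lt.di, Lt.bi, Lt.a, Lt.bi, Lt.d, Lt.b, Lt.ai, Lt.b] (hat (rf_5 hy) 4 rfl) h
  · exact dp_d_5_s hy j u hu h
theorem dp_d_7_s (hy : Hy g H)
    (j u : ℕ) (hu : u < M) (h : dp_d_7 j u = true) : Gd g H Lt.d u := by
  unfold dp_d_7 at h
  rcases brec_true h with h | h
  · exact lS_good (T := T) (x := Lt.d) hM0 hu [Lt.b, Lt.ai, Lt.b, Lt.d, Lt.b, Lt.b, Lt.a, Lt.bi, Lt.di, Lt.bi, Lt.a, Lt.bi] (hat (rf_5 hy) 0 rfl) h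
  · exact lS_good (T := T) (x := Lt.d) hM0 hu [Lt.a, Lt.d, Lt.bi, Lt.ai, Lt.di, Lt.a, Lt.b, Lt.di, Lt.ai, Lt.di, Lt.bi, Lt.ai] (hat (rb_6 hy) 3 rfl) h
theorem dp_d_8_s (hy : Hy g H)
    (j u : ℕ) (hu : u < M) (h : dp_d_8 j u = true) : Gd g H Lt.d u := by
  unfold dp_d_8 at h
  rcases brec_true h with h | h
  · exact lF_good (T := T) (x := Lt.d) hM0 [Lt.a, Lt.d, Lt.bi, Lt.ai, Lt.d, Lt.a, Lt.b, Lt.di, Lt.ai, Lt.di, Lt.a, Lt.b] (hat (rf_6 hy) 1 rfl) h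
  · exact dp_d_7_s hy j u hu h
theorem dp_d_9_s (hy : Hy g H)
    (j u : ℕ) (hu : u < M) (h : dp_d_9 j u = true) : Gd g H Lt.d u := by
  unfold dp_d_9 at h
  rcases brec_true h with h | h
  · exact dp_d_6_s hy j u hu h
  · exact dp_d_8_s hy j u hu h
theorem dp_d_10_s (hy : Hy g H)
    (j u : ℕ) (hu : u < M) (h : dp_d_10 j u = true) : Gd g H Lt.d u := by
  unfold dp_d_10 at h
  rcases brec_true h with h | h
  · exact lS_good (T := T) (x := Lt.d) hM0 hu [Lt.bi, Lt.ai, Lt.d, Lt.a, Lt.b, Lt.di, Lt.ai, Lt.di, Lt.a, Lt.b, Lt.d, Lt.a] (hat (rf_6 hy) 3 rfl) h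
  · exact lF_good (T := T) (x := Lt.d) hM0 [Lt.b, Lt.b, Lt.a, Lt.bi, Lt.di, Lt.bi, Lt.a, Lt.bi, Lt.d, Lt.b, Lt.ai, Lt.b] (hat (rf_5 hy) 4 rfl) h
theorem dp_d_11_s (hy : Hy g H)
    (j u : ℕ) (hu : u < M) (h : dp_d_11 j u = true) : Gd g H Lt.d u := by
  unfold dp_d_11 at h
  rcases brec_true h with h | h
  · exact lF_good (T := T) (x := Lt.d) hM0 [Lt.b, Lt.ai, Lt.b, Lt.d, Lt.b, Lt.b, Lt.a, Lt.bi, Lt.di, Lt.bi, Lt.a, Lt.bi] (hat (rf_5 hy) 0 rfl) h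
  · exact lS_good (T := T) (x := Lt.d) hM0 hu [Lt.a, Lt.b, Lt.di, Lt.ai, Lt.di, Lt.a, Lt.b, Lt.d, Lt.a, Lt.d, Lt.bi, Lt.ai] (hat (rf_6 hy) 6 rfl) h
theorem dp_d_12_s (hy : Hy g H)
    (j u : ℕ) (hu : u < M) (h : dp_d_12 j u = true) : Gd g H Lt.d u := by
  unfold dp_d_12 at h
  rcases brec_true h with h | h
  · exact dp_d_10_s hy j u hu h
  · exact dp_d_11_s hy j u hu h
theorem dp_d_13_s (hy : Hy g H)
    (j u : ℕ) (hu : u < M) (h : dp_d_13 j u = true) : Gd g H Lt.d u := by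
  unfold dp_d_13 at h
  rcases brec_true h with h | h
  · exact lF_good (T := T) (x := Lt.d) hM0 [Lt.b, Lt.ai, Lt.bi, Lt.bi, Lt.di, Lt.bi, Lt.a, Lt.bi, Lt.di, Lt.b, Lt.ai, Lt.b] (hat (rb_5 hy) 5 rfl) h
  · exact lS_good (T := T) (x := Lt.d) hM0 hu [Lt.b, Lt.di, Lt.a, Lt.b, Lt.ai, Lt.d, Lt.bi, Lt.di, Lt.ai, Lt.b, Lt.di, Lt.bi, Lt.a] (hat (rf_7 hy) 9 rfl) h
theorem dp_d_14_s (hy : Hy g H)
    (j u : ℕ) (hu : u < M) (h : dp_d_14 j u = true) : Gd g H Lt.d u := by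
  unfold dp_d_14 at h
  rcases brec_true h with h | h
  · exact lF_good (T := T) (x := Lt.d) hM0 [Lt.a, Lt.b, Lt.di, Lt.ai, Lt.di, Lt.a, Lt.b, Lt.d, Lt.a, Lt.d, Lt.bi, Lt.ai] (hat (rf_6 hy) 6 rfl) h
  · exact dp_d_13_s hy j u hu h
theorem dp_d_15_s (hy : Hy g H)
    (j u : ℕ) (hu : u < M) (h : dp_d_15 j u = true) : Gd g H Lt.d u := by
  unfold dp_d_15 at h
  rcases brec_true h with h | h
  · exact lS_good (T := T) (x := Lt.d) hM0 hu [Lt.b, Lt.ai, Lt.bi, Lt.bi, Lt.di, Lt.bi, Lt.a, Lt.bi, Lt.di, Lt.b, Lt.ai, Lt.b] (hat (rb_5 hy) 5 rfl) h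
  · exact dp_d_14_s hy j u hu h
theorem dp_d_16_s (hy : Hy g H)
    (j u : ℕ) (hu : u < M) (h : dp_d_16 j u = true) : Gd g H Lt.d u := by
  unfold dp_d_16 at h
  rcases brec_true h with h | h
  · exact lS_good (T := T) (x := Lt.d) hM0 hu [Lt.bi, Lt.di, Lt.ai, Lt.b, Lt.d, Lt.bi, Lt.a, Lt.d, Lt.b, Lt.di, Lt.a, Lt.bi, Lt.ai] (hat (rb_7 hy) 4 rfl) h
  · exact lS_good (T := T) (x := Lt.d) hM0 hu [Lt.bi, Lt.di, Lt.ai, Lt.b, Lt.di, Lt.bi, Lt.a, Lt.d, Lt.b, Lt.di, Lt.a, Lt.b, Lt.ai] (hat (rf_7 hy) 1 rfl) h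
theorem dp_d_17_s (hy : Hy g H)
    (j u : ℕ) (hu : u < M) (h : dp_d_17 j u = true) : Gd g H Lt.d u := by
  unfold dp_d_17 at h
  rcases brec_true h with h | h
  · exact lS_good (T := T) (x := Lt.d) hM0 hu [Lt.d, Lt.d] (hat (rf_0 hy) 0 rfl) h
  · exact lF_good (T := T) (x := Lt.d) hM0 [Lt.bi, Lt.a, Lt.d, Lt.b, Lt.di, Lt.a, Lt.bi, Lt.ai, Lt.d, Lt.bi, Lt.di, Lt.ai, Lt.b] (hat (rb_7 hy) 9 rfl) h
theorem dp_d_18_s (hy : Hy g H)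
    (j u : ℕ) (hu : u < M) (h : dp_d_18 j u = true) : Gd g H Lt.d u := by
  unfold dp_d_18 at h
  rcases brec_true h with h | h
  · exact dp_d_16_s hy j u hu h
  · exact dp_d_17_s hy j u hu h
theorem dp_d_19_s (hy : Hy g H)
    (j u : ℕ) (hu : u < M) (h : dp_d_19 j u = true) : Gd g H Lt.d u := by
  unfold dp_d_19 at h
  rcases brec_true h with h | h
  · exact lF_good (T := T) (x := Lt.d) hM0 [Lt.bi, Lt.di, Lt.ai, Lt.b, Lt.d, Lt.bi, Lt.a, Lt.d, Lt.b, Lt.di, Lt.a, Lt.bi, Lt.ai] (hat (rb_7 hy) 4 rfl) h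
  · exact lF_good (T := T) (x := Lt.d) hM0 [Lt.bi, Lt.di, Lt.ai, Lt.b, Lt.di, Lt.bi, Lt.a, Lt.d, Lt.b, Lt.di, Lt.a, Lt.b, Lt.ai] (hat (rf_7 hy) 1 rfl) h
theorem dp_d_20_s (hy : Hy g H)
    (j u : ℕ) (hu : u < M) (h : dp_d_20 j u = true) : Gd g H Lt.d u := by
  unfold dp_d_20 at h
  rcases brec_true h with h | h
  · exact lS_good (T := T) (x := Lt.d) hM0 hu [Lt.b, Lt.di, Lt.a, Lt.bi, Lt.ai, Lt.d, Lt.bi, Lt.di, Lt.ai, Lt.b, Lt.d, Lt.bi, Lt.a] (hat (rb_7 hy) 12 rfl) h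
  · exact dp_d_19_s hy j u hu h
theorem dp_d_21_s (hy : Hy g H)
    (j u : ℕ) (hu : u < M) (h : dp_d_21 j u = true) : Gd g H Lt.d u := by
  unfold dp_d_21 at h
  rcases brec_true h with h | h
  · exact lF_good (T := T) (x := Lt.d) hM0 [Lt.b, Lt.di, Lt.a, Lt.b, Lt.ai, Lt.d, Lt.bi, Lt.di, Lt.ai, Lt.b, Lt.di, Lt.bi, Lt.a] (hat (rf_7 hy) 9 rfl) h
  · exact lS_good (T := T) (x := Lt.d) hM0 hu [Lt.bi, Lt.a, Lt.d, Lt.b, Lt.di, Lt.a, Lt.bi, Lt.ai, Lt.d, Lt.bi, Lt.di, Lt.ai, Lt.b] (hat (rb_7 hy) 9 rfl) h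
theorem dp_d_22_s (hy : Hy g H)
    (j u : ℕ) (hu : u < M) (h : dp_d_22 j u = true) : Gd g H Lt.d u := by
  unfold dp_d_22 at h
  rcases brec_true h with h | h
  · exact lF_good (T := T) (x := Lt.d) hM0 [Lt.b, Lt.di, Lt.a, Lt.bi, Lt.ai, Lt.d, Lt.bi, Lt.di, Lt.ai, Lt.b, Lt.d, Lt.bi, Lt.a] (hat (rb_7 hy) 12 rfl) h
  · exact lS_good (T := T) (x := Lt.d) hM0 hu [Lt.b, Lt.di, Lt.b, Lt.ai, Lt.bi, Lt.di, Lt.bi, Lt.a, Lt.bi, Lt.ai, Lt.d, Lt.b, Lt.a, Lt.bi] (hat (rb_8 hy) 9 rfl) h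
theorem dp_d_23_s (hy : Hy g H)
    (j u : ℕ) (hu : u < M) (h : dp_d_23 j u = true) : Gd g H Lt.d u := by
  unfold dp_d_23 at h
  rcases brec_true h with h | h
  · exact lF_good (T := T) (x := Lt.d) hM0 [Lt.b, Lt.di, Lt.b, Lt.ai, Lt.bi, Lt.di, Lt.bi, Lt.a, Lt.bi, Lt.ai, Lt.d, Lt.b, Lt.a, Lt.bi] (hat (rb_8 hy) 9 rfl) h
  · exact dp_d_22_s hy j u hu h
theorem dp_d_24_s (hy : Hy g H)
    (j u : ℕ) (hu : u < M) (h : dp_d_24 j u = true) : Gd g H Lt.d u := by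
  unfold dp_d_24 at h
  rcases brec_true h with h | h
  · exact dp_d_21_s hy j u hu h
  · exact dp_d_23_s hy j u hu h
theorem dp_d_25_s (hy : Hy g H)
    (j u : ℕ) (hu : u < M) (h : dp_d_25 j u = true) : Gd g H Lt.d u := by
  unfold dp_d_25 at h
  rcases brec_true h with h | h
  · exact dp_d_20_s hy j u hu h
  · exact dp_d_24_s hy j u hu h
theorem dp_d_26_s (hy : Hy g H)
    (j u : ℕ) (hu : u < M) (h : dp_d_26 j u = true) : Gd g H Lt.d u := by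
  unfold dp_d_26 at h
  rcases brec_true h with h | h
  · exact dp_d_18_s hy j u hu h
  · exact dp_d_25_s hy j u hu h
theorem dp_d_27_s (hy : Hy g H)
    (j u : ℕ) (hu : u < M) (h : dp_d_27 j u = true) : Gd g H Lt.d u := by
  unfold dp_d_27 at h
  rcases brec_true h with h | h
  · exact dp_d_15_s hy j u hu h
  · exact dp_d_26_s hy j u hu h
theorem dp_d_28_s (hy : Hy g H)
    (j u : ℕ) (hu : u < M) (h : dp_d_28 j u = true) : Gd g H Lt.d u := by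
  unfold dp_d_28 at h
  rcases brec_true h with h | h
  · exact dp_d_12_s hy j u hu h
  · exact dp_d_27_s hy j u hu h
theorem dp_d_29_s (hy : Hy g H)
    (j u : ℕ) (hu : u < M) (h : dp_d_29 j u = true) : Gd g H Lt.d u := by
  unfold dp_d_29 at h
  rcases brec_true h with h | h
  · exact dp_d_9_s hy j u hu h
  · exact dp_d_28_s hy j u hu h
theorem dp_d_30_s (hy : Hy g H)
    (j u : ℕ) (hu : u < M) (h : dp_d_30 j u = true) : Gd g H Lt.d u := by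
  unfold dp_d_30 at h
  rcases brec_true h with h | h
  · exact dp_d_4_s hy j u hu h
  · exact dp_d_29_s hy j u hu h
theorem dp_d_31_s (hy : Hy g H)
    (j u : ℕ) (hu : u < M) (h : dp_d_31 j u = true) : Gd g H Lt.d u := by
  unfold dp_d_31 at h
  rcases brec_true h with h | h
  · exact dp_d_1_s hy j u hu h
  · exact dp_d_30_s hy j u hu h
theorem dp_d_32_s (hy : Hy g H)
    (j u : ℕ) (hu : u < M) (h : dp_d_32 j u = true) : Gd g H Lt.d u := by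
  unfold dp_d_32 at h
  rcases brec_true h with h | h
  · exact dp_d_0_s hy j u hu h
  · exact dp_d_31_s hy j u hu h
theorem dp_d_33_s (hy : Hy g H)
    (j u : ℕ) (hu : u < M) (h : dp_d_33 j u = true) : Gd g H Lt.d u := by
  unfold dp_d_33 at h
  rcases brec_true h with h | h
  · exact lPar_good (T := T) (x := Lt.d) (x' := Lt.di) (by decide) rfl (ivt hy _ _ rfl) h
  · exact dp_d_32_s hy j u hu h
theorem snd_d (hy : Hy g H)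
    (j u : ℕ) (hu : u < M) (h : disp_d j u = true) : Gd g H Lt.d u := by
  unfold disp_d at h
  rcases brec_true h with h | h
  · rcases brec_true h with h | h
    · exact lF_good (T := T) (x := Lt.d) hM0 [Lt.d, Lt.d] (hat (rf_0 hy) 0 rfl) h
    · exact lF1_good (T := T) (x := Lt.d) hM0 .di (hat (rf_13 hy) 1 rfl) h
  · rcases brec_true h with h | h
    · exact lDef_good (T := T) (x := Lt.d) (by decide) rfl h
    · exact dp_d_33_s hy j u hu h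
theorem snc_d (hy : Hy g H)
    (j u : ℕ) (hu : u < M) (h : chk_d j u = true) : (T Lt.d u < A ∧ Gd g H Lt.d u) ∨ (A ≤ T Lt.d u ∧ MG u < A) := by
  unfold chk_d at h
  cases hb : Nat.ble A (T_d u) with
  | true => rw [hb] at h; exact Or.inr ⟨le_of_ble hb, le_of_ble h⟩
  | false => rw [hb] at h; exact Or.inl ⟨lt_of_ble_false hb, snd_d hy j u hu h⟩
theorem dp_di_0_s (hy : Hy g H)
    (j u : ℕ) (hu : u < M) (h : dp_di_0 j u = true) : Gd g H Lt.di u := by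
  unfold dp_di_0 at h
  rcases brec_true h with h | h
  · exact lF_good (T := T) (x := Lt.di) hM0 [Lt.di, Lt.di] (hat (rb_0 hy) 0 rfl) h
  · exact lS_good (T := T) (x := Lt.di) hM0 hu [Lt.d] (hat (rf_13 hy) 0 rfl) h
theorem dp_di_1_s (hy : Hy g H)
    (j u : ℕ) (hu : u < M) (h : dp_di_1 j u = true) : Gd g H Lt.di u := by
  unfold dp_di_1 at h
  rcases brec_true h with h | h
  · exact lF_good (T := T) (x := Lt.di) hM0 [Lt.b, Lt.a, Lt.a, Lt.a, Lt.d, Lt.ai, Lt.b, Lt.a, Lt.a] (hat (rf_4 hy) 6 rfl) h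
  · exact lF_good (T := T) (x := Lt.di) hM0 [Lt.ai, Lt.ai, Lt.ai, Lt.bi, Lt.d, Lt.ai, Lt.ai, Lt.bi, Lt.a] (hat (rb_4 hy) 0 rfl) h
theorem dp_di_2_s (hy : Hy g H)
    (j u : ℕ) (hu : u < M) (h : dp_di_2 j u = true) : Gd g H Lt.di u := by
  unfold dp_di_2 at h
  rcases brec_true h with h | h
  · exact lS_good (T := T) (x := Lt.di) hM0 hu [Lt.b, Lt.a, Lt.a, Lt.a, Lt.d, Lt.ai, Lt.b, Lt.a, Lt.a] (hat (rf_4 hy) 6 rfl) h
  · exact lS_good (T := T) (x := Lt.di) hM0 hu [Lt.ai, Lt.ai, Lt.ai, Lt.bi, Lt.d, Lt.ai, Lt.ai, Lt.bi, Lt.a] (hat (rb_4 hy) 0 rfl) h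
theorem dp_di_3_s (hy : Hy g H)
    (j u : ℕ) (hu : u < M) (h : dp_di_3 j u = true) : Gd g H Lt.di u := by
  unfold dp_di_3 at h
  rcases brec_true h with h | h
  · exact lS_good (T := T) (x := Lt.di) hM0 hu [Lt.bi, Lt.ai, Lt.d, Lt.a, Lt.d, Lt.bi, Lt.ai, Lt.di, Lt.a, Lt.b, Lt.di, Lt.ai] (hat (rb_6 hy) 0 rfl) h
  · exact lF_good (T := T) (x := Lt.di) hM0 [Lt.b, Lt.ai, Lt.b, Lt.d, Lt.b, Lt.ai, Lt.bi, Lt.bi, Lt.di, Lt.bi, Lt.a, Lt.bi] (hat (rb_5 hy) 1 rfl) h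
theorem dp_di_4_s (hy : Hy g H)
    (j u : ℕ) (hu : u < M) (h : dp_di_4 j u = true) : Gd g H Lt.di u := by
  unfold dp_di_4 at h
  rcases brec_true h with h | h
  · exact lS_good (T := T) (x := Lt.di) hM0 hu [Lt.ai, Lt.di, Lt.bi, Lt.ai, Lt.d, Lt.a, Lt.d, Lt.bi, Lt.ai, Lt.di, Lt.a, Lt.b] (hat (rb_6 hy) 11 rfl) h
  · exact dp_di_3_s hy j u hu h
theorem dp_di_5_s (hy : Hy g H)
    (j u : ℕ) (hu : u < M) (h : dp_di_5 j u = true) : Gd g H Lt.di u := by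
  unfold dp_di_5 at h
  rcases brec_true h with h | h
  · exact lF_good (T := T) (x := Lt.di) hM0 [Lt.bi, Lt.ai, Lt.d, Lt.a, Lt.d, Lt.bi, Lt.ai, Lt.di, Lt.a, Lt.b, Lt.di, Lt.ai] (hat (rb_6 hy) 0 rfl) h
  · exact lS_good (T := T) (x := Lt.di) hM0 hu [Lt.bi, Lt.a, Lt.bi, Lt.di, Lt.b, Lt.ai, Lt.b, Lt.d, Lt.b, Lt.ai, Lt.bi, Lt.bi] (hat (rb_5 hy) 10 rfl) h
theorem dp_di_6_s (hy : Hy g H)
    (j u : ℕ) (hu : u < M) (h : dp_di_6 j u = true) : Gd g H Lt.di u := by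
  unfold dp_di_6 at h
  rcases brec_true h with h | h
  · exact lS_good (T := T) (x := Lt.di) hM0 hu [Lt.a, Lt.b, Lt.d, Lt.a, Lt.d, Lt.bi, Lt.ai, Lt.d, Lt.a, Lt.b, Lt.di, Lt.ai] (hat (rf_6 hy) 11 rfl) h
  · exact lS_good (T := T) (x := Lt.di) hM0 hu [Lt.b, Lt.ai, Lt.b, Lt.d, Lt.b, Lt.ai, Lt.bi, Lt.bi, Lt.di, Lt.bi, Lt.a, Lt.bi] (hat (rb_5 hy) 1 rfl) h
theorem dp_di_7_s (hy : Hy g H)
    (j u : ℕ) (hu : u < M) (h : dp_di_7 j u = true) : Gd g H Lt.di u := by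
  unfold dp_di_7 at h
  rcases brec_true h with h | h
  · exact dp_di_5_s hy j u hu h
  · exact dp_di_6_s hy j u hu h
theorem dp_di_8_s (hy : Hy g H)
    (j u : ℕ) (hu : u < M) (h : dp_di_8 j u = true) : Gd g H Lt.di u := by
  unfold dp_di_8 at h
  rcases brec_true h with h | h
  · exact dp_di_4_s hy j u hu h
  · exact dp_di_7_s hy j u hu h
theorem dp_di_9_s (hy : Hy g H)
    (j u : ℕ) (hu : u < M) (h : dp_di_9 j u = true) : Gd g H Lt.di u := by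
  unfold dp_di_9 at h
  rcases brec_true h with h | h
  · exact lF_good (T := T) (x := Lt.di) hM0 [Lt.ai, Lt.di, Lt.a, Lt.b, Lt.d, Lt.a, Lt.d, Lt.bi, Lt.ai, Lt.d, Lt.a, Lt.b] (hat (rf_6 hy) 9 rfl) h
  · exact lF_good (T := T) (x := Lt.di) hM0 [Lt.bi, Lt.a, Lt.bi, Lt.di, Lt.b, Lt.ai, Lt.b, Lt.d, Lt.b, Lt.ai, Lt.bi, Lt.bi] (hat (rb_5 hy) 10 rfl) h
theorem dp_di_10_s (hy : Hy g H)
    (j u : ℕ) (hu : u < M) (h : dp_di_10 j u = true) : Gd g H Lt.di u := by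
  unfold dp_di_10 at h
  rcases brec_true h with h | h
  · exact lF_good (T := T) (x := Lt.di) hM0 [Lt.a, Lt.b, Lt.d, Lt.a, Lt.d, Lt.bi, Lt.ai, Lt.d, Lt.a, Lt.b, Lt.di, Lt.ai] (hat (rf_6 hy) 11 rfl) h
  · exact lS_good (T := T) (x := Lt.di) hM0 hu [Lt.a, Lt.b, Lt.di, Lt.ai, Lt.di, Lt.bi, Lt.ai, Lt.d, Lt.a, Lt.d, Lt.bi, Lt.ai] (hat (rb_6 hy) 8 rfl) h
theorem dp_di_11_s (hy : Hy g H)
    (j u : ℕ) (hu : u < M) (h : dp_di_11 j u = true) : Gd g H Lt.di u := by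
  unfold dp_di_11 at h
  rcases brec_true h with h | h
  · exact lF_good (T := T) (x := Lt.di) hM0 [Lt.ai, Lt.di, Lt.bi, Lt.ai, Lt.d, Lt.a, Lt.d, Lt.bi, Lt.ai, Lt.di, Lt.a, Lt.b] (hat (rb_6 hy) 11 rfl) h
  · exact dp_di_10_s hy j u hu h
theorem dp_di_12_s (hy : Hy g H)
    (j u : ℕ) (hu : u < M) (h : dp_di_12 j u = true) : Gd g H Lt.di u := by
  unfold dp_di_12 at h
  rcases brec_true h with h | h
  · exact dp_di_9_s hy j u hu h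
  · exact dp_di_11_s hy j u hu h
theorem dp_di_13_s (hy : Hy g H)
    (j u : ℕ) (hu : u < M) (h : dp_di_13 j u = true) : Gd g H Lt.di u := by
  unfold dp_di_13 at h
  rcases brec_true h with h | h
  · exact lF_good (T := T) (x := Lt.di) hM0 [Lt.a, Lt.b, Lt.di, Lt.ai, Lt.di, Lt.bi, Lt.ai, Lt.d, Lt.a, Lt.d, Lt.bi, Lt.ai] (hat (rb_6 hy) 8 rfl) h
  · exact lF_good (T := T) (x := Lt.di) hM0 [Lt.bi, Lt.a, Lt.bi, Lt.d, Lt.b, Lt.ai, Lt.b, Lt.d, Lt.b, Lt.b, Lt.a, Lt.bi] (hat (rf_5 hy) 9 rfl) h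
theorem dp_di_14_s (hy : Hy g H)
    (j u : ℕ) (hu : u < M) (h : dp_di_14 j u = true) : Gd g H Lt.di u := by
  unfold dp_di_14 at h
  rcases brec_true h with h | h
  · exact lS_good (T := T) (x := Lt.di) hM0 hu [Lt.ai, Lt.di, Lt.a, Lt.b, Lt.d, Lt.a, Lt.d, Lt.bi, Lt.ai, Lt.d, Lt.a, Lt.b] (hat (rf_6 hy) 9 rfl) h
  · exact lS_good (T := T) (x := Lt.di) hM0 hu [Lt.bi, Lt.a, Lt.bi, Lt.d, Lt.b, Lt.ai, Lt.b, Lt.d, Lt.b, Lt.b, Lt.a, Lt.bi] (hat (rf_5 hy) 9 rfl) h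
theorem dp_di_15_s (hy : Hy g H)
    (j u : ℕ) (hu : u < M) (h : dp_di_15 j u = true) : Gd g H Lt.di u := by
  unfold dp_di_15 at h
  rcases brec_true h with h | h
  · exact dp_di_13_s hy j u hu h
  · exact dp_di_14_s hy j u hu h
theorem dp_di_16_s (hy : Hy g H)
    (j u : ℕ) (hu : u < M) (h : dp_di_16 j u = true) : Gd g H Lt.di u := by
  unfold dp_di_16 at h
  rcases brec_true h with h | h
  · exact lF_good (T := T) (x := Lt.di) hM0 [Lt.bi, Lt.a, Lt.d, Lt.b, Lt.di, Lt.a, Lt.b, Lt.ai, Lt.d, Lt.bi, Lt.di, Lt.ai, Lt.b] (hat (rf_7 hy) 6 rfl) h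
  · exact lS_good (T := T) (x := Lt.di) hM0 hu [Lt.ai, Lt.b, Lt.di, Lt.bi, Lt.a, Lt.d, Lt.b, Lt.di, Lt.a, Lt.b, Lt.ai, Lt.d, Lt.bi] (hat (rf_7 hy) 3 rfl) h
theorem dp_di_17_s (hy : Hy g H)
    (j u : ℕ) (hu : u < M) (h : dp_di_17 j u = true) : Gd g H Lt.di u := by
  unfold dp_di_17 at h
  rcases brec_true h with h | h
  · exact lS_good (T := T) (x := Lt.di) hM0 hu [Lt.ai, Lt.b, Lt.d, Lt.bi, Lt.a, Lt.d, Lt.b, Lt.di, Lt.a, Lt.bi, Lt.ai, Lt.d, Lt.bi] (hat (rb_7 hy) 6 rfl) h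
  · exact dp_di_16_s hy j u hu h
theorem dp_di_18_s (hy : Hy g H)
    (j u : ℕ) (hu : u < M) (h : dp_di_18 j u = true) : Gd g H Lt.di u := by
  unfold dp_di_18 at h
  rcases brec_true h with h | h
  · exact lF_good (T := T) (x := Lt.di) hM0 [Lt.ai, Lt.b, Lt.di, Lt.bi, Lt.a, Lt.d, Lt.b, Lt.di, Lt.a, Lt.b, Lt.ai, Lt.d, Lt.bi] (hat (rf_7 hy) 3 rfl) h
  · exact lS_good (T := T) (x := Lt.di) hM0 hu [Lt.a, Lt.b, Lt.ai, Lt.d, Lt.bi, Lt.di, Lt.ai, Lt.b, Lt.di, Lt.bi, Lt.a, Lt.d, Lt.b] (hat (rf_7 hy) 11 rfl) h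
theorem dp_di_19_s (hy : Hy g H)
    (j u : ℕ) (hu : u < M) (h : dp_di_19 j u = true) : Gd g H Lt.di u := by
  unfold dp_di_19 at h
  rcases brec_true h with h | h
  · exact lS_good (T := T) (x := Lt.di) hM0 hu [Lt.bi, Lt.a, Lt.d, Lt.b, Lt.di, Lt.a, Lt.b, Lt.ai, Lt.d, Lt.bi, Lt.di, Lt.ai, Lt.b] (hat (rf_7 hy) 6 rfl) h
  · exact dp_di_18_s hy j u hu h
theorem dp_di_20_s (hy : Hy g H)
    (j u : ℕ) (hu : u < M) (h : dp_di_20 j u = true) : Gd g H Lt.di u := by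
  unfold dp_di_20 at h
  rcases brec_true h with h | h
  · exact lF_good (T := T) (x := Lt.di) hM0 [Lt.a, Lt.b, Lt.ai, Lt.d, Lt.bi, Lt.di, Lt.ai, Lt.b, Lt.di, Lt.bi, Lt.a, Lt.d, Lt.b] (hat (rf_7 hy) 11 rfl) h
  · exact lS_good (T := T) (x := Lt.di) hM0 hu [Lt.di, Lt.di] (hat (rb_0 hy) 0 rfl) h
theorem dp_di_21_s (hy : Hy g H)
    (j u : ℕ) (hu : u < M) (h : dp_di_21 j u = true) : Gd g H Lt.di u := by
  unfold dp_di_21 at h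
  rcases brec_true h with h | h
  · exact lF_good (T := T) (x := Lt.di) hM0 [Lt.ai, Lt.b, Lt.d, Lt.bi, Lt.a, Lt.d, Lt.b, Lt.di, Lt.a, Lt.bi, Lt.ai, Lt.d, Lt.bi] (hat (rb_7 hy) 6 rfl) h
  · exact lF_good (T := T) (x := Lt.di) hM0 [Lt.bi, Lt.a, Lt.bi, Lt.ai, Lt.d, Lt.b, Lt.a, Lt.bi, Lt.d, Lt.b, Lt.di, Lt.b, Lt.ai, Lt.bi] (hat (rb_8 hy) 0 rfl) h
theorem dp_di_22_s (hy : Hy g H)
    (j u : ℕ) (hu : u < M) (h : dp_di_22 j u = true) : Gd g H Lt.di u := by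
  unfold dp_di_22 at h
  rcases brec_true h with h | h
  · exact lS_good (T := T) (x := Lt.di) hM0 hu [Lt.a, Lt.bi, Lt.ai, Lt.d, Lt.bi, Lt.di, Lt.ai, Lt.b, Lt.d, Lt.bi, Lt.a, Lt.d, Lt.b] (hat (rb_7 hy) 0 rfl) h
  · exact lF_good (T := T) (x := Lt.di) hM0 [Lt.a, Lt.bi, Lt.ai, Lt.d, Lt.bi, Lt.di, Lt.ai, Lt.b, Lt.d, Lt.bi, Lt.a, Lt.d, Lt.b] (hat (rb_7 hy) 0 rfl) h
theorem dp_di_23_s (hy : Hy g H)
    (j u : ℕ) (hu : u < M) (h : dp_di_23 j u = true) : Gd g H Lt.di u := by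
  unfold dp_di_23 at h
  rcases brec_true h with h | h
  · exact lS_good (T := T) (x := Lt.di) hM0 hu [Lt.a, Lt.b, Lt.ai, Lt.b, Lt.d, Lt.b, Lt.a, Lt.bi, Lt.d, Lt.bi, Lt.di, Lt.b, Lt.ai, Lt.bi] (hat (rf_8 hy) 11 rfl) h
  · exact dp_di_22_s hy j u hu h
theorem dp_di_24_s (hy : Hy g H)
    (j u : ℕ) (hu : u < M) (h : dp_di_24 j u = true) : Gd g H Lt.di u := by
  unfold dp_di_24 at h
  rcases brec_true h with h | h
  · exact dp_di_21_s hy j u hu h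
  · exact dp_di_23_s hy j u hu h
theorem dp_di_25_s (hy : Hy g H)
    (j u : ℕ) (hu : u < M) (h : dp_di_25 j u = true) : Gd g H Lt.di u := by
  unfold dp_di_25 at h
  rcases brec_true h with h | h
  · exact dp_di_20_s hy j u hu h
  · exact dp_di_24_s hy j u hu h
theorem dp_di_26_s (hy : Hy g H)
    (j u : ℕ) (hu : u < M) (h : dp_di_26 j u = true) : Gd g H Lt.di u := by
  unfold dp_di_26 at h
  rcases brec_true h with h | h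
  · exact dp_di_19_s hy j u hu h
  · exact dp_di_25_s hy j u hu h
theorem dp_di_27_s (hy : Hy g H)
    (j u : ℕ) (hu : u < M) (h : dp_di_27 j u = true) : Gd g H Lt.di u := by
  unfold dp_di_27 at h
  rcases brec_true h with h | h
  · exact dp_di_17_s hy j u hu h
  · exact dp_di_26_s hy j u hu h
theorem dp_di_28_s (hy : Hy g H)
    (j u : ℕ) (hu : u < M) (h : dp_di_28 j u = true) : Gd g H Lt.di u := by
  unfold dp_di_28 at h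
  rcases brec_true h with h | h
  · exact dp_di_15_s hy j u hu h
  · exact dp_di_27_s hy j u hu h
theorem dp_di_29_s (hy : Hy g H)
    (j u : ℕ) (hu : u < M) (h : dp_di_29 j u = true) : Gd g H Lt.di u := by
  unfold dp_di_29 at h
  rcases brec_true h with h | h
  · exact dp_di_12_s hy j u hu h
  · exact dp_di_28_s hy j u hu h
theorem dp_di_30_s (hy : Hy g H)
    (j u : ℕ) (hu : u < M) (h : dp_di_30 j u = true) : Gd g H Lt.di u := by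
  unfold dp_di_30 at h
  rcases brec_true h with h | h
  · exact dp_di_8_s hy j u hu h
  · exact dp_di_29_s hy j u hu h
theorem dp_di_31_s (hy : Hy g H)
    (j u : ℕ) (hu : u < M) (h : dp_di_31 j u = true) : Gd g H Lt.di u := by
  unfold dp_di_31 at h
  rcases brec_true h with h | h
  · exact dp_di_2_s hy j u hu h
  · exact dp_di_30_s hy j u hu h
theorem dp_di_32_s (hy : Hy g H)
    (j u : ℕ) (hu : u < M) (h : dp_di_32 j u = true) : Gd g H Lt.di u := by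
  unfold dp_di_32 at h
  rcases brec_true h with h | h
  · exact dp_di_1_s hy j u hu h
  · exact dp_di_31_s hy j u hu h
theorem dp_di_33_s (hy : Hy g H)
    (j u : ℕ) (hu : u < M) (h : dp_di_33 j u = true) : Gd g H Lt.di u := by
  unfold dp_di_33 at h
  rcases brec_true h with h | h
  · exact dp_di_0_s hy j u hu h
  · exact dp_di_32_s hy j u hu h
theorem dp_di_34_s (hy : Hy g H)
    (j u : ℕ) (hu : u < M) (h : dp_di_34 j u = true) : Gd g H Lt.di u := by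
  unfold dp_di_34 at h
  rcases brec_true h with h | h
  · exact lDef_good (T := T) (x := Lt.di) (by decide) rfl h
  · exact dp_di_33_s hy j u hu h
theorem snd_di (hy : Hy g H)
    (j u : ℕ) (hu : u < M) (h : disp_di j u = true) : Gd g H Lt.di u := by
  unfold disp_di at h
  rcases brec_true h with h | h
  · rcases brec_true h with h | h
    · exact lF1_good (T := T) (x := Lt.di) hM0 .d (hat (rf_13 hy) 0 rfl) h
    · exact lPar_good (T := T) (x := Lt.di) (x' := Lt.d) (by decide) rfl (ivt hy _ _ rfl) h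
  · exact dp_di_34_s hy j u hu h
theorem snc_di (hy : Hy g H)
    (j u : ℕ) (hu : u < M) (h : chk_di j u = true) : (T Lt.di u < A ∧ Gd g H Lt.di u) ∨ (A ≤ T Lt.di u ∧ MG u < A) := by
  unfold chk_di at h
  cases hb : Nat.ble A (T_di u) with
  | true => rw [hb] at h; exact Or.inr ⟨le_of_ble hb, le_of_ble h⟩
  | false => rw [hb] at h; exact Or.inl ⟨lt_of_ble_false hb, snd_di hy j u hu h⟩
theorem dM_0_s (hy : Hy g H) (j z1 z2 u : ℕ) (h : dM_0 j z1 z2 u = true) : GdM g H u := by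
  unfold dM_0 at h
  rcases brec_true h with h | h
  · rcases brec_true h with h | h
    · exact mCo_good (T := T) (y := .a) hM0 h
    · rcases brec_true h with h | h
      · exact mCo_good (T := T) (y := .b) hM0 h
      · exact mCo_good (T := T) (y := .di) hM0 h
  · rcases brec_true h with h | h
    · rcases brec_true h with h | h
      · exact mCo_good (T := T) (y := .d) hM0 h
      · exact mCo_good (T := T) (y := .bi) hM0 h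
    · rcases brec_true h with h | h
      · exact mCo_good (T := T) (y := .ai) hM0 h
      · rcases brec_true h with h | h
        · rcases brec_true h with h | h
          · exact mRel_good (T := T) hM0 [Lt.di, Lt.b, Lt.a, Lt.a, Lt.a, Lt.d] [Lt.ai, Lt.ai, Lt.bi, Lt.a] (pat hy (rf_4 hy) 5 rfl) h
          · exact mRel_good (T := T) hM0 [Lt.a, Lt.b] [Lt.bi, Lt.ai, Lt.bi, Lt.ai] (pat hy (rf_2 hy) 0 rfl) h
        · rcases brec_true h with h | h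
          · exact mRel_good (T := T) hM0 [Lt.ai, Lt.ai, Lt.ai, Lt.bi] [Lt.d, Lt.ai, Lt.b, Lt.a, Lt.a, Lt.di] (pat hy (rb_4 hy) 0 rfl) h
          · rcases brec_true h with h | h
            · exact mRel_good (T := T) hM0 [Lt.ai, Lt.bi, Lt.ai, Lt.bi] [Lt.b, Lt.a] (pat hy (rb_2 hy) 1 rfl) h
            · exact mRel_good (T := T) hM0 [Lt.d, Lt.ai, Lt.ai, Lt.bi, Lt.a, Lt.di] [Lt.b, Lt.a, Lt.a, Lt.a] (pat hy (rb_4 hy) 4 rfl) h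
theorem dM_1_s (hy : Hy g H) (j z1 z2 u : ℕ) (h : dM_1 j z1 z2 u = true) : GdM g H u := by
  unfold dM_1 at h
  rcases brec_true h with h | h
  · rcases brec_true h with h | h
    · rcases brec_true h with h | h
      · exact mRel_good (T := T) hM0 [Lt.b, Lt.a, Lt.b, Lt.a] [Lt.ai, Lt.bi] (pat hy (rf_2 hy) 1 rfl) h
      · exact mRel_good (T := T) hM0 [Lt.a, Lt.b, Lt.a] [Lt.bi, Lt.ai, Lt.bi] (pat hy (rf_2 hy) 0 rfl) h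
    · rcases brec_true h with h | h
      · exact mRel_good (T := T) hM0 [Lt.d, Lt.ai, Lt.ai, Lt.bi, Lt.a] [Lt.b, Lt.a, Lt.a, Lt.a, Lt.d] (pat hy (rb_4 hy) 4 rfl) h
      · rcases brec_true h with h | h
        · exact mRel_good (T := T) hM0 [Lt.ai, Lt.ai, Lt.bi, Lt.a] [Lt.di, Lt.b, Lt.a, Lt.a, Lt.a, Lt.d] (pat hy (rb_4 hy) 5 rfl) h
        · exact mRel_good (T := T) hM0 [Lt.di, Lt.ai, Lt.ai, Lt.ai, Lt.bi] [Lt.ai, Lt.b, Lt.a, Lt.a, Lt.di] (pat hy (rb_4 hy) 9 rfl) h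
  · rcases brec_true h with h | h
    · rcases brec_true h with h | h
      · exact mRel_good (T := T) hM0 [Lt.bi, Lt.ai, Lt.bi, Lt.ai] [Lt.a, Lt.b] (pat hy (rb_2 hy) 0 rfl) h
      · rcases brec_true h with h | h
        · exact mRel_good (T := T) hM0 [Lt.d, Lt.ai, Lt.b, Lt.a, Lt.a, Lt.di] [Lt.ai, Lt.ai, Lt.ai, Lt.bi] (pat hy (rf_4 hy) 0 rfl) h
        · exact mRel_good (T := T) hM0 [Lt.bi, Lt.a, Lt.di, Lt.ai, Lt.ai, Lt.ai, Lt.bi, Lt.d] [Lt.a, Lt.a] (pat hy (rb_4 hy) 7 rfl) h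
    · rcases brec_true h with h | h
      · exact mRel_good (T := T) hM0 [Lt.a, Lt.a, Lt.d, Lt.ai, Lt.b, Lt.a, Lt.a, Lt.di] [Lt.ai, Lt.bi] (pat hy (rf_4 hy) 8 rfl) h
      · rcases brec_true h with h | h
        · exact mRel_good (T := T) hM0 [Lt.ai, Lt.bi, Lt.ai] [Lt.b, Lt.a, Lt.b] (pat hy (rb_2 hy) 1 rfl) h
        · exact mRel_good (T := T) hM0 [Lt.b, Lt.a, Lt.a, Lt.a] [Lt.d, Lt.ai, Lt.ai, Lt.bi, Lt.a, Lt.di] (pat hy (rf_4 hy) 6 rfl) h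
theorem dM_2_s (hy : Hy g H) (j z1 z2 u : ℕ) (h : dM_2 j z1 z2 u = true) : GdM g H u := by
  unfold dM_2 at h
  rcases brec_true h with h | h
  · rcases brec_true h with h | h
    · exact mRel_good (T := T) hM0 [Lt.a, Lt.d, Lt.ai, Lt.b, Lt.a, Lt.a, Lt.di] [Lt.ai, Lt.ai, Lt.bi] (pat hy (rf_4 hy) 9 rfl) h
    · rcases brec_true h with h | h
      · exact mRel_good (T := T) hM0 [Lt.b, Lt.a, Lt.a, Lt.a, Lt.d] [Lt.d, Lt.ai, Lt.ai, Lt.bi, Lt.a] (pat hy (rf_4 hy) 6 rfl) h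
      · exact mRel_good (T := T) hM0 [Lt.d, Lt.ai, Lt.b, Lt.a, Lt.a] [Lt.ai, Lt.ai, Lt.ai, Lt.bi, Lt.d] (pat hy (rf_4 hy) 0 rfl) h
  · rcases brec_true h with h | h
    · rcases brec_true h with h | h
      · exact mRel_good (T := T) hM0 [Lt.a, Lt.a, Lt.di, Lt.b, Lt.a, Lt.a, Lt.a, Lt.d] [Lt.bi, Lt.a] (pat hy (rf_4 hy) 3 rfl) h
      · exact mRel_good (T := T) hM0 [Lt.b, Lt.a, Lt.b] [Lt.ai, Lt.bi, Lt.ai] (pat hy (rf_2 hy) 1 rfl) h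
    · rcases brec_true h with h | h
      · exact mRel_good (T := T) hM0 [Lt.di, Lt.ai, Lt.ai, Lt.ai, Lt.bi, Lt.d] [Lt.ai, Lt.b, Lt.a, Lt.a] (pat hy (rb_4 hy) 9 rfl) h
      · exact mRel_good (T := T) hM0 [Lt.ai, Lt.ai, Lt.ai, Lt.bi, Lt.d] [Lt.d, Lt.ai, Lt.b, Lt.a, Lt.a] (pat hy (rb_4 hy) 0 rfl) h
theorem dM_3_s (hy : Hy g H) (j z1 z2 u : ℕ) (h : dM_3 j z1 z2 u = true) : GdM g H u := by
  unfold dM_3 at h
  rcases brec_true h with h | h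
  · rcases brec_true h with h | h
    · exact mRel_good (T := T) hM0 [Lt.b, Lt.a] [Lt.ai, Lt.bi, Lt.ai, Lt.bi] (pat hy (rf_2 hy) 1 rfl) h
    · rcases brec_true h with h | h
      · exact mRel_good (T := T) hM0 [Lt.ai, Lt.ai, Lt.bi, Lt.a, Lt.di] [Lt.di, Lt.b, Lt.a, Lt.a, Lt.a] (pat hy (rb_4 hy) 5 rfl) h
      · exact mRel_good (T := T) hM0 [Lt.ai, Lt.bi, Lt.a, Lt.di] [Lt.a, Lt.di, Lt.b, Lt.a, Lt.a, Lt.a] (pat hy (rb_4 hy) 6 rfl) h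
  · rcases brec_true h with h | h
    · rcases brec_true h with h | h
      · exact mRel_good (T := T) hM0 [Lt.a, Lt.b, Lt.a, Lt.b, Lt.a] [Lt.bi] (pat hy (rf_2 hy) 0 rfl) h
      · exact mRel_good (T := T) hM0 [Lt.a, Lt.di, Lt.ai, Lt.ai, Lt.ai, Lt.bi, Lt.d] [Lt.b, Lt.a, Lt.a] (pat hy (rb_4 hy) 8 rfl) h
    · rcases brec_true h with h | h
      · exact mRel_good (T := T) hM0 [Lt.b, Lt.a, Lt.a] [Lt.a, Lt.di, Lt.ai, Lt.ai, Lt.ai, Lt.bi, Lt.d] (pat hy (rf_4 hy) 2 rfl) h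
      · exact mRel_good (T := T) hM0 [Lt.ai, Lt.ai, Lt.bi] [Lt.a, Lt.d, Lt.ai, Lt.b, Lt.a, Lt.a, Lt.di] (pat hy (rb_4 hy) 1 rfl) h
theorem dM_4_s (hy : Hy g H) (j z1 z2 u : ℕ) (h : dM_4 j z1 z2 u = true) : GdM g H u := by
  unfold dM_4 at h
  rcases brec_true h with h | h
  · exact dM_2_s hy j z1 z2 u h
  · exact dM_3_s hy j z1 z2 u h
theorem dM_5_s (hy : Hy g H) (j z1 z2 u : ℕ) (h : dM_5 j z1 z2 u = true) : GdM g H u := by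
  unfold dM_5 at h
  rcases brec_true h with h | h
  · exact dM_1_s hy j z1 z2 u h
  · exact dM_4_s hy j z1 z2 u h
theorem dM_6_s (hy : Hy g H) (j z1 z2 u : ℕ) (h : dM_6 j z1 z2 u = true) : GdM g H u := by
  unfold dM_6 at h
  rcases brec_true h with h | h
  · rcases brec_true h with h | h
    · rcases brec_true h with h | h
      · exact mRel_good (T := T) hM0 [Lt.a, Lt.b, Lt.a, Lt.b] [Lt.bi, Lt.ai] (pat hy (rf_2 hy) 0 rfl) h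
      · exact mRel_good (T := T) hM0 [Lt.ai, Lt.b, Lt.a, Lt.a, Lt.di] [Lt.di, Lt.ai, Lt.ai, Lt.ai, Lt.bi] (pat hy (rf_4 hy) 1 rfl) h
    · rcases brec_true h with h | h
      · exact mRel_good (T := T) hM0 [Lt.a, Lt.bi, Lt.a] [Lt.b, Lt.a, Lt.bi, Lt.a, Lt.bi, Lt.ai] (pat hy (rf_3 hy) 7 rfl) h
      · exact mRel_good (T := T) hM0 [Lt.b, Lt.a, Lt.a, Lt.di] [Lt.a, Lt.di, Lt.ai, Lt.ai, Lt.ai, Lt.bi] (pat hy (rf_4 hy) 2 rfl) h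
  · rcases brec_true h with h | h
    · rcases brec_true h with h | h
      · exact mRel_good (T := T) hM0 [Lt.bi, Lt.ai, Lt.bi, Lt.ai, Lt.bi] [Lt.a] (pat hy (rb_2 hy) 0 rfl) h
      · exact mRel_good (T := T) hM0 [Lt.ai, Lt.bi, Lt.d, Lt.ai, Lt.ai, Lt.bi, Lt.a, Lt.di] [Lt.a, Lt.a] (pat hy (rb_4 hy) 2 rfl) h
    · rcases brec_true h with h | h
      · exact mRel_good (T := T) hM0 [Lt.ai, Lt.b, Lt.a, Lt.a] [Lt.di, Lt.ai, Lt.ai, Lt.ai, Lt.bi, Lt.d] (pat hy (rf_4 hy) 1 rfl) h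
      · rcases brec_true h with h | h
        · exact mRel_good (T := T) hM0 [Lt.ai, Lt.bi, Lt.a] [Lt.a, Lt.di, Lt.b, Lt.a, Lt.a, Lt.a, Lt.d] (pat hy (rb_4 hy) 6 rfl) h
        · exact mRel_good (T := T) hM0 [Lt.a, Lt.bi, Lt.ai] [Lt.b, Lt.ai, Lt.bi, Lt.a, Lt.bi, Lt.a] (pat hy (rb_3 hy) 5 rfl) h
theorem dM_7_s (hy : Hy g H) (j z1 z2 u : ℕ) (h : dM_7 j z1 z2 u = true) : GdM g H u := by
  unfold dM_7 at h
  rcases brec_true h with h | h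
  · rcases brec_true h with h | h
    · rcases brec_true h with h | h
      · exact mRel_good (T := T) hM0 [Lt.a, Lt.di, Lt.b, Lt.a, Lt.a, Lt.a, Lt.d] [Lt.ai, Lt.bi, Lt.a] (pat hy (rf_4 hy) 4 rfl) h
      · exact mRel_good (T := T) hM0 [Lt.bi, Lt.a, Lt.bi, Lt.ai] [Lt.ai, Lt.bi, Lt.a, Lt.bi, Lt.a] (pat hy (rb_3 hy) 4 rfl) h
    · rcases brec_true h with h | h
      · exact mRel_good (T := T) hM0 [Lt.ai, Lt.b, Lt.ai, Lt.bi, Lt.a, Lt.bi, Lt.a] [Lt.bi, Lt.ai] (pat hy (rf_3 hy) 3 rfl) h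
      · rcases brec_true h with h | h
        · exact mRel_good (T := T) hM0 [Lt.b, Lt.ai, Lt.b, Lt.a, Lt.bi, Lt.a, Lt.bi] [Lt.a, Lt.a] (pat hy (rb_3 hy) 0 rfl) h
        · exact mRel_good (T := T) hM0 [Lt.di, Lt.b, Lt.a, Lt.a, Lt.a] [Lt.ai, Lt.ai, Lt.bi, Lt.a, Lt.di] (pat hy (rf_4 hy) 5 rfl) h
  · rcases brec_true h with h | h
    · rcases brec_true h with h | h
      · exact mRel_good (T := T) hM0 [Lt.di, Lt.ai, Lt.ai, Lt.ai, Lt.bi, Lt.d, Lt.ai] [Lt.ai, Lt.b, Lt.a] (pat hy (rb_4 hy) 9 rfl) h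
      · rcases brec_true h with h | h
        · exact mRel_good (T := T) hM0 [Lt.b, Lt.a, Lt.a, Lt.a, Lt.d, Lt.ai, Lt.b, Lt.a, Lt.a, Lt.di] [] (pat hy (rf_4 hy) 6 rfl) h
        · exact mRel_good (T := T) hM0 [Lt.a, Lt.d, Lt.ai, Lt.b, Lt.a, Lt.a] [Lt.ai, Lt.ai, Lt.bi, Lt.d] (pat hy (rf_4 hy) 9 rfl) h
    · rcases brec_true h with h | h
      · exact mRel_good (T := T) hM0 [Lt.a, Lt.d] [Lt.ai, Lt.ai, Lt.bi, Lt.d, Lt.ai, Lt.ai, Lt.bi, Lt.a] (pat hy (rf_4 hy) 9 rfl) h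
      · rcases brec_true h with h | h
        · exact mRel_good (T := T) hM0 [Lt.ai, Lt.b, Lt.ai, Lt.b, Lt.a, Lt.bi, Lt.a] [Lt.a, Lt.b] (pat hy (rb_3 hy) 8 rfl) h
        · exact mRel_good (T := T) hM0 [Lt.a, Lt.bi, Lt.a, Lt.bi] [Lt.bi, Lt.a, Lt.bi, Lt.a, Lt.a] (pat hy (rb_3 hy) 3 rfl) h
theorem dM_8_s (hy : Hy g H) (j z1 z2 u : ℕ) (h : dM_8 j z1 z2 u = true) : GdM g H u := by
  unfold dM_8 at h
  rcases brec_true h with h | h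
  · exact dM_6_s hy j z1 z2 u h
  · exact dM_7_s hy j z1 z2 u h
theorem dM_9_s (hy : Hy g H) (j z1 z2 u : ℕ) (h : dM_9 j z1 z2 u = true) : GdM g H u := by
  unfold dM_9 at h
  rcases brec_true h with h | h
  · rcases brec_true h with h | h
    · exact mRel_good (T := T) hM0 [Lt.a, Lt.bi, Lt.a, Lt.a, Lt.b] [Lt.b, Lt.a, Lt.bi, Lt.a] (pat hy (rf_3 hy) 7 rfl) h
    · rcases brec_true h with h | h
      · exact mRel_good (T := T) hM0 [Lt.a, Lt.a, Lt.a, Lt.d, Lt.ai, Lt.b, Lt.a, Lt.a, Lt.di] [Lt.bi] (pat hy (rf_4 hy) 7 rfl) h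
      · exact mRel_good (T := T) hM0 [Lt.bi, Lt.ai, Lt.bi] [Lt.a, Lt.b, Lt.a] (pat hy (rb_2 hy) 0 rfl) h
  · rcases brec_true h with h | h
    · rcases brec_true h with h | h
      · exact mRel_good (T := T) hM0 [Lt.a, Lt.di] [Lt.ai, Lt.bi, Lt.a, Lt.di, Lt.ai, Lt.ai, Lt.ai, Lt.bi] (pat hy (rf_4 hy) 4 rfl) h
      · exact mRel_good (T := T) hM0 [Lt.a, Lt.a] [Lt.bi, Lt.a, Lt.di, Lt.ai, Lt.ai, Lt.ai, Lt.bi, Lt.d] (pat hy (rf_4 hy) 3 rfl) h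
    · rcases brec_true h with h | h
      · exact mRel_good (T := T) hM0 [Lt.ai, Lt.bi] [Lt.b, Lt.a, Lt.b, Lt.a] (pat hy (rb_2 hy) 1 rfl) h
      · exact mRel_good (T := T) hM0 [Lt.b, Lt.a, Lt.bi, Lt.a, Lt.bi] [Lt.a, Lt.bi, Lt.a, Lt.a] (pat hy (rb_3 hy) 2 rfl) h
theorem dM_10_s (hy : Hy g H) (j z1 z2 u : ℕ) (h : dM_10 j z1 z2 u = true) : GdM g H u := by
  unfold dM_10 at h
  rcases brec_true h with h | h
  · rcases brec_true h with h | h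
    · exact mRel_good (T := T) hM0 [Lt.a, Lt.bi, Lt.a, Lt.bi, Lt.ai, Lt.ai, Lt.b] [Lt.bi, Lt.a] (pat hy (rb_3 hy) 3 rfl) h
    · rcases brec_true h with h | h
      · exact mRel_good (T := T) hM0 [Lt.bi, Lt.ai] [Lt.a, Lt.b, Lt.a, Lt.b] (pat hy (rb_2 hy) 0 rfl) h
      · exact mRel_good (T := T) hM0 [Lt.a, Lt.a, Lt.d, Lt.ai, Lt.b, Lt.a, Lt.a] [Lt.ai, Lt.bi, Lt.d] (pat hy (rf_4 hy) 8 rfl) h
  · rcases brec_true h with h | h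
    · rcases brec_true h with h | h
      · exact mRel_good (T := T) hM0 [Lt.ai, Lt.bi, Lt.ai, Lt.bi, Lt.ai] [Lt.b] (pat hy (rb_2 hy) 1 rfl) h
      · exact mRel_good (T := T) hM0 [Lt.bi, Lt.a, Lt.a] [Lt.ai, Lt.b, Lt.a, Lt.bi, Lt.a, Lt.bi] (pat hy (rf_3 hy) 8 rfl) h
    · rcases brec_true h with h | h
      · exact mRel_good (T := T) hM0 [Lt.b, Lt.a, Lt.a, Lt.di, Lt.b, Lt.a, Lt.a, Lt.a] [Lt.a, Lt.di] (pat hy (rf_4 hy) 2 rfl) h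
      · exact mRel_good (T := T) hM0 [Lt.bi, Lt.d, Lt.ai, Lt.ai, Lt.bi, Lt.a, Lt.di, Lt.ai] [Lt.a, Lt.a] (pat hy (rb_4 hy) 3 rfl) h
theorem dM_11_s (hy : Hy g H) (j z1 z2 u : ℕ) (h : dM_11 j z1 z2 u = true) : GdM g H u := by
  unfold dM_11 at h
  rcases brec_true h with h | h
  · exact dM_9_s hy j z1 z2 u h
  · exact dM_10_s hy j z1 z2 u h
theorem dM_12_s (hy : Hy g H) (j z1 z2 u : ℕ) (h : dM_12 j z1 z2 u = true) : GdM g H u := by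
  unfold dM_12 at h
  rcases brec_true h with h | h
  · rcases brec_true h with h | h
    · exact mRel_good (T := T) hM0 [Lt.a, Lt.di, Lt.ai, Lt.ai, Lt.ai, Lt.bi] [Lt.b, Lt.a, Lt.a, Lt.di] (pat hy (rb_4 hy) 8 rfl) h
    · rcases brec_true h with h | h
      · exact mRel_good (T := T) hM0 [Lt.b, Lt.a, Lt.b, Lt.a, Lt.b] [Lt.ai] (pat hy (rf_2 hy) 1 rfl) h
      · exact mRel_good (T := T) hM0 [Lt.bi, Lt.a] [Lt.ai, Lt.b, Lt.a, Lt.bi, Lt.a, Lt.bi, Lt.ai] (pat hy (rf_3 hy) 8 rfl) h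
  · rcases brec_true h with h | h
    · rcases brec_true h with h | h
      · exact mRel_good (T := T) hM0 [Lt.ai, Lt.bi] [Lt.a, Lt.a, Lt.d, Lt.ai, Lt.b, Lt.a, Lt.a, Lt.di] (pat hy (rb_4 hy) 2 rfl) h
      · exact mRel_good (T := T) hM0 [Lt.ai, Lt.bi, Lt.d, Lt.ai, Lt.ai, Lt.bi, Lt.a] [Lt.a, Lt.a, Lt.d] (pat hy (rb_4 hy) 2 rfl) h
    · rcases brec_true h with h | h
      · exact mRel_good (T := T) hM0 [Lt.a, Lt.a] [Lt.ai, Lt.bi, Lt.d, Lt.ai, Lt.ai, Lt.bi, Lt.a, Lt.di] (pat hy (rf_4 hy) 8 rfl) h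
      · exact mRel_good (T := T) hM0 [Lt.bi, Lt.d, Lt.ai, Lt.ai, Lt.bi, Lt.a] [Lt.a, Lt.a, Lt.a, Lt.d] (pat hy (rb_4 hy) 3 rfl) h
theorem dM_13_s (hy : Hy g H) (j z1 z2 u : ℕ) (h : dM_13 j z1 z2 u = true) : GdM g H u := by
  unfold dM_13 at h
  rcases brec_true h with h | h
  · rcases brec_true h with h | h
    · rcases brec_true h with h | h
      · exact mRel_good (T := T) hM0 [Lt.ai, Lt.b, Lt.ai, Lt.b, Lt.a, Lt.bi] [Lt.a, Lt.b, Lt.ai] (pat hy (rb_3 hy) 8 rfl) h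
      · exact mRel_good (T := T) hM0 [Lt.a, Lt.bi, Lt.ai, Lt.ai] [Lt.b, Lt.ai, Lt.bi, Lt.a, Lt.bi] (pat hy (rb_3 hy) 5 rfl) h
    · rcases brec_true h with h | h
      · exact mRel_good (T := T) hM0 [Lt.b, Lt.ai, Lt.bi, Lt.a, Lt.bi, Lt.a, Lt.a, Lt.b] [Lt.a] (pat hy (rf_3 hy) 4 rfl) h
      · exact mRel_good (T := T) hM0 [Lt.a, Lt.bi, Lt.ai, Lt.ai, Lt.b] [Lt.b, Lt.ai, Lt.bi, Lt.a] (pat hy (rb_3 hy) 5 rfl) h
  · rcases brec_true h with h | h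
    · rcases brec_true h with h | h
      · exact mRel_good (T := T) hM0 [Lt.d, Lt.ai, Lt.b, Lt.a, Lt.a, Lt.di, Lt.b] [Lt.ai, Lt.ai, Lt.ai] (pat hy (rf_4 hy) 0 rfl) h
      · exact mRel_good (T := T) hM0 [Lt.a, Lt.a, Lt.di, Lt.b, Lt.a, Lt.a, Lt.a] [Lt.bi, Lt.a, Lt.di] (pat hy (rf_4 hy) 3 rfl) h
    · rcases brec_true h with h | h
      · exact mRel_good (T := T) hM0 [Lt.d, Lt.ai, Lt.ai, Lt.bi, Lt.a, Lt.di, Lt.ai] [Lt.b, Lt.a, Lt.a] (pat hy (rb_4 hy) 4 rfl) h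
      · exact mRel_good (T := T) hM0 [Lt.ai, Lt.b, Lt.ai, Lt.b, Lt.a, Lt.bi, Lt.a, Lt.bi] [Lt.a] (pat hy (rb_3 hy) 8 rfl) h
theorem dM_14_s (hy : Hy g H) (j z1 z2 u : ℕ) (h : dM_14 j z1 z2 u = true) : GdM g H u := by
  unfold dM_14 at h
  rcases brec_true h with h | h
  · exact dM_12_s hy j z1 z2 u h
  · exact dM_13_s hy j z1 z2 u h
theorem dM_15_s (hy : Hy g H) (j z1 z2 u : ℕ) (h : dM_15 j z1 z2 u = true) : GdM g H u := by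
  unfold dM_15 at h
  rcases brec_true h with h | h
  · exact dM_11_s hy j z1 z2 u h
  · exact dM_14_s hy j z1 z2 u h
theorem dM_16_s (hy : Hy g H) (j z1 z2 u : ℕ) (h : dM_16 j z1 z2 u = true) : GdM g H u := by
  unfold dM_16 at h
  rcases brec_true h with h | h
  · exact dM_8_s hy j z1 z2 u h
  · exact dM_15_s hy j z1 z2 u h
theorem dM_17_s (hy : Hy g H) (j z1 z2 u : ℕ) (h : dM_17 j z1 z2 u = true) : GdM g H u := by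
  unfold dM_17 at h
  rcases brec_true h with h | h
  · exact dM_5_s hy j z1 z2 u h
  · exact dM_16_s hy j z1 z2 u h
theorem dM_18_s (hy : Hy g H) (j z1 z2 u : ℕ) (h : dM_18 j z1 z2 u = true) : GdM g H u := by
  unfold dM_18 at h
  rcases brec_true h with h | h
  · rcases brec_true h with h | h
    · rcases brec_true h with h | h
      · exact mRel_good (T := T) hM0 [Lt.b, Lt.a, Lt.a] [Lt.d, Lt.ai, Lt.ai, Lt.bi, Lt.a, Lt.di, Lt.ai] (pat hy (rf_4 hy) 6 rfl) h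
      · exact mRel_good (T := T) hM0 [Lt.ai, Lt.bi, Lt.a, Lt.bi, Lt.a, Lt.a, Lt.b] [Lt.bi, Lt.a] (pat hy (rf_3 hy) 5 rfl) h
    · rcases brec_true h with h | h
      · exact mRel_good (T := T) hM0 [Lt.d, Lt.ai, Lt.b, Lt.a] [Lt.ai, Lt.ai, Lt.ai, Lt.bi, Lt.d, Lt.ai] (pat hy (rf_4 hy) 0 rfl) h
      · exact mRel_good (T := T) hM0 [Lt.ai, Lt.d, Lt.a, Lt.b, Lt.di, Lt.ai, Lt.di, Lt.a, Lt.b, Lt.d, Lt.a] [Lt.b, Lt.di] (pat hy (rf_6 hy) 4 rfl) h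
  · rcases brec_true h with h | h
    · rcases brec_true h with h | h
      · exact mRel_good (T := T) hM0 [Lt.ai, Lt.b, Lt.a, Lt.a, Lt.di, Lt.b, Lt.a, Lt.a, Lt.a] [Lt.di] (pat hy (rf_4 hy) 1 rfl) h
      · exact mRel_good (T := T) hM0 [Lt.a, Lt.a, Lt.a] [Lt.bi, Lt.d, Lt.ai, Lt.ai, Lt.bi, Lt.a, Lt.di] (pat hy (rf_4 hy) 7 rfl) h
    · rcases brec_true h with h | h
      · exact mRel_good (T := T) hM0 [Lt.a, Lt.bi, Lt.a, Lt.a] [Lt.b, Lt.a, Lt.bi, Lt.a, Lt.bi] (pat hy (rf_3 hy) 7 rfl) h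
      · rcases brec_true h with h | h
        · exact mRel_good (T := T) hM0 [Lt.bi, Lt.a, Lt.bi, Lt.a, Lt.a] [Lt.a, Lt.bi, Lt.a, Lt.bi] (pat hy (rf_3 hy) 6 rfl) h
        · exact mRel_good (T := T) hM0 [Lt.ai, Lt.bi, Lt.a, Lt.bi, Lt.a] [Lt.bi, Lt.a, Lt.bi, Lt.ai] (pat hy (rf_3 hy) 5 rfl) h
theorem dM_19_s (hy : Hy g H) (j z1 z2 u : ℕ) (h : dM_19 j z1 z2 u = true) : GdM g H u := by
  unfold dM_19 at h
  rcases brec_true h with h | h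
  · rcases brec_true h with h | h
    · rcases brec_true h with h | h
      · exact mRel_good (T := T) hM0 [Lt.ai, Lt.b, Lt.ai, Lt.bi, Lt.a, Lt.bi] [Lt.bi, Lt.ai, Lt.ai] (pat hy (rf_3 hy) 3 rfl) h
      · exact mRel_good (T := T) hM0 [Lt.a, Lt.a, Lt.d] [Lt.ai, Lt.bi, Lt.d, Lt.ai, Lt.ai, Lt.bi, Lt.a] (pat hy (rf_4 hy) 8 rfl) h
    · rcases brec_true h with h | h
      · exact mRel_good (T := T) hM0 [Lt.ai, Lt.b, Lt.ai] [Lt.bi, Lt.ai, Lt.ai, Lt.b, Lt.ai, Lt.b] (pat hy (rf_3 hy) 3 rfl) h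
      · rcases brec_true h with h | h
        · exact mRel_good (T := T) hM0 [Lt.ai, Lt.ai, Lt.b, Lt.ai, Lt.b, Lt.a] [Lt.b, Lt.ai, Lt.b] (pat hy (rb_3 hy) 7 rfl) h
        · exact mRel_good (T := T) hM0 [Lt.b, Lt.ai, Lt.b, Lt.ai, Lt.bi, Lt.a] [Lt.ai, Lt.ai, Lt.b] (pat hy (rf_3 hy) 2 rfl) h
  · rcases brec_true h with h | h
    · rcases brec_true h with h | h
      · exact mRel_good (T := T) hM0 [Lt.b, Lt.ai, Lt.b, Lt.a] [Lt.a, Lt.a, Lt.b, Lt.ai, Lt.b] (pat hy (rb_3 hy) 0 rfl) h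
      · exact mRel_good (T := T) hM0 [Lt.b, Lt.ai, Lt.b, Lt.a, Lt.bi, Lt.a, Lt.bi, Lt.ai] [Lt.a] (pat hy (rb_3 hy) 0 rfl) h
    · rcases brec_true h with h | h
      · exact mRel_good (T := T) hM0 [Lt.a, Lt.a, Lt.b] [Lt.b, Lt.ai, Lt.b, Lt.a, Lt.bi, Lt.a] (pat hy (rf_3 hy) 0 rfl) h
      · rcases brec_true h with h | h
        · exact mRel_good (T := T) hM0 [Lt.d, Lt.a, Lt.b, Lt.di, Lt.ai, Lt.di, Lt.a, Lt.b, Lt.d, Lt.a] [Lt.a, Lt.b, Lt.di] (pat hy (rf_6 hy) 5 rfl) h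
        · exact mRel_good (T := T) hM0 [Lt.b, Lt.ai, Lt.bi, Lt.a] [Lt.a, Lt.bi, Lt.ai, Lt.ai, Lt.b] (pat hy (rf_3 hy) 4 rfl) h
theorem dM_20_s (hy : Hy g H) (j z1 z2 u : ℕ) (h : dM_20 j z1 z2 u = true) : GdM g H u := by
  unfold dM_20 at h
  rcases brec_true h with h | h
  · exact dM_18_s hy j z1 z2 u h
  · exact dM_19_s hy j z1 z2 u h
theorem dM_21_s (hy : Hy g H) (j z1 z2 u : ℕ) (h : dM_21 j z1 z2 u = true) : GdM g H u := by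
  unfold dM_21 at h
  rcases brec_true h with h | h
  · rcases brec_true h with h | h
    · rcases brec_true h with h | h
      · exact mRel_good (T := T) hM0 [Lt.bi, Lt.bi] [Lt.b] (pat hy (rb_1 hy) 0 rfl) h
      · exact mRel_good (T := T) hM0 [Lt.bi, Lt.a, Lt.a, Lt.b, Lt.ai] [Lt.ai, Lt.b, Lt.a, Lt.bi] (pat hy (rf_3 hy) 8 rfl) h
    · rcases brec_true h with h | h
      · exact mRel_good (T := T) hM0 [Lt.b, Lt.a, Lt.bi, Lt.a, Lt.bi, Lt.ai] [Lt.a, Lt.bi, Lt.a] (pat hy (rb_3 hy) 2 rfl) h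
      · rcases brec_true h with h | h
        · exact mRel_good (T := T) hM0 [Lt.bi, Lt.ai, Lt.ai] [Lt.ai, Lt.b, Lt.ai, Lt.bi, Lt.a, Lt.bi] (pat hy (rb_3 hy) 6 rfl) h
        · exact mRel_good (T := T) hM0 [Lt.b, Lt.a, Lt.a, Lt.di, Lt.b, Lt.a, Lt.a, Lt.a, Lt.d] [Lt.a] (pat hy (rf_4 hy) 2 rfl) h
  · rcases brec_true h with h | h
    · rcases brec_true h with h | h
      · exact mRel_good (T := T) hM0 [Lt.a, Lt.a, Lt.b, Lt.ai, Lt.b, Lt.ai, Lt.bi, Lt.a] [Lt.b] (pat hy (rf_3 hy) 0 rfl) h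
      · exact mRel_good (T := T) hM0 [Lt.ai, Lt.ai, Lt.bi, Lt.d] [Lt.a, Lt.d, Lt.ai, Lt.b, Lt.a, Lt.a] (pat hy (rb_4 hy) 1 rfl) h
    · rcases brec_true h with h | h
      · exact mRel_good (T := T) hM0 [Lt.di, Lt.a, Lt.b, Lt.di, Lt.ai] [Lt.a, Lt.b, Lt.di, Lt.ai, Lt.di, Lt.a, Lt.b, Lt.d] (pat hy (rb_6 hy) 7 rfl) h
      · rcases brec_true h with h | h
        · exact mRel_good (T := T) hM0 [Lt.a, Lt.bi, Lt.a, Lt.a, Lt.b, Lt.ai, Lt.b, Lt.ai] [Lt.b] (pat hy (rf_3 hy) 7 rfl) h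
        · exact mRel_good (T := T) hM0 [Lt.bi, Lt.a] [Lt.a, Lt.a, Lt.di, Lt.b, Lt.a, Lt.a, Lt.a, Lt.d] (pat hy (rb_4 hy) 7 rfl) h
theorem dM_22_s (hy : Hy g H) (j z1 z2 u : ℕ) (h : dM_22 j z1 z2 u = true) : GdM g H u := by
  unfold dM_22 at h
  rcases brec_true h with h | h
  · rcases brec_true h with h | h
    · rcases brec_true h with h | h
      · exact mRel_good (T := T) hM0 [Lt.a, Lt.b, Lt.di] [Lt.di, Lt.a, Lt.b, Lt.di, Lt.ai, Lt.di, Lt.bi, Lt.ai, Lt.d, Lt.a] (pat hy (rf_6 hy) 6 rfl) h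
      · rcases brec_true h with h | h
        · exact mRel_good (T := T) hM0 [Lt.a, Lt.a] [Lt.b, Lt.ai, Lt.b, Lt.a, Lt.bi, Lt.a, Lt.bi] (pat hy (rf_3 hy) 0 rfl) h
        · exact mRel_good (T := T) hM0 [Lt.ai, Lt.ai, Lt.b] [Lt.b, Lt.ai, Lt.b, Lt.ai, Lt.bi, Lt.a] (pat hy (rb_3 hy) 7 rfl) h
    · rcases brec_true h with h | h
      · exact mRel_good (T := T) hM0 [Lt.ai, Lt.b, Lt.a, Lt.bi, Lt.a, Lt.bi, Lt.ai] [Lt.bi, Lt.a] (pat hy (rb_3 hy) 1 rfl) h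
      · rcases brec_true h with h | h
        · exact mRel_good (T := T) hM0 [Lt.a, Lt.bi, Lt.a, Lt.a, Lt.b, Lt.ai] [Lt.b, Lt.a, Lt.bi] (pat hy (rf_3 hy) 7 rfl) h
        · exact mRel_good (T := T) hM0 [Lt.bi, Lt.a, Lt.di] [Lt.a, Lt.a, Lt.di, Lt.b, Lt.a, Lt.a, Lt.a] (pat hy (rb_4 hy) 7 rfl) h
  · rcases brec_true h with h | h
    · rcases brec_true h with h | h
      · exact mRel_good (T := T) hM0 [Lt.b, Lt.ai, Lt.b, Lt.ai, Lt.bi, Lt.a, Lt.bi] [Lt.ai, Lt.ai] (pat hy (rf_3 hy) 2 rfl) h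
      · rcases brec_true h with h | h
        · exact mRel_good (T := T) hM0 [Lt.bi, Lt.a, Lt.bi, Lt.d, Lt.b, Lt.ai, Lt.b] [Lt.d, Lt.b, Lt.ai, Lt.bi, Lt.bi, Lt.di] (pat hy (rf_5 hy) 9 rfl) h
        · exact mRel_good (T := T) hM0 [Lt.a, Lt.d, Lt.ai, Lt.b, Lt.a, Lt.a, Lt.di, Lt.b] [Lt.ai, Lt.ai] (pat hy (rf_4 hy) 9 rfl) h
    · rcases brec_true h with h | h
      · exact mRel_good (T := T) hM0 [Lt.a, Lt.a, Lt.b, Lt.ai, Lt.b, Lt.ai] [Lt.b, Lt.ai, Lt.b] (pat hy (rf_3 hy) 0 rfl) h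
      · rcases brec_true h with h | h
        · exact mRel_good (T := T) hM0 [Lt.ai, Lt.b] [Lt.bi, Lt.ai, Lt.ai, Lt.b, Lt.ai, Lt.b, Lt.a] (pat hy (rf_3 hy) 3 rfl) h
        · exact mRel_good (T := T) hM0 [Lt.b, Lt.ai, Lt.b, Lt.ai, Lt.bi] [Lt.ai, Lt.ai, Lt.b, Lt.ai] (pat hy (rf_3 hy) 2 rfl) h
theorem dM_23_s (hy : Hy g H) (j z1 z2 u : ℕ) (h : dM_23 j z1 z2 u = true) : GdM g H u := by
  unfold dM_23 at h
  rcases brec_true h with h | h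
  · exact dM_21_s hy j z1 z2 u h
  · exact dM_22_s hy j z1 z2 u h
theorem dM_24_s (hy : Hy g H) (j z1 z2 u : ℕ) (h : dM_24 j z1 z2 u = true) : GdM g H u := by
  unfold dM_24 at h
  rcases brec_true h with h | h
  · exact dM_20_s hy j z1 z2 u h
  · exact dM_23_s hy j z1 z2 u h
theorem dM_25_s (hy : Hy g H) (j z1 z2 u : ℕ) (h : dM_25 j z1 z2 u = true) : GdM g H u := by
  unfold dM_25 at h
  rcases brec_true h with h | h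
  · rcases brec_true h with h | h
    · rcases brec_true h with h | h
      · exact mRel_good (T := T) hM0 [Lt.bi, Lt.a, Lt.di, Lt.ai, Lt.ai, Lt.ai, Lt.bi] [Lt.a, Lt.a, Lt.di] (pat hy (rb_4 hy) 7 rfl) h
      · rcases brec_true h with h | h
        · exact mRel_good (T := T) hM0 [Lt.ai, Lt.bi, Lt.d, Lt.ai, Lt.ai, Lt.bi, Lt.a, Lt.di, Lt.ai] [Lt.a] (pat hy (rb_4 hy) 2 rfl) h
        · exact mRel_good (T := T) hM0 [Lt.a, Lt.a, Lt.di, Lt.b, Lt.a, Lt.a] [Lt.bi, Lt.a, Lt.di, Lt.ai] (pat hy (rf_4 hy) 3 rfl) h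
    · rcases brec_true h with h | h
      · exact mRel_good (T := T) hM0 [Lt.a, Lt.di, Lt.b, Lt.a, Lt.a, Lt.a] [Lt.ai, Lt.bi, Lt.a, Lt.di] (pat hy (rf_4 hy) 4 rfl) h
      · rcases brec_true h with h | h
        · exact mRel_good (T := T) hM0 [Lt.a, Lt.b] [Lt.ai, Lt.b, Lt.ai, Lt.b, Lt.a, Lt.bi, Lt.a] (pat hy (rf_3 hy) 1 rfl) h
        · exact mRel_good (T := T) hM0 [Lt.b, Lt.a, Lt.bi, Lt.a, Lt.bi, Lt.ai, Lt.ai] [Lt.a, Lt.bi] (pat hy (rb_3 hy) 2 rfl) h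
  · rcases brec_true h with h | h
    · rcases brec_true h with h | h
      · exact mRel_good (T := T) hM0 [Lt.bi, Lt.a, Lt.a, Lt.b] [Lt.ai, Lt.b, Lt.a, Lt.bi, Lt.a] (pat hy (rf_3 hy) 8 rfl) h
      · rcases brec_true h with h | h
        · exact mRel_good (T := T) hM0 [Lt.ai, Lt.bi, Lt.a, Lt.di, Lt.ai, Lt.ai, Lt.ai, Lt.bi, Lt.d] [Lt.a] (pat hy (rb_4 hy) 6 rfl) h
        · exact mRel_good (T := T) hM0 [Lt.bi, Lt.d, Lt.ai, Lt.ai, Lt.bi, Lt.a, Lt.di] [Lt.a, Lt.a, Lt.a] (pat hy (rb_4 hy) 3 rfl) h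
    · rcases brec_true h with h | h
      · exact mRel_good (T := T) hM0 [Lt.di, Lt.b, Lt.a, Lt.a, Lt.a, Lt.d, Lt.ai] [Lt.ai, Lt.ai, Lt.bi] (pat hy (rf_4 hy) 5 rfl) h
      · rcases brec_true h with h | h
        · exact mRel_good (T := T) hM0 [Lt.di, Lt.ai, Lt.di, Lt.a, Lt.b, Lt.d, Lt.a] [Lt.bi, Lt.ai, Lt.di, Lt.a, Lt.b, Lt.di] (pat hy (rf_6 hy) 8 rfl) h
        · exact mRel_good (T := T) hM0 [Lt.ai, Lt.bi, Lt.d] [Lt.a, Lt.a, Lt.d, Lt.ai, Lt.b, Lt.a, Lt.a] (pat hy (rb_4 hy) 2 rfl) h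
theorem dM_26_s (hy : Hy g H) (j z1 z2 u : ℕ) (h : dM_26 j z1 z2 u = true) : GdM g H u := by
  unfold dM_26 at h
  rcases brec_true h with h | h
  · rcases brec_true h with h | h
    · exact mRel_good (T := T) hM0 [Lt.a, Lt.a] [Lt.bi, Lt.d, Lt.ai, Lt.ai, Lt.bi, Lt.a, Lt.di, Lt.ai] (pat hy (rf_4 hy) 7 rfl) h
    · rcases brec_true h with h | h
      · exact mRel_good (T := T) hM0 [Lt.d, Lt.ai, Lt.ai, Lt.bi, Lt.a, Lt.di, Lt.ai, Lt.ai] [Lt.b, Lt.a] (pat hy (rb_4 hy) 4 rfl) h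
      · exact mRel_good (T := T) hM0 [Lt.d, Lt.ai, Lt.ai, Lt.bi] [Lt.b, Lt.a, Lt.a, Lt.a, Lt.d, Lt.ai] (pat hy (rb_4 hy) 4 rfl) h
  · rcases brec_true h with h | h
    · rcases brec_true h with h | h
      · exact mRel_good (T := T) hM0 [Lt.bi, Lt.ai] [Lt.ai, Lt.b, Lt.ai, Lt.bi, Lt.a, Lt.bi, Lt.a] (pat hy (rb_3 hy) 6 rfl) h
      · exact mRel_good (T := T) hM0 [Lt.ai, Lt.ai, Lt.bi] [Lt.di, Lt.b, Lt.a, Lt.a, Lt.a, Lt.d, Lt.ai] (pat hy (rb_4 hy) 5 rfl) h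
    · rcases brec_true h with h | h
      · exact mRel_good (T := T) hM0 [Lt.b, Lt.a] [Lt.a, Lt.bi, Lt.a, Lt.a, Lt.b, Lt.ai, Lt.b] (pat hy (rb_3 hy) 2 rfl) h
      · exact mRel_good (T := T) hM0 [Lt.b, Lt.ai, Lt.bi, Lt.a, Lt.bi, Lt.a, Lt.a] [Lt.a, Lt.bi] (pat hy (rf_3 hy) 4 rfl) h
theorem dM_27_s (hy : Hy g H) (j z1 z2 u : ℕ) (h : dM_27 j z1 z2 u = true) : GdM g H u := by
  unfold dM_27 at h
  rcases brec_true h with h | h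
  · rcases brec_true h with h | h
    · rcases brec_true h with h | h
      · exact mRel_good (T := T) hM0 [Lt.b, Lt.a, Lt.a, Lt.a, Lt.d, Lt.ai, Lt.b, Lt.a, Lt.a] [Lt.d] (pat hy (rf_4 hy) 6 rfl) h
      · exact mRel_good (T := T) hM0 [Lt.ai, Lt.b, Lt.a, Lt.bi, Lt.a, Lt.bi] [Lt.bi, Lt.a, Lt.a] (pat hy (rb_3 hy) 1 rfl) h
    · rcases brec_true h with h | h
      · exact mRel_good (T := T) hM0 [Lt.b, Lt.ai, Lt.b, Lt.ai] [Lt.ai, Lt.ai, Lt.b, Lt.ai, Lt.b] (pat hy (rf_3 hy) 2 rfl) h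
      · exact mRel_good (T := T) hM0 [Lt.a, Lt.a, Lt.d, Lt.ai, Lt.b, Lt.a, Lt.a, Lt.di, Lt.b] [Lt.ai] (pat hy (rf_4 hy) 8 rfl) h
  · rcases brec_true h with h | h
    · rcases brec_true h with h | h
      · exact mRel_good (T := T) hM0 [Lt.bi, Lt.d, Lt.b, Lt.ai, Lt.b, Lt.d, Lt.b, Lt.b, Lt.a, Lt.bi, Lt.di] [Lt.ai, Lt.b] (pat hy (rf_5 hy) 11 rfl) h
      · exact mRel_good (T := T) hM0 [Lt.b, Lt.a, Lt.a, Lt.a, Lt.d, Lt.ai] [Lt.d, Lt.ai, Lt.ai, Lt.bi] (pat hy (rf_4 hy) 6 rfl) h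
    · rcases brec_true h with h | h
      · exact mRel_good (T := T) hM0 [Lt.b, Lt.a, Lt.bi, Lt.a] [Lt.a, Lt.bi, Lt.a, Lt.a, Lt.b] (pat hy (rb_3 hy) 2 rfl) h
      · rcases brec_true h with h | h
        · exact mRel_good (T := T) hM0 [Lt.ai, Lt.ai, Lt.ai, Lt.bi, Lt.d, Lt.ai] [Lt.d, Lt.ai, Lt.b, Lt.a] (pat hy (rb_4 hy) 0 rfl) h
        · exact mRel_good (T := T) hM0 [Lt.ai, Lt.d, Lt.a, Lt.d, Lt.bi, Lt.ai, Lt.di] [Lt.b, Lt.d, Lt.a, Lt.d, Lt.bi, Lt.ai] (pat hy (rb_6 hy) 1 rfl) h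
theorem dM_28_s (hy : Hy g H) (j z1 z2 u : ℕ) (h : dM_28 j z1 z2 u = true) : GdM g H u := by
  unfold dM_28 at h
  rcases brec_true h with h | h
  · exact dM_26_s hy j z1 z2 u h
  · exact dM_27_s hy j z1 z2 u h
theorem dM_29_s (hy : Hy g H) (j z1 z2 u : ℕ) (h : dM_29 j z1 z2 u = true) : GdM g H u := by
  unfold dM_29 at h
  rcases brec_true h with h | h
  · exact dM_25_s hy j z1 z2 u h
  · exact dM_28_s hy j z1 z2 u h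
theorem dM_30_s (hy : Hy g H) (j z1 z2 u : ℕ) (h : dM_30 j z1 z2 u = true) : GdM g H u := by
  unfold dM_30 at h
  rcases brec_true h with h | h
  · rcases brec_true h with h | h
    · rcases brec_true h with h | h
      · exact mRel_good (T := T) hM0 [Lt.ai, Lt.b, Lt.ai, Lt.bi, Lt.a] [Lt.bi, Lt.ai, Lt.ai, Lt.b] (pat hy (rf_3 hy) 3 rfl) h
      · exact mRel_good (T := T) hM0 [Lt.a, Lt.b, Lt.d, Lt.a] [Lt.d, Lt.a, Lt.d, Lt.bi, Lt.ai, Lt.di, Lt.a, Lt.b, Lt.di] (pat hy (rf_6 hy) 11 rfl) h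
    · rcases brec_true h with h | h
      · exact mRel_good (T := T) hM0 [Lt.d, Lt.a, Lt.d, Lt.bi, Lt.ai, Lt.di, Lt.a, Lt.b, Lt.di] [Lt.a, Lt.b, Lt.d, Lt.a] (pat hy (rb_6 hy) 2 rfl) h
      · exact mRel_good (T := T) hM0 [Lt.bi, Lt.d, Lt.b, Lt.ai, Lt.b, Lt.d, Lt.b, Lt.b, Lt.a] [Lt.ai, Lt.b, Lt.d, Lt.b] (pat hy (rf_5 hy) 11 rfl) h
  · rcases brec_true h with h | h
    · rcases brec_true h with h | h
      · exact mRel_good (T := T) hM0 [Lt.d, Lt.a, Lt.b, Lt.di, Lt.ai] [Lt.a, Lt.b, Lt.di, Lt.ai, Lt.di, Lt.bi, Lt.ai, Lt.d] (pat hy (rf_6 hy) 5 rfl) h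
      · exact mRel_good (T := T) hM0 [Lt.di, Lt.bi, Lt.a, Lt.bi, Lt.d, Lt.b, Lt.ai, Lt.b] [Lt.b, Lt.ai, Lt.bi, Lt.bi, Lt.di] (pat hy (rf_5 hy) 8 rfl) h
    · rcases brec_true h with h | h
      · exact mRel_good (T := T) hM0 [Lt.a, Lt.bi] [Lt.b, Lt.ai, Lt.bi, Lt.a, Lt.bi, Lt.a, Lt.a] (pat hy (rb_3 hy) 5 rfl) h
      · exact mRel_good (T := T) hM0 [Lt.b, Lt.ai, Lt.b] [Lt.di, Lt.b, Lt.ai, Lt.b, Lt.d, Lt.b, Lt.ai, Lt.bi, Lt.bi, Lt.di] (pat hy (rf_5 hy) 0 rfl) h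
theorem dM_31_s (hy : Hy g H) (j z1 z2 u : ℕ) (h : dM_31 j z1 z2 u = true) : GdM g H u := by
  unfold dM_31 at h
  rcases brec_true h with h | h
  · rcases brec_true h with h | h
    · rcases brec_true h with h | h
      · exact mRel_good (T := T) hM0 [Lt.ai, Lt.ai, Lt.bi, Lt.d, Lt.ai, Lt.ai, Lt.bi, Lt.a, Lt.di] [Lt.a] (pat hy (rb_4 hy) 1 rfl) h
      · exact mRel_good (T := T) hM0 [Lt.d, Lt.a, Lt.b, Lt.di, Lt.ai, Lt.di, Lt.a, Lt.b, Lt.d, Lt.a, Lt.d] [Lt.a, Lt.b] (pat hy (rf_6 hy) 5 rfl) h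
    · rcases brec_true h with h | h
      · exact mRel_good (T := T) hM0 [Lt.d, Lt.bi, Lt.ai, Lt.di, Lt.a, Lt.b, Lt.di] [Lt.ai, Lt.di, Lt.a, Lt.b, Lt.d, Lt.a] (pat hy (rb_6 hy) 4 rfl) h
      · exact mRel_good (T := T) hM0 [Lt.di, Lt.ai, Lt.di, Lt.a, Lt.b, Lt.d] [Lt.bi, Lt.ai, Lt.di, Lt.a, Lt.b, Lt.di, Lt.ai] (pat hy (rf_6 hy) 8 rfl) h
  · rcases brec_true h with h | h
    · rcases brec_true h with h | h
      · exact mRel_good (T := T) hM0 [Lt.b, Lt.ai, Lt.b, Lt.a, Lt.bi, Lt.a] [Lt.a, Lt.a, Lt.b] (pat hy (rb_3 hy) 0 rfl) h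
      · exact mRel_good (T := T) hM0 [Lt.a, Lt.b, Lt.di, Lt.ai, Lt.di, Lt.bi, Lt.ai, Lt.d, Lt.a] [Lt.d, Lt.a, Lt.b, Lt.di] (pat hy (rb_6 hy) 8 rfl) h
    · rcases brec_true h with h | h
      · exact mRel_good (T := T) hM0 [Lt.a, Lt.b, Lt.di, Lt.ai, Lt.di, Lt.bi, Lt.ai] [Lt.d, Lt.a, Lt.b, Lt.di, Lt.ai, Lt.di] (pat hy (rb_6 hy) 8 rfl) h
      · rcases brec_true h with h | h
        · exact mRel_good (T := T) hM0 [Lt.di, Lt.bi, Lt.a, Lt.bi] [Lt.b, Lt.ai, Lt.bi, Lt.bi, Lt.di, Lt.bi, Lt.a, Lt.bi, Lt.di] (pat hy (rf_5 hy) 8 rfl) h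
        · exact mRel_good (T := T) hM0 [Lt.a, Lt.bi, Lt.a] [Lt.bi, Lt.a, Lt.bi, Lt.a, Lt.a, Lt.b] (pat hy (rb_3 hy) 3 rfl) h
theorem dM_32_s (hy : Hy g H) (j z1 z2 u : ℕ) (h : dM_32 j z1 z2 u = true) : GdM g H u := by
  unfold dM_32 at h
  rcases brec_true h with h | h
  · exact dM_30_s hy j z1 z2 u h
  · exact dM_31_s hy j z1 z2 u h
theorem dM_33_s (hy : Hy g H) (j z1 z2 u : ℕ) (h : dM_33 j z1 z2 u = true) : GdM g H u := by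
  unfold dM_33 at h
  rcases brec_true h with h | h
  · rcases brec_true h with h | h
    · rcases brec_true h with h | h
      · exact mRel_good (T := T) hM0 [Lt.ai, Lt.ai, Lt.bi, Lt.d, Lt.ai, Lt.ai, Lt.bi, Lt.a] [Lt.a, Lt.d] (pat hy (rb_4 hy) 1 rfl) h
      · exact mRel_good (T := T) hM0 [Lt.b, Lt.ai, Lt.b] [Lt.ai, Lt.ai, Lt.b, Lt.ai, Lt.b, Lt.a] (pat hy (rf_3 hy) 2 rfl) h
    · rcases brec_true h with h | h
      · exact mRel_good (T := T) hM0 [Lt.a, Lt.bi] [Lt.b, Lt.a, Lt.bi, Lt.a, Lt.bi, Lt.ai, Lt.ai] (pat hy (rf_3 hy) 7 rfl) h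
      · exact mRel_good (T := T) hM0 [Lt.a, Lt.d, Lt.bi, Lt.ai, Lt.d, Lt.a, Lt.b, Lt.di] [Lt.di, Lt.bi, Lt.ai, Lt.d, Lt.a] (pat hy (rf_6 hy) 1 rfl) h
  · rcases brec_true h with h | h
    · rcases brec_true h with h | h
      · exact mRel_good (T := T) hM0 [Lt.b, Lt.ai, Lt.bi, Lt.a, Lt.bi, Lt.a] [Lt.a, Lt.bi, Lt.ai] (pat hy (rf_3 hy) 4 rfl) h
      · exact mRel_good (T := T) hM0 [Lt.ai, Lt.bi, Lt.a] [Lt.bi, Lt.a, Lt.bi, Lt.ai, Lt.ai, Lt.b] (pat hy (rf_3 hy) 5 rfl) h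
    · rcases brec_true h with h | h
      · exact mRel_good (T := T) hM0 [Lt.a, Lt.di, Lt.b] [Lt.ai, Lt.bi, Lt.a, Lt.di, Lt.ai, Lt.ai, Lt.ai] (pat hy (rf_4 hy) 4 rfl) h
      · exact mRel_good (T := T) hM0 [Lt.ai, Lt.ai] [Lt.d, Lt.ai, Lt.b, Lt.a, Lt.a, Lt.di, Lt.b, Lt.a] (pat hy (rb_4 hy) 0 rfl) h
theorem dM_34_s (hy : Hy g H) (j z1 z2 u : ℕ) (h : dM_34 j z1 z2 u = true) : GdM g H u := by
  unfold dM_34 at h
  rcases brec_true h with h | h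
  · rcases brec_true h with h | h
    · exact mRel_good (T := T) hM0 [Lt.a, Lt.di, Lt.b, Lt.a, Lt.a, Lt.a, Lt.d, Lt.ai] [Lt.ai, Lt.bi] (pat hy (rf_4 hy) 4 rfl) h
    · rcases brec_true h with h | h
      · exact mRel_good (T := T) hM0 [Lt.a, Lt.bi, Lt.a, Lt.a, Lt.b, Lt.ai, Lt.b] [Lt.b, Lt.a] (pat hy (rf_3 hy) 7 rfl) h
      · exact mRel_good (T := T) hM0 [Lt.ai, Lt.bi, Lt.a, Lt.di, Lt.ai] [Lt.a, Lt.di, Lt.b, Lt.a, Lt.a] (pat hy (rb_4 hy) 6 rfl) h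
  · rcases brec_true h with h | h
    · exact mRel_good (T := T) hM0 [Lt.bi, Lt.a, Lt.bi, Lt.ai, Lt.ai] [Lt.ai, Lt.bi, Lt.a, Lt.bi] (pat hy (rb_3 hy) 4 rfl) h
    · rcases brec_true h with h | h
      · exact mRel_good (T := T) hM0 [Lt.bi, Lt.a, Lt.bi] [Lt.ai, Lt.bi, Lt.a, Lt.bi, Lt.a, Lt.a] (pat hy (rb_3 hy) 4 rfl) h
      · exact mRel_good (T := T) hM0 [Lt.ai, Lt.b, Lt.a, Lt.bi] [Lt.bi, Lt.a, Lt.a, Lt.b, Lt.ai] (pat hy (rb_3 hy) 1 rfl) h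
theorem dM_35_s (hy : Hy g H) (j z1 z2 u : ℕ) (h : dM_35 j z1 z2 u = true) : GdM g H u := by
  unfold dM_35 at h
  rcases brec_true h with h | h
  · rcases brec_true h with h | h
    · exact mRel_good (T := T) hM0 [Lt.bi, Lt.ai, Lt.di, Lt.a, Lt.b, Lt.di] [Lt.di, Lt.ai, Lt.di, Lt.a, Lt.b, Lt.d, Lt.a] (pat hy (rb_6 hy) 5 rfl) h
    · rcases brec_true h with h | h
      · exact mRel_good (T := T) hM0 [Lt.ai, Lt.bi, Lt.a, Lt.bi, Lt.a, Lt.a, Lt.b, Lt.ai] [Lt.bi] (pat hy (rf_3 hy) 5 rfl) h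
      · exact mRel_good (T := T) hM0 [Lt.a, Lt.d, Lt.bi, Lt.ai] [Lt.di, Lt.bi, Lt.ai, Lt.d, Lt.a, Lt.d, Lt.bi, Lt.ai, Lt.di] (pat hy (rf_6 hy) 1 rfl) h
  · rcases brec_true h with h | h
    · rcases brec_true h with h | h
      · exact mRel_good (T := T) hM0 [Lt.b, Lt.ai, Lt.b, Lt.a, Lt.bi] [Lt.a, Lt.a, Lt.b, Lt.ai] (pat hy (rb_3 hy) 0 rfl) h
      · exact mRel_good (T := T) hM0 [Lt.ai, Lt.bi, Lt.a, Lt.bi] [Lt.bi, Lt.a, Lt.bi, Lt.ai, Lt.ai] (pat hy (rf_3 hy) 5 rfl) h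
    · rcases brec_true h with h | h
      · exact mRel_good (T := T) hM0 [Lt.ai, Lt.b, Lt.a, Lt.a, Lt.di, Lt.b] [Lt.di, Lt.ai, Lt.ai, Lt.ai] (pat hy (rf_4 hy) 1 rfl) h
      · exact mRel_good (T := T) hM0 [Lt.d, Lt.b, Lt.b, Lt.a, Lt.bi, Lt.di, Lt.bi] [Lt.bi, Lt.a, Lt.bi, Lt.di, Lt.b, Lt.ai] (pat hy (rf_5 hy) 3 rfl) h
theorem dM_36_s (hy : Hy g H) (j z1 z2 u : ℕ) (h : dM_36 j z1 z2 u = true) : GdM g H u := by
  unfold dM_36 at h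
  rcases brec_true h with h | h
  · exact dM_34_s hy j z1 z2 u h
  · exact dM_35_s hy j z1 z2 u h
theorem dM_37_s (hy : Hy g H) (j z1 z2 u : ℕ) (h : dM_37 j z1 z2 u = true) : GdM g H u := by
  unfold dM_37 at h
  rcases brec_true h with h | h
  · exact dM_33_s hy j z1 z2 u h
  · exact dM_36_s hy j z1 z2 u h
theorem dM_38_s (hy : Hy g H) (j z1 z2 u : ℕ) (h : dM_38 j z1 z2 u = true) : GdM g H u := by
  unfold dM_38 at h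
  rcases brec_true h with h | h
  · exact dM_32_s hy j z1 z2 u h
  · exact dM_37_s hy j z1 z2 u h
theorem dM_39_s (hy : Hy g H) (j z1 z2 u : ℕ) (h : dM_39 j z1 z2 u = true) : GdM g H u := by
  unfold dM_39 at h
  rcases brec_true h with h | h
  · exact dM_29_s hy j z1 z2 u h
  · exact dM_38_s hy j z1 z2 u h
theorem dM_40_s (hy : Hy g H) (j z1 z2 u : ℕ) (h : dM_40 j z1 z2 u = true) : GdM g H u := by
  unfold dM_40 at h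
  rcases brec_true h with h | h
  · exact dM_24_s hy j z1 z2 u h
  · exact dM_39_s hy j z1 z2 u h
theorem dM_41_s (hy : Hy g H) (j z1 z2 u : ℕ) (h : dM_41 j z1 z2 u = true) : GdM g H u := by
  unfold dM_41 at h
  rcases brec_true h with h | h
  · rcases brec_true h with h | h
    · rcases brec_true h with h | h
      · exact mRel_good (T := T) hM0 [Lt.ai, Lt.ai, Lt.bi, Lt.a, Lt.di, Lt.ai] [Lt.di, Lt.b, Lt.a, Lt.a] (pat hy (rb_4 hy) 5 rfl) h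
      · rcases brec_true h with h | h
        · exact mRel_good (T := T) hM0 [Lt.bi, Lt.a, Lt.bi, Lt.a, Lt.a, Lt.b, Lt.ai, Lt.b] [Lt.a] (pat hy (rf_3 hy) 6 rfl) h
        · exact mRel_good (T := T) hM0 [Lt.d, Lt.bi, Lt.ai, Lt.di, Lt.a, Lt.b, Lt.di, Lt.ai] [Lt.ai, Lt.di, Lt.a, Lt.b, Lt.d] (pat hy (rb_6 hy) 4 rfl) h
    · rcases brec_true h with h | h
      · exact mRel_good (T := T) hM0 [Lt.di, Lt.a, Lt.b, Lt.di, Lt.ai, Lt.di, Lt.bi, Lt.ai, Lt.d, Lt.a] [Lt.a, Lt.b, Lt.di] (pat hy (rb_6 hy) 7 rfl) h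
      · rcases brec_true h with h | h
        · exact mRel_good (T := T) hM0 [Lt.ai, Lt.di, Lt.bi, Lt.ai] [Lt.d, Lt.bi, Lt.ai, Lt.d, Lt.a, Lt.b, Lt.di, Lt.ai, Lt.di] (pat hy (rb_6 hy) 11 rfl) h
        · exact mRel_good (T := T) hM0 [Lt.b, Lt.ai, Lt.bi] [Lt.a, Lt.bi, Lt.ai, Lt.ai, Lt.b, Lt.ai] (pat hy (rf_3 hy) 4 rfl) h
  · rcases brec_true h with h | h
    · rcases brec_true h with h | h
      · exact mRel_good (T := T) hM0 [Lt.d, Lt.a] [Lt.bi, Lt.ai, Lt.d, Lt.a, Lt.d, Lt.bi, Lt.ai, Lt.di, Lt.a, Lt.b, Lt.di] (pat hy (rf_6 hy) 0 rfl) h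
      · rcases brec_true h with h | h
        · exact mRel_good (T := T) hM0 [Lt.a, Lt.bi, Lt.ai, Lt.ai, Lt.b, Lt.ai] [Lt.b, Lt.ai, Lt.bi] (pat hy (rb_3 hy) 5 rfl) h
        · exact mRel_good (T := T) hM0 [Lt.ai, Lt.d, Lt.bi] [Lt.bi, Lt.ai, Lt.d, Lt.bi, Lt.di, Lt.ai, Lt.b, Lt.d, Lt.bi, Lt.a, Lt.d] (pat hy (rf_7 hy) 13 rfl) h
    · rcases brec_true h with h | h
      · exact mRel_good (T := T) hM0 [Lt.b, Lt.di, Lt.ai, Lt.di, Lt.bi, Lt.ai] [Lt.ai, Lt.d, Lt.a, Lt.b, Lt.di, Lt.ai, Lt.di] (pat hy (rb_6 hy) 9 rfl) h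
      · rcases brec_true h with h | h
        · exact mRel_good (T := T) hM0 [Lt.di, Lt.b, Lt.ai, Lt.b, Lt.d, Lt.b, Lt.ai, Lt.bi, Lt.bi, Lt.di] [Lt.b, Lt.ai, Lt.b] (pat hy (rb_5 hy) 0 rfl) h
        · exact mRel_good (T := T) hM0 [Lt.ai, Lt.b, Lt.a, Lt.a, Lt.di, Lt.b, Lt.a] [Lt.di, Lt.ai, Lt.ai] (pat hy (rf_4 hy) 1 rfl) h
theorem dM_42_s (hy : Hy g H) (j z1 z2 u : ℕ) (h : dM_42 j z1 z2 u = true) : GdM g H u := by
  unfold dM_42 at h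
  rcases brec_true h with h | h
  · rcases brec_true h with h | h
    · exact mRel_good (T := T) hM0 [Lt.a, Lt.b, Lt.ai, Lt.d] [Lt.d, Lt.bi, Lt.di, Lt.ai, Lt.b, Lt.d, Lt.bi, Lt.a, Lt.d, Lt.b] (pat hy (rf_7 hy) 11 rfl) h
    · rcases brec_true h with h | h
      · exact mRel_good (T := T) hM0 [Lt.a, Lt.bi, Lt.di, Lt.bi, Lt.a, Lt.bi, Lt.d, Lt.b, Lt.ai, Lt.b, Lt.d] [Lt.bi, Lt.bi] (pat hy (rf_5 hy) 6 rfl) h
      · exact mRel_good (T := T) hM0 [Lt.a, Lt.bi, Lt.a, Lt.bi, Lt.ai] [Lt.bi, Lt.a, Lt.bi, Lt.a] (pat hy (rb_3 hy) 3 rfl) h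
  · rcases brec_true h with h | h
    · exact mRel_good (T := T) hM0 [Lt.a, Lt.d, Lt.bi, Lt.ai, Lt.d, Lt.a] [Lt.di, Lt.bi, Lt.ai, Lt.d, Lt.a, Lt.d, Lt.bi] (pat hy (rf_6 hy) 1 rfl) h
    · rcases brec_true h with h | h
      · exact mRel_good (T := T) hM0 [Lt.di, Lt.b, Lt.a, Lt.a] [Lt.ai, Lt.ai, Lt.bi, Lt.a, Lt.di, Lt.ai] (pat hy (rf_4 hy) 5 rfl) h
      · exact mRel_good (T := T) hM0 [Lt.b, Lt.di, Lt.ai, Lt.di, Lt.bi, Lt.ai, Lt.d] [Lt.ai, Lt.d, Lt.a, Lt.b, Lt.di, Lt.ai] (pat hy (rb_6 hy) 9 rfl) h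
theorem dM_43_s (hy : Hy g H) (j z1 z2 u : ℕ) (h : dM_43 j z1 z2 u = true) : GdM g H u := by
  unfold dM_43 at h
  rcases brec_true h with h | h
  · rcases brec_true h with h | h
    · exact mRel_good (T := T) hM0 [Lt.a, Lt.d, Lt.bi, Lt.ai, Lt.d, Lt.a, Lt.b, Lt.di, Lt.ai] [Lt.di, Lt.bi, Lt.ai, Lt.d] (pat hy (rf_6 hy) 1 rfl) h
    · rcases brec_true h with h | h
      · exact mRel_good (T := T) hM0 [Lt.a, Lt.d, Lt.ai, Lt.b, Lt.a, Lt.a, Lt.di, Lt.b, Lt.a] [Lt.ai] (pat hy (rf_4 hy) 9 rfl) h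
      · exact mRel_good (T := T) hM0 [Lt.a, Lt.b, Lt.di, Lt.ai] [Lt.d, Lt.a, Lt.b, Lt.di, Lt.ai, Lt.di, Lt.a, Lt.b, Lt.d] (pat hy (rb_6 hy) 8 rfl) h
  · rcases brec_true h with h | h
    · rcases brec_true h with h | h
      · exact mRel_good (T := T) hM0 [Lt.a, Lt.bi, Lt.a, Lt.bi, Lt.ai, Lt.ai] [Lt.bi, Lt.a, Lt.bi] (pat hy (rb_3 hy) 3 rfl) h
      · exact mRel_good (T := T) hM0 [Lt.bi, Lt.a, Lt.bi, Lt.a] [Lt.a, Lt.bi, Lt.a, Lt.bi, Lt.ai] (pat hy (rf_3 hy) 6 rfl) h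
    · rcases brec_true h with h | h
      · exact mRel_good (T := T) hM0 [Lt.ai, Lt.bi, Lt.a, Lt.di, Lt.ai, Lt.ai, Lt.ai, Lt.bi] [Lt.a, Lt.di] (pat hy (rb_4 hy) 6 rfl) h
      · exact mRel_good (T := T) hM0 [Lt.a, Lt.a, Lt.b, Lt.ai, Lt.b, Lt.ai, Lt.bi] [Lt.b, Lt.ai] (pat hy (rf_3 hy) 0 rfl) h
theorem dM_44_s (hy : Hy g H) (j z1 z2 u : ℕ) (h : dM_44 j z1 z2 u = true) : GdM g H u := by
  unfold dM_44 at h
  rcases brec_true h with h | h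
  · exact dM_42_s hy j z1 z2 u h
  · exact dM_43_s hy j z1 z2 u h
theorem dM_45_s (hy : Hy g H) (j z1 z2 u : ℕ) (h : dM_45 j z1 z2 u = true) : GdM g H u := by
  unfold dM_45 at h
  rcases brec_true h with h | h
  · exact dM_41_s hy j z1 z2 u h
  · exact dM_44_s hy j z1 z2 u h
theorem dM_46_s (hy : Hy g H) (j z1 z2 u : ℕ) (h : dM_46 j z1 z2 u = true) : GdM g H u := by
  unfold dM_46 at h
  rcases brec_true h with h | h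
  · rcases brec_true h with h | h
    · rcases brec_true h with h | h
      · exact mRel_good (T := T) hM0 [Lt.d, Lt.ai, Lt.b, Lt.a, Lt.a, Lt.di, Lt.b, Lt.a] [Lt.ai, Lt.ai] (pat hy (rf_4 hy) 0 rfl) h
      · rcases brec_true h with h | h
        · exact mRel_good (T := T) hM0 [Lt.ai, Lt.b, Lt.a] [Lt.bi, Lt.a, Lt.a, Lt.b, Lt.ai, Lt.b] (pat hy (rb_3 hy) 1 rfl) h
        · exact mRel_good (T := T) hM0 [Lt.b, Lt.ai, Lt.b] [Lt.a, Lt.a, Lt.b, Lt.ai, Lt.b, Lt.ai] (pat hy (rb_3 hy) 0 rfl) h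
    · rcases brec_true h with h | h
      · exact mRel_good (T := T) hM0 [Lt.ai, Lt.di, Lt.a, Lt.b, Lt.di, Lt.ai, Lt.di, Lt.bi, Lt.ai, Lt.d, Lt.a, Lt.d] [Lt.b] (pat hy (rb_6 hy) 6 rfl) h
      · rcases brec_true h with h | h
        · exact mRel_good (T := T) hM0 [Lt.ai, Lt.b, Lt.d, Lt.b, Lt.b, Lt.a, Lt.bi, Lt.di, Lt.bi, Lt.a, Lt.bi, Lt.d] [Lt.bi] (pat hy (rf_5 hy) 1 rfl) h
        · exact mRel_good (T := T) hM0 [Lt.bi, Lt.a] [Lt.a, Lt.bi, Lt.a, Lt.bi, Lt.ai, Lt.ai, Lt.b] (pat hy (rf_3 hy) 6 rfl) h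
  · rcases brec_true h with h | h
    · rcases brec_true h with h | h
      · exact mRel_good (T := T) hM0 [Lt.a, Lt.a, Lt.b, Lt.ai] [Lt.b, Lt.ai, Lt.b, Lt.a, Lt.bi] (pat hy (rf_3 hy) 0 rfl) h
      · rcases brec_true h with h | h
        · exact mRel_good (T := T) hM0 [Lt.bi, Lt.a, Lt.bi, Lt.a, Lt.a, Lt.b] [Lt.a, Lt.bi, Lt.a] (pat hy (rf_3 hy) 6 rfl) h
        · exact mRel_good (T := T) hM0 [Lt.d, Lt.a, Lt.d, Lt.bi, Lt.ai, Lt.di, Lt.a, Lt.b, Lt.di, Lt.ai] [Lt.a, Lt.b, Lt.d] (pat hy (rb_6 hy) 2 rfl) h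
    · rcases brec_true h with h | h
      · exact mRel_good (T := T) hM0 [Lt.d, Lt.bi, Lt.ai, Lt.d, Lt.a, Lt.b, Lt.di, Lt.ai, Lt.di, Lt.a, Lt.b, Lt.d] [Lt.ai] (pat hy (rf_6 hy) 2 rfl) h
      · rcases brec_true h with h | h
        · exact mRel_good (T := T) hM0 [Lt.bi, Lt.di, Lt.ai, Lt.b, Lt.d, Lt.bi, Lt.a] [Lt.di, Lt.a, Lt.b, Lt.ai, Lt.d, Lt.bi, Lt.di] (pat hy (rb_7 hy) 4 rfl) h
        · exact mRel_good (T := T) hM0 [Lt.ai, Lt.bi, Lt.a, Lt.bi, Lt.a, Lt.a] [Lt.bi, Lt.a, Lt.bi] (pat hy (rf_3 hy) 5 rfl) h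
theorem dM_47_s (hy : Hy g H) (j z1 z2 u : ℕ) (h : dM_47 j z1 z2 u = true) : GdM g H u := by
  unfold dM_47 at h
  rcases brec_true h with h | h
  · rcases brec_true h with h | h
    · exact mRel_good (T := T) hM0 [Lt.ai, Lt.ai, Lt.b, Lt.ai, Lt.b, Lt.a, Lt.bi] [Lt.b, Lt.ai] (pat hy (rb_3 hy) 7 rfl) h
    · rcases brec_true h with h | h
      · exact mRel_good (T := T) hM0 [Lt.a, Lt.b, Lt.ai, Lt.b, Lt.ai, Lt.bi] [Lt.ai, Lt.b, Lt.ai] (pat hy (rf_3 hy) 1 rfl) h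
      · exact mRel_good (T := T) hM0 [Lt.a, Lt.b, Lt.ai, Lt.b, Lt.ai, Lt.bi, Lt.a] [Lt.ai, Lt.b] (pat hy (rf_3 hy) 1 rfl) h
  · rcases brec_true h with h | h
    · exact mRel_good (T := T) hM0 [Lt.di, Lt.a, Lt.b, Lt.d, Lt.a] [Lt.a, Lt.d, Lt.bi, Lt.ai, Lt.di, Lt.a, Lt.b, Lt.di] (pat hy (rf_6 hy) 10 rfl) h
    · rcases brec_true h with h | h
      · exact mRel_good (T := T) hM0 [Lt.di, Lt.ai, Lt.di, Lt.a, Lt.b] [Lt.bi, Lt.ai, Lt.di, Lt.a, Lt.b, Lt.di, Lt.ai, Lt.di] (pat hy (rf_6 hy) 8 rfl) h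
      · exact mRel_good (T := T) hM0 [Lt.b, Lt.di] [Lt.ai, Lt.di, Lt.a, Lt.b, Lt.di, Lt.ai, Lt.di, Lt.bi, Lt.ai, Lt.d, Lt.a] (pat hy (rf_6 hy) 7 rfl) h
theorem dM_48_s (hy : Hy g H) (j z1 z2 u : ℕ) (h : dM_48 j z1 z2 u = true) : GdM g H u := by
  unfold dM_48 at h
  rcases brec_true h with h | h
  · rcases brec_true h with h | h
    · exact mRel_good (T := T) hM0 [Lt.a, Lt.a, Lt.a, Lt.d, Lt.ai, Lt.b, Lt.a, Lt.a] [Lt.bi, Lt.d] (pat hy (rf_4 hy) 7 rfl) h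
    · rcases brec_true h with h | h
      · exact mRel_good (T := T) hM0 [Lt.a, Lt.b, Lt.ai, Lt.b, Lt.ai] [Lt.ai, Lt.b, Lt.ai, Lt.b] (pat hy (rf_3 hy) 1 rfl) h
      · exact mRel_good (T := T) hM0 [Lt.a, Lt.a, Lt.b, Lt.ai, Lt.b] [Lt.b, Lt.ai, Lt.b, Lt.a] (pat hy (rf_3 hy) 0 rfl) h
  · rcases brec_true h with h | h
    · rcases brec_true h with h | h
      · exact mRel_good (T := T) hM0 [Lt.bi, Lt.ai, Lt.d, Lt.a, Lt.d] [Lt.d, Lt.a, Lt.d, Lt.bi, Lt.ai, Lt.d, Lt.a, Lt.b] (pat hy (rb_6 hy) 0 rfl) h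
      · exact mRel_good (T := T) hM0 [Lt.ai, Lt.b, Lt.ai, Lt.b, Lt.a] [Lt.a, Lt.b, Lt.ai, Lt.b] (pat hy (rb_3 hy) 8 rfl) h
    · rcases brec_true h with h | h
      · exact mRel_good (T := T) hM0 [Lt.ai, Lt.di, Lt.a, Lt.b, Lt.d] [Lt.d, Lt.bi, Lt.ai, Lt.di, Lt.a, Lt.b, Lt.di, Lt.ai] (pat hy (rf_6 hy) 9 rfl) h
      · exact mRel_good (T := T) hM0 [Lt.a] [Lt.bi, Lt.ai, Lt.bi, Lt.ai, Lt.bi] (pat hy (rf_2 hy) 0 rfl) h
theorem dM_49_s (hy : Hy g H) (j z1 z2 u : ℕ) (h : dM_49 j z1 z2 u = true) : GdM g H u := by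
  unfold dM_49 at h
  rcases brec_true h with h | h
  · exact dM_47_s hy j z1 z2 u h
  · exact dM_48_s hy j z1 z2 u h
theorem dM_50_s (hy : Hy g H) (j z1 z2 u : ℕ) (h : dM_50 j z1 z2 u = true) : GdM g H u := by
  unfold dM_50 at h
  rcases brec_true h with h | h
  · exact dM_46_s hy j z1 z2 u h
  · exact dM_49_s hy j z1 z2 u h
theorem dM_51_s (hy : Hy g H) (j z1 z2 u : ℕ) (h : dM_51 j z1 z2 u = true) : GdM g H u := by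
  unfold dM_51 at h
  rcases brec_true h with h | h
  · exact dM_45_s hy j z1 z2 u h
  · exact dM_50_s hy j z1 z2 u h
theorem dM_52_s (hy : Hy g H) (j z1 z2 u : ℕ) (h : dM_52 j z1 z2 u = true) : GdM g H u := by
  unfold dM_52 at h
  rcases brec_true h with h | h
  · rcases brec_true h with h | h
    · rcases brec_true h with h | h
      · exact mRel_good (T := T) hM0 [Lt.b, Lt.a, Lt.bi] [Lt.a, Lt.bi, Lt.a, Lt.a, Lt.b, Lt.ai] (pat hy (rb_3 hy) 2 rfl) h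
      · rcases brec_true h with h | h
        · exact mRel_good (T := T) hM0 [Lt.b, Lt.b] [Lt.bi] (pat hy (rf_1 hy) 0 rfl) h
        · exact mRel_good (T := T) hM0 [Lt.a, Lt.b, Lt.ai] [Lt.ai, Lt.b, Lt.ai, Lt.b, Lt.a, Lt.bi] (pat hy (rf_3 hy) 1 rfl) h
    · rcases brec_true h with h | h
      · exact mRel_good (T := T) hM0 [Lt.bi, Lt.a, Lt.bi, Lt.a, Lt.a, Lt.b, Lt.ai] [Lt.a, Lt.bi] (pat hy (rf_3 hy) 6 rfl) h
      · rcases brec_true h with h | h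
        · exact mRel_good (T := T) hM0 [Lt.a, Lt.d, Lt.bi, Lt.ai, Lt.d, Lt.a, Lt.b, Lt.di, Lt.ai, Lt.di] [Lt.di, Lt.bi, Lt.ai] (pat hy (rf_6 hy) 1 rfl) h
        · exact mRel_good (T := T) hM0 [Lt.ai, Lt.b, Lt.a, Lt.bi, Lt.a, Lt.bi, Lt.ai, Lt.ai] [Lt.bi] (pat hy (rb_3 hy) 1 rfl) h
  · rcases brec_true h with h | h
    · rcases brec_true h with h | h
      · exact mRel_good (T := T) hM0 [Lt.a, Lt.b, Lt.d, Lt.a, Lt.d] [Lt.d, Lt.a, Lt.d, Lt.bi, Lt.ai, Lt.di, Lt.a, Lt.b] (pat hy (rf_6 hy) 11 rfl) h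
      · rcases brec_true h with h | h
        · exact mRel_good (T := T) hM0 [Lt.a, Lt.a, Lt.di] [Lt.bi, Lt.a, Lt.di, Lt.ai, Lt.ai, Lt.ai, Lt.bi] (pat hy (rf_4 hy) 3 rfl) h
        · exact mRel_good (T := T) hM0 [Lt.a, Lt.b, Lt.di, Lt.ai, Lt.di] [Lt.d, Lt.a, Lt.b, Lt.di, Lt.ai, Lt.di, Lt.a, Lt.b] (pat hy (rb_6 hy) 8 rfl) h
    · rcases brec_true h with h | h
      · exact mRel_good (T := T) hM0 [Lt.a, Lt.di, Lt.ai, Lt.ai, Lt.ai] [Lt.b, Lt.a, Lt.a, Lt.di, Lt.b] (pat hy (rb_4 hy) 8 rfl) h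
      · rcases brec_true h with h | h
        · exact mRel_good (T := T) hM0 [Lt.ai, Lt.b, Lt.ai, Lt.bi, Lt.a, Lt.bi, Lt.a, Lt.a] [Lt.bi] (pat hy (rf_3 hy) 3 rfl) h
        · exact mRel_good (T := T) hM0 [Lt.bi] [Lt.a, Lt.a, Lt.a, Lt.d, Lt.ai, Lt.b, Lt.a, Lt.a, Lt.di] (pat hy (rb_4 hy) 3 rfl) h
theorem dM_53_s (hy : Hy g H) (j z1 z2 u : ℕ) (h : dM_53 j z1 z2 u = true) : GdM g H u := by
  unfold dM_53 at h
  rcases brec_true h with h | h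
  · rcases brec_true h with h | h
    · exact mRel_good (T := T) hM0 [Lt.a, Lt.b, Lt.di] [Lt.d, Lt.a, Lt.b, Lt.di, Lt.ai, Lt.di, Lt.a, Lt.b, Lt.d, Lt.a] (pat hy (rb_6 hy) 8 rfl) h
    · rcases brec_true h with h | h
      · exact mRel_good (T := T) hM0 [Lt.b, Lt.d, Lt.a, Lt.d, Lt.bi, Lt.ai, Lt.d, Lt.a, Lt.b, Lt.di] [Lt.ai, Lt.d, Lt.a] (pat hy (rf_6 hy) 12 rfl) h
      · exact mRel_good (T := T) hM0 [Lt.a, Lt.b, Lt.d] [Lt.d, Lt.a, Lt.d, Lt.bi, Lt.ai, Lt.di, Lt.a, Lt.b, Lt.di, Lt.ai] (pat hy (rf_6 hy) 11 rfl) h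
  · rcases brec_true h with h | h
    · exact mRel_good (T := T) hM0 [Lt.b, Lt.a] [Lt.a, Lt.di, Lt.ai, Lt.ai, Lt.ai, Lt.bi, Lt.d, Lt.ai] (pat hy (rf_4 hy) 2 rfl) h
    · rcases brec_true h with h | h
      · exact mRel_good (T := T) hM0 [Lt.ai, Lt.di, Lt.a, Lt.b, Lt.di, Lt.ai, Lt.di, Lt.bi] [Lt.b, Lt.di, Lt.ai, Lt.di, Lt.a] (pat hy (rb_6 hy) 6 rfl) h
      · exact mRel_good (T := T) hM0 [Lt.di, Lt.ai, Lt.di, Lt.bi, Lt.ai, Lt.d, Lt.a] [Lt.bi, Lt.ai, Lt.d, Lt.a, Lt.b, Lt.di] (pat hy (rb_6 hy) 10 rfl) h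
theorem dM_54_s (hy : Hy g H) (j z1 z2 u : ℕ) (h : dM_54 j z1 z2 u = true) : GdM g H u := by
  unfold dM_54 at h
  rcases brec_true h with h | h
  · rcases brec_true h with h | h
    · exact mRel_good (T := T) hM0 [Lt.d, Lt.b, Lt.ai, Lt.b, Lt.d] [Lt.b, Lt.ai, Lt.b, Lt.d, Lt.b, Lt.ai, Lt.bi, Lt.bi] (pat hy (rf_5 hy) 12 rfl) h
    · rcases brec_true h with h | h
      · exact mRel_good (T := T) hM0 [Lt.di, Lt.a, Lt.b, Lt.di, Lt.ai, Lt.di, Lt.bi, Lt.ai, Lt.d] [Lt.a, Lt.b, Lt.di, Lt.ai] (pat hy (rb_6 hy) 7 rfl) h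
      · exact mRel_good (T := T) hM0 [Lt.ai, Lt.ai] [Lt.a, Lt.d, Lt.ai, Lt.b, Lt.a, Lt.a, Lt.di, Lt.b] (pat hy (rb_4 hy) 1 rfl) h
  · rcases brec_true h with h | h
    · rcases brec_true h with h | h
      · exact mRel_good (T := T) hM0 [Lt.ai, Lt.d, Lt.a, Lt.b, Lt.di, Lt.ai] [Lt.b, Lt.di, Lt.ai, Lt.di, Lt.bi, Lt.ai, Lt.d] (pat hy (rf_6 hy) 4 rfl) h
      · exact mRel_good (T := T) hM0 [Lt.di, Lt.a, Lt.b] [Lt.a, Lt.b, Lt.di, Lt.ai, Lt.di, Lt.a, Lt.b, Lt.d, Lt.a, Lt.d] (pat hy (rb_6 hy) 7 rfl) h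
    · rcases brec_true h with h | h
      · exact mRel_good (T := T) hM0 [Lt.a, Lt.b] [Lt.di, Lt.a, Lt.b, Lt.di, Lt.ai, Lt.di, Lt.bi, Lt.ai, Lt.d, Lt.a, Lt.d] (pat hy (rf_6 hy) 6 rfl) h
      · exact mRel_good (T := T) hM0 [Lt.bi, Lt.d] [Lt.a, Lt.a, Lt.a, Lt.d, Lt.ai, Lt.b, Lt.a, Lt.a] (pat hy (rb_4 hy) 3 rfl) h
theorem dM_55_s (hy : Hy g H) (j z1 z2 u : ℕ) (h : dM_55 j z1 z2 u = true) : GdM g H u := by
  unfold dM_55 at h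
  rcases brec_true h with h | h
  · exact dM_53_s hy j z1 z2 u h
  · exact dM_54_s hy j z1 z2 u h
theorem dM_56_s (hy : Hy g H) (j z1 z2 u : ℕ) (h : dM_56 j z1 z2 u = true) : GdM g H u := by
  unfold dM_56 at h
  rcases brec_true h with h | h
  · exact dM_52_s hy j z1 z2 u h
  · exact dM_55_s hy j z1 z2 u h
theorem dM_57_s (hy : Hy g H) (j z1 z2 u : ℕ) (h : dM_57 j z1 z2 u = true) : GdM g H u := by
  unfold dM_57 at h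
  rcases brec_true h with h | h
  · rcases brec_true h with h | h
    · exact mRel_good (T := T) hM0 [Lt.ai, Lt.bi] [Lt.a, Lt.di, Lt.b, Lt.a, Lt.a, Lt.a, Lt.d, Lt.ai] (pat hy (rb_4 hy) 6 rfl) h
    · rcases brec_true h with h | h
      · exact mRel_good (T := T) hM0 [Lt.a, Lt.d, Lt.bi, Lt.ai, Lt.d, Lt.a, Lt.b, Lt.di, Lt.ai, Lt.di, Lt.a] [Lt.di, Lt.bi] (pat hy (rf_6 hy) 1 rfl) h
      · exact mRel_good (T := T) hM0 [Lt.d, Lt.ai, Lt.ai] [Lt.b, Lt.a, Lt.a, Lt.a, Lt.d, Lt.ai, Lt.b] (pat hy (rb_4 hy) 4 rfl) h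
  · rcases brec_true h with h | h
    · exact mRel_good (T := T) hM0 [Lt.a, Lt.d, Lt.bi, Lt.ai, Lt.di, Lt.a, Lt.b, Lt.di, Lt.ai] [Lt.di, Lt.a, Lt.b, Lt.d] (pat hy (rb_6 hy) 3 rfl) h
    · rcases brec_true h with h | h
      · exact mRel_good (T := T) hM0 [Lt.d, Lt.d] [Lt.di] (pat hy (rf_0 hy) 0 rfl) h
      · exact mRel_good (T := T) hM0 [Lt.b, Lt.a, Lt.bi, Lt.di, Lt.bi, Lt.a, Lt.bi, Lt.d, Lt.b, Lt.ai, Lt.b, Lt.d] [Lt.bi] (pat hy (rf_5 hy) 5 rfl) h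
theorem dM_58_s (hy : Hy g H) (j z1 z2 u : ℕ) (h : dM_58 j z1 z2 u = true) : GdM g H u := by
  unfold dM_58 at h
  rcases brec_true h with h | h
  · rcases brec_true h with h | h
    · exact mRel_good (T := T) hM0 [Lt.a, Lt.bi, Lt.di, Lt.bi, Lt.a, Lt.bi, Lt.d] [Lt.bi, Lt.bi, Lt.di, Lt.bi, Lt.a, Lt.bi] (pat hy (rf_5 hy) 6 rfl) h
    · rcases brec_true h with h | h
      · exact mRel_good (T := T) hM0 [Lt.bi, Lt.a, Lt.bi, Lt.di, Lt.b, Lt.ai, Lt.b, Lt.d, Lt.b] [Lt.d, Lt.b, Lt.b, Lt.a] (pat hy (rb_5 hy) 10 rfl) h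
      · exact mRel_good (T := T) hM0 [Lt.a, Lt.bi, Lt.d, Lt.b, Lt.di] [Lt.bi, Lt.di, Lt.a, Lt.b, Lt.ai, Lt.b, Lt.d, Lt.b, Lt.a, Lt.bi] (pat hy (rb_8 hy) 6 rfl) h
  · rcases brec_true h with h | h
    · exact mRel_good (T := T) hM0 [Lt.b, Lt.ai, Lt.b, Lt.d, Lt.b, Lt.ai, Lt.bi, Lt.bi, Lt.di, Lt.bi, Lt.a] [Lt.d, Lt.b] (pat hy (rb_5 hy) 1 rfl) h
    · rcases brec_true h with h | h
      · exact mRel_good (T := T) hM0 [Lt.bi, Lt.di, Lt.bi, Lt.a, Lt.bi, Lt.d, Lt.b] [Lt.ai, Lt.bi, Lt.bi, Lt.di, Lt.bi, Lt.a] (pat hy (rf_5 hy) 7 rfl) h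
      · exact mRel_good (T := T) hM0 [Lt.a, Lt.b, Lt.d, Lt.a, Lt.d, Lt.bi, Lt.ai] [Lt.d, Lt.a, Lt.d, Lt.bi, Lt.ai, Lt.di] (pat hy (rf_6 hy) 11 rfl) h
theorem dM_59_s (hy : Hy g H) (j z1 z2 u : ℕ) (h : dM_59 j z1 z2 u = true) : GdM g H u := by
  unfold dM_59 at h
  rcases brec_true h with h | h
  · rcases brec_true h with h | h
    · exact mRel_good (T := T) hM0 [Lt.b, Lt.b, Lt.a, Lt.bi, Lt.di, Lt.bi, Lt.a, Lt.bi] [Lt.di, Lt.bi, Lt.a, Lt.bi, Lt.di] (pat hy (rf_5 hy) 4 rfl) h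
    · rcases brec_true h with h | h
      · exact mRel_good (T := T) hM0 [Lt.a, Lt.bi, Lt.ai, Lt.ai, Lt.b, Lt.ai, Lt.b] [Lt.b, Lt.ai] (pat hy (rb_3 hy) 5 rfl) h
      · exact mRel_good (T := T) hM0 [Lt.di, Lt.a, Lt.b, Lt.ai, Lt.b, Lt.d, Lt.b, Lt.a, Lt.bi, Lt.d, Lt.bi] [Lt.b, Lt.a, Lt.bi, Lt.d] (pat hy (rf_8 hy) 10 rfl) h
  · rcases brec_true h with h | h
    · rcases brec_true h with h | h
      · exact mRel_good (T := T) hM0 [Lt.d, Lt.bi, Lt.a, Lt.d, Lt.b, Lt.di, Lt.a, Lt.bi, Lt.ai, Lt.d, Lt.bi, Lt.di] [Lt.bi, Lt.a] (pat hy (rb_7 hy) 8 rfl) h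
      · exact mRel_good (T := T) hM0 [Lt.b, Lt.di, Lt.bi, Lt.a, Lt.d, Lt.b] [Lt.a, Lt.d, Lt.b, Lt.di, Lt.a, Lt.bi, Lt.ai, Lt.d] (pat hy (rf_7 hy) 4 rfl) h
    · rcases brec_true h with h | h
      · exact mRel_good (T := T) hM0 [Lt.ai, Lt.bi, Lt.bi, Lt.di, Lt.bi] [Lt.bi, Lt.di, Lt.bi, Lt.a, Lt.bi, Lt.d, Lt.b, Lt.ai] (pat hy (rb_5 hy) 6 rfl) h
      · exact mRel_good (T := T) hM0 [Lt.b, Lt.ai, Lt.bi, Lt.di, Lt.bi, Lt.a, Lt.bi, Lt.ai, Lt.d, Lt.b, Lt.a, Lt.bi, Lt.d] [Lt.d, Lt.bi] (pat hy (rb_8 hy) 11 rfl) h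
theorem dM_60_s (hy : Hy g H) (j z1 z2 u : ℕ) (h : dM_60 j z1 z2 u = true) : GdM g H u := by
  unfold dM_60 at h
  rcases brec_true h with h | h
  · exact dM_58_s hy j z1 z2 u h
  · exact dM_59_s hy j z1 z2 u h
theorem dM_61_s (hy : Hy g H) (j z1 z2 u : ℕ) (h : dM_61 j z1 z2 u = true) : GdM g H u := by
  unfold dM_61 at h
  rcases brec_true h with h | h
  · exact dM_57_s hy j z1 z2 u h
  · exact dM_60_s hy j z1 z2 u h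
theorem dM_62_s (hy : Hy g H) (j z1 z2 u : ℕ) (h : dM_62 j z1 z2 u = true) : GdM g H u := by
  unfold dM_62 at h
  rcases brec_true h with h | h
  · rcases brec_true h with h | h
    · exact mRel_good (T := T) hM0 [Lt.bi, Lt.a, Lt.bi] [Lt.a, Lt.bi, Lt.a, Lt.bi, Lt.ai, Lt.ai] (pat hy (rf_3 hy) 6 rfl) h
    · rcases brec_true h with h | h
      · exact mRel_good (T := T) hM0 [Lt.bi, Lt.ai, Lt.ai, Lt.b, Lt.ai, Lt.b] [Lt.ai, Lt.b, Lt.ai] (pat hy (rb_3 hy) 6 rfl) h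
      · exact mRel_good (T := T) hM0 [Lt.ai, Lt.bi, Lt.bi, Lt.di, Lt.bi, Lt.a, Lt.bi, Lt.di, Lt.b, Lt.ai] [Lt.bi, Lt.di, Lt.bi] (pat hy (rb_5 hy) 6 rfl) h
  · rcases brec_true h with h | h
    · exact mRel_good (T := T) hM0 [Lt.ai, Lt.bi, Lt.bi, Lt.di, Lt.bi, Lt.a, Lt.bi, Lt.di] [Lt.bi, Lt.di, Lt.bi, Lt.a, Lt.bi] (pat hy (rb_5 hy) 6 rfl) h
    · rcases brec_true h with h | h
      · exact mRel_good (T := T) hM0 [Lt.b, Lt.d, Lt.b, Lt.b, Lt.a, Lt.bi, Lt.di, Lt.bi] [Lt.a, Lt.bi, Lt.di, Lt.b, Lt.ai] (pat hy (rf_5 hy) 2 rfl) h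
      · exact mRel_good (T := T) hM0 [Lt.b, Lt.d, Lt.b, Lt.ai, Lt.bi, Lt.bi, Lt.di, Lt.bi, Lt.a, Lt.bi, Lt.di, Lt.b] [Lt.a] (pat hy (rb_5 hy) 3 rfl) h
theorem dM_63_s (hy : Hy g H) (j z1 z2 u : ℕ) (h : dM_63 j z1 z2 u = true) : GdM g H u := by
  unfold dM_63 at h
  rcases brec_true h with h | h
  · rcases brec_true h with h | h
    · exact mRel_good (T := T) hM0 [Lt.a, Lt.b, Lt.di, Lt.ai, Lt.di, Lt.bi, Lt.ai, Lt.d, Lt.a, Lt.d, Lt.bi, Lt.ai, Lt.di] [] (pat hy (rb_6 hy) 8 rfl) h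
    · rcases brec_true h with h | h
      · exact mRel_good (T := T) hM0 [Lt.ai, Lt.d, Lt.bi, Lt.di, Lt.ai, Lt.b, Lt.d, Lt.bi, Lt.a, Lt.d, Lt.b] [Lt.b, Lt.ai, Lt.d] (pat hy (rb_7 hy) 2 rfl) h
      · exact mRel_good (T := T) hM0 [Lt.b, Lt.ai] [Lt.d, Lt.b, Lt.ai, Lt.b, Lt.d, Lt.b, Lt.b, Lt.a, Lt.bi, Lt.di, Lt.bi] (pat hy (rb_5 hy) 1 rfl) h
  · rcases brec_true h with h | h
    · rcases brec_true h with h | h
      · exact mRel_good (T := T) hM0 [Lt.b, Lt.ai, Lt.bi, Lt.bi, Lt.di, Lt.bi, Lt.a] [Lt.di, Lt.bi, Lt.a, Lt.bi, Lt.d, Lt.b] (pat hy (rb_5 hy) 5 rfl) h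
      · exact mRel_good (T := T) hM0 [Lt.d, Lt.bi, Lt.di, Lt.ai, Lt.b, Lt.d, Lt.bi, Lt.a, Lt.d] [Lt.a, Lt.b, Lt.ai, Lt.d, Lt.bi] (pat hy (rb_7 hy) 3 rfl) h
    · rcases brec_true h with h | h
      · exact mRel_good (T := T) hM0 [Lt.b, Lt.di, Lt.a, Lt.bi, Lt.ai, Lt.d, Lt.bi, Lt.di, Lt.ai, Lt.b] [Lt.di, Lt.ai, Lt.b, Lt.di] (pat hy (rb_7 hy) 12 rfl) h
      · exact mRel_good (T := T) hM0 [Lt.ai, Lt.d, Lt.b, Lt.a, Lt.bi] [Lt.b, Lt.ai, Lt.b, Lt.d, Lt.b, Lt.a, Lt.bi, Lt.d, Lt.bi, Lt.di] (pat hy (rb_8 hy) 3 rfl) h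
theorem dM_64_s (hy : Hy g H) (j z1 z2 u : ℕ) (h : dM_64 j z1 z2 u = true) : GdM g H u := by
  unfold dM_64 at h
  rcases brec_true h with h | h
  · exact dM_62_s hy j z1 z2 u h
  · exact dM_63_s hy j z1 z2 u h
theorem dM_65_s (hy : Hy g H) (j z1 z2 u : ℕ) (h : dM_65 j z1 z2 u = true) : GdM g H u := by
  unfold dM_65 at h
  rcases brec_true h with h | h
  · rcases brec_true h with h | h
    · exact mRel_good (T := T) hM0 [Lt.ai, Lt.b, Lt.d, Lt.b, Lt.ai] [Lt.bi, Lt.d, Lt.b, Lt.ai, Lt.b, Lt.d, Lt.b, Lt.b] (pat hy (rb_5 hy) 2 rfl) h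
    · rcases brec_true h with h | h
      · exact mRel_good (T := T) hM0 [Lt.b, Lt.a, Lt.bi, Lt.di, Lt.bi] [Lt.bi, Lt.di, Lt.bi, Lt.a, Lt.bi, Lt.di, Lt.b, Lt.ai] (pat hy (rf_5 hy) 5 rfl) h
      · exact mRel_good (T := T) hM0 [Lt.a, Lt.b, Lt.ai, Lt.d, Lt.bi] [Lt.d, Lt.bi, Lt.di, Lt.ai, Lt.b, Lt.d, Lt.bi, Lt.a, Lt.d] (pat hy (rf_7 hy) 11 rfl) h
  · rcases brec_true h with h | h
    · exact mRel_good (T := T) hM0 [Lt.a, Lt.d, Lt.b, Lt.di, Lt.a, Lt.bi, Lt.ai, Lt.d, Lt.bi, Lt.di, Lt.ai] [Lt.b, Lt.di, Lt.bi] (pat hy (rb_7 hy) 10 rfl) h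
    · rcases brec_true h with h | h
      · exact mRel_good (T := T) hM0 [Lt.di, Lt.b, Lt.ai, Lt.bi, Lt.di, Lt.bi, Lt.a, Lt.bi, Lt.ai, Lt.d, Lt.b] [Lt.bi, Lt.di, Lt.b, Lt.ai] (pat hy (rb_8 hy) 10 rfl) h
      · exact mRel_good (T := T) hM0 [Lt.bi, Lt.bi, Lt.di, Lt.bi, Lt.a, Lt.bi, Lt.di, Lt.b, Lt.ai, Lt.b] [Lt.a, Lt.bi, Lt.di] (pat hy (rb_5 hy) 7 rfl) h
theorem dM_66_s (hy : Hy g H) (j z1 z2 u : ℕ) (h : dM_66 j z1 z2 u = true) : GdM g H u := by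
  unfold dM_66 at h
  rcases brec_true h with h | h
  · rcases brec_true h with h | h
    · exact mRel_good (T := T) hM0 [Lt.di, Lt.bi, Lt.a, Lt.bi, Lt.di] [Lt.b, Lt.b, Lt.a, Lt.bi, Lt.di, Lt.bi, Lt.a, Lt.bi] (pat hy (rb_5 hy) 9 rfl) h
    · rcases brec_true h with h | h
      · exact mRel_good (T := T) hM0 [Lt.ai, Lt.d] [Lt.b, Lt.ai, Lt.d, Lt.bi, Lt.di, Lt.ai, Lt.b, Lt.di, Lt.bi, Lt.a, Lt.d, Lt.b] (pat hy (rb_7 hy) 2 rfl) h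
      · exact mRel_good (T := T) hM0 [Lt.bi, Lt.ai, Lt.d, Lt.bi, Lt.di, Lt.ai, Lt.b, Lt.d, Lt.bi, Lt.a, Lt.d, Lt.b] [Lt.ai, Lt.d] (pat hy (rb_7 hy) 1 rfl) h
  · rcases brec_true h with h | h
    · rcases brec_true h with h | h
      · exact mRel_good (T := T) hM0 [Lt.a, Lt.b, Lt.di, Lt.ai, Lt.di, Lt.a, Lt.b, Lt.d, Lt.a, Lt.d] [Lt.di, Lt.a, Lt.b] (pat hy (rf_6 hy) 6 rfl) h
      · exact mRel_good (T := T) hM0 [Lt.di, Lt.a, Lt.b, Lt.d, Lt.a, Lt.d, Lt.bi, Lt.ai, Lt.d, Lt.a, Lt.b] [Lt.a, Lt.d] (pat hy (rf_6 hy) 10 rfl) h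
    · rcases brec_true h with h | h
      · exact mRel_good (T := T) hM0 [Lt.b, Lt.di, Lt.ai, Lt.di] [Lt.ai, Lt.d, Lt.a, Lt.b, Lt.di, Lt.ai, Lt.di, Lt.a, Lt.b] (pat hy (rb_6 hy) 9 rfl) h
      · exact mRel_good (T := T) hM0 [Lt.di, Lt.a, Lt.b, Lt.d, Lt.a, Lt.d] [Lt.a, Lt.d, Lt.bi, Lt.ai, Lt.di, Lt.a, Lt.b] (pat hy (rf_6 hy) 10 rfl) h
theorem dM_67_s (hy : Hy g H) (j z1 z2 u : ℕ) (h : dM_67 j z1 z2 u = true) : GdM g H u := by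
  unfold dM_67 at h
  rcases brec_true h with h | h
  · exact dM_65_s hy j z1 z2 u h
  · exact dM_66_s hy j z1 z2 u h
theorem dM_68_s (hy : Hy g H) (j z1 z2 u : ℕ) (h : dM_68 j z1 z2 u = true) : GdM g H u := by
  unfold dM_68 at h
  rcases brec_true h with h | h
  · exact dM_64_s hy j z1 z2 u h
  · exact dM_67_s hy j z1 z2 u h
theorem dM_69_s (hy : Hy g H) (j z1 z2 u : ℕ) (h : dM_69 j z1 z2 u = true) : GdM g H u := by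
  unfold dM_69 at h
  rcases brec_true h with h | h
  · exact dM_61_s hy j z1 z2 u h
  · exact dM_68_s hy j z1 z2 u h
theorem dM_70_s (hy : Hy g H) (j z1 z2 u : ℕ) (h : dM_70 j z1 z2 u = true) : GdM g H u := by
  unfold dM_70 at h
  rcases brec_true h with h | h
  · exact dM_56_s hy j z1 z2 u h
  · exact dM_69_s hy j z1 z2 u h
theorem dM_71_s (hy : Hy g H) (j z1 z2 u : ℕ) (h : dM_71 j z1 z2 u = true) : GdM g H u := by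
  unfold dM_71 at h
  rcases brec_true h with h | h
  · exact dM_51_s hy j z1 z2 u h
  · exact dM_70_s hy j z1 z2 u h
theorem dM_72_s (hy : Hy g H) (j z1 z2 u : ℕ) (h : dM_72 j z1 z2 u = true) : GdM g H u := by
  unfold dM_72 at h
  rcases brec_true h with h | h
  · rcases brec_true h with h | h
    · rcases brec_true h with h | h
      · exact mRel_good (T := T) hM0 [Lt.bi, Lt.a, Lt.bi, Lt.ai, Lt.ai, Lt.b, Lt.ai, Lt.b, Lt.a] [] (pat hy (rb_3 hy) 4 rfl) h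
      · rcases brec_true h with h | h
        · exact mRel_good (T := T) hM0 [Lt.ai, Lt.di, Lt.a, Lt.b] [Lt.d, Lt.bi, Lt.ai, Lt.di, Lt.a, Lt.b, Lt.di, Lt.ai, Lt.di] (pat hy (rf_6 hy) 9 rfl) h
        · exact mRel_good (T := T) hM0 [Lt.ai, Lt.di, Lt.bi, Lt.ai, Lt.d, Lt.a] [Lt.d, Lt.bi, Lt.ai, Lt.d, Lt.a, Lt.b, Lt.di] (pat hy (rb_6 hy) 11 rfl) h
    · rcases brec_true h with h | h
      · exact mRel_good (T := T) hM0 [Lt.a, Lt.bi, Lt.ai, Lt.d, Lt.bi, Lt.di, Lt.ai, Lt.b, Lt.d, Lt.bi, Lt.a, Lt.d] [Lt.d, Lt.bi] (pat hy (rb_7 hy) 0 rfl) h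
      · rcases brec_true h with h | h
        · exact mRel_good (T := T) hM0 [Lt.bi, Lt.d, Lt.ai, Lt.ai] [Lt.a, Lt.a, Lt.a, Lt.d, Lt.ai, Lt.b] (pat hy (rb_4 hy) 3 rfl) h
        · exact mRel_good (T := T) hM0 [Lt.b, Lt.ai, Lt.b, Lt.d] [Lt.d, Lt.b, Lt.ai, Lt.b, Lt.d, Lt.b, Lt.b, Lt.a, Lt.bi] (pat hy (rb_5 hy) 1 rfl) h
  · rcases brec_true h with h | h
    · rcases brec_true h with h | h
      · exact mRel_good (T := T) hM0 [Lt.d, Lt.b, Lt.ai, Lt.b, Lt.d, Lt.b, Lt.b, Lt.a, Lt.bi] [Lt.b, Lt.ai, Lt.b, Lt.d] (pat hy (rf_5 hy) 12 rfl) h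
      · rcases brec_true h with h | h
        · exact mRel_good (T := T) hM0 [Lt.a, Lt.bi, Lt.ai, Lt.d, Lt.b, Lt.a, Lt.bi, Lt.d, Lt.b, Lt.di] [Lt.b, Lt.d, Lt.b, Lt.a, Lt.bi] (pat hy (rb_8 hy) 1 rfl) h
        · exact mRel_good (T := T) hM0 [Lt.bi, Lt.a, Lt.bi, Lt.ai, Lt.ai, Lt.b, Lt.ai] [Lt.ai, Lt.bi] (pat hy (rb_3 hy) 4 rfl) h
    · rcases brec_true h with h | h
      · exact mRel_good (T := T) hM0 [Lt.a, Lt.a, Lt.a, Lt.d, Lt.ai] [Lt.bi, Lt.d, Lt.ai, Lt.ai, Lt.bi] (pat hy (rf_4 hy) 7 rfl) h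
      · rcases brec_true h with h | h
        · exact mRel_good (T := T) hM0 [Lt.ai, Lt.b, Lt.d, Lt.b, Lt.ai, Lt.bi, Lt.bi, Lt.di, Lt.bi, Lt.a, Lt.bi] [Lt.bi, Lt.d] (pat hy (rb_5 hy) 2 rfl) h
        · exact mRel_good (T := T) hM0 [Lt.ai, Lt.b, Lt.a, Lt.bi, Lt.a] [Lt.bi, Lt.a, Lt.a, Lt.b] (pat hy (rb_3 hy) 1 rfl) h
theorem dM_73_s (hy : Hy g H) (j z1 z2 u : ℕ) (h : dM_73 j z1 z2 u = true) : GdM g H u := by
  unfold dM_73 at h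
  rcases brec_true h with h | h
  · rcases brec_true h with h | h
    · exact mRel_good (T := T) hM0 [Lt.b, Lt.di, Lt.a, Lt.b, Lt.ai, Lt.d, Lt.bi, Lt.di] [Lt.di, Lt.ai, Lt.b, Lt.d, Lt.bi, Lt.a] (pat hy (rf_7 hy) 9 rfl) h
    · rcases brec_true h with h | h
      · exact mRel_good (T := T) hM0 [Lt.d, Lt.bi, Lt.ai, Lt.di] [Lt.ai, Lt.di, Lt.a, Lt.b, Lt.d, Lt.a, Lt.d, Lt.bi, Lt.ai] (pat hy (rb_6 hy) 4 rfl) h
      · exact mRel_good (T := T) hM0 [Lt.b, Lt.ai] [Lt.a, Lt.bi, Lt.ai, Lt.ai, Lt.b, Lt.ai, Lt.b] (pat hy (rf_3 hy) 4 rfl) h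
  · rcases brec_true h with h | h
    · exact mRel_good (T := T) hM0 [Lt.ai, Lt.di, Lt.a, Lt.b, Lt.di] [Lt.b, Lt.di, Lt.ai, Lt.di, Lt.a, Lt.b, Lt.d, Lt.a] (pat hy (rb_6 hy) 6 rfl) h
    · rcases brec_true h with h | h
      · exact mRel_good (T := T) hM0 [Lt.bi, Lt.a, Lt.bi, Lt.d, Lt.b, Lt.ai, Lt.b, Lt.d] [Lt.d, Lt.b, Lt.ai, Lt.bi, Lt.bi] (pat hy (rf_5 hy) 9 rfl) h
      · exact mRel_good (T := T) hM0 [Lt.bi, Lt.ai, Lt.d, Lt.a, Lt.d, Lt.bi, Lt.ai, Lt.di] [Lt.d, Lt.a, Lt.d, Lt.bi, Lt.ai] (pat hy (rb_6 hy) 0 rfl) h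
theorem dM_74_s (hy : Hy g H) (j z1 z2 u : ℕ) (h : dM_74 j z1 z2 u = true) : GdM g H u := by
  unfold dM_74 at h
  rcases brec_true h with h | h
  · rcases brec_true h with h | h
    · exact mRel_good (T := T) hM0 [Lt.d, Lt.a, Lt.d, Lt.bi, Lt.ai, Lt.d, Lt.a] [Lt.bi, Lt.ai, Lt.d, Lt.a, Lt.d, Lt.bi] (pat hy (rf_6 hy) 0 rfl) h
    · rcases brec_true h with h | h
      · exact mRel_good (T := T) hM0 [Lt.a, Lt.bi, Lt.di] [Lt.bi, Lt.bi, Lt.di, Lt.bi, Lt.a, Lt.bi, Lt.di, Lt.b, Lt.ai, Lt.b] (pat hy (rf_5 hy) 6 rfl) h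
      · exact mRel_good (T := T) hM0 [Lt.ai, Lt.bi, Lt.di, Lt.bi, Lt.a, Lt.bi, Lt.ai, Lt.d, Lt.b, Lt.a, Lt.bi, Lt.d, Lt.b] [Lt.bi, Lt.d] (pat hy (rb_8 hy) 12 rfl) h
  · rcases brec_true h with h | h
    · rcases brec_true h with h | h
      · exact mRel_good (T := T) hM0 [Lt.d, Lt.a, Lt.b, Lt.di, Lt.ai, Lt.di] [Lt.a, Lt.b, Lt.di, Lt.ai, Lt.di, Lt.bi, Lt.ai] (pat hy (rf_6 hy) 5 rfl) h
      · exact mRel_good (T := T) hM0 [Lt.bi, Lt.a, Lt.bi, Lt.d, Lt.b, Lt.ai, Lt.b, Lt.d, Lt.b, Lt.b, Lt.a] [Lt.d, Lt.b] (pat hy (rf_5 hy) 9 rfl) h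
    · rcases brec_true h with h | h
      · exact mRel_good (T := T) hM0 [Lt.ai, Lt.b, Lt.d, Lt.b, Lt.b, Lt.a, Lt.bi, Lt.di] [Lt.bi, Lt.di, Lt.b, Lt.ai, Lt.b] (pat hy (rf_5 hy) 1 rfl) h
      · exact mRel_good (T := T) hM0 [Lt.bi, Lt.ai, Lt.d, Lt.bi, Lt.di, Lt.ai, Lt.b, Lt.d, Lt.bi, Lt.a, Lt.d] [Lt.ai, Lt.d, Lt.bi] (pat hy (rb_7 hy) 1 rfl) h
theorem dM_75_s (hy : Hy g H) (j z1 z2 u : ℕ) (h : dM_75 j z1 z2 u = true) : GdM g H u := by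
  unfold dM_75 at h
  rcases brec_true h with h | h
  · exact dM_73_s hy j z1 z2 u h
  · exact dM_74_s hy j z1 z2 u h
theorem dM_76_s (hy : Hy g H) (j z1 z2 u : ℕ) (h : dM_76 j z1 z2 u = true) : GdM g H u := by
  unfold dM_76 at h
  rcases brec_true h with h | h
  · exact dM_72_s hy j z1 z2 u h
  · exact dM_75_s hy j z1 z2 u h
theorem dM_77_s (hy : Hy g H) (j z1 z2 u : ℕ) (h : dM_77 j z1 z2 u = true) : GdM g H u := by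
  unfold dM_77 at h
  rcases brec_true h with h | h
  · rcases brec_true h with h | h
    · rcases brec_true h with h | h
      · exact mRel_good (T := T) hM0 [Lt.b, Lt.d, Lt.a, Lt.d, Lt.bi, Lt.ai, Lt.d, Lt.a, Lt.b] [Lt.ai, Lt.d, Lt.a, Lt.d] (pat hy (rf_6 hy) 12 rfl) h
      · rcases brec_true h with h | h
        · exact mRel_good (T := T) hM0 [Lt.bi, Lt.ai, Lt.d, Lt.a, Lt.d, Lt.bi] [Lt.d, Lt.a, Lt.d, Lt.bi, Lt.ai, Lt.d, Lt.a] (pat hy (rb_6 hy) 0 rfl) h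
        · exact mRel_good (T := T) hM0 [Lt.a, Lt.a, Lt.a, Lt.d] [Lt.bi, Lt.d, Lt.ai, Lt.ai, Lt.bi, Lt.a] (pat hy (rf_4 hy) 7 rfl) h
    · rcases brec_true h with h | h
      · exact mRel_good (T := T) hM0 [Lt.d, Lt.bi, Lt.di, Lt.b, Lt.ai] [Lt.b, Lt.ai, Lt.bi, Lt.di, Lt.bi, Lt.a, Lt.bi, Lt.ai, Lt.d, Lt.b] (pat hy (rf_8 hy) 4 rfl) h
      · rcases brec_true h with h | h
        · exact mRel_good (T := T) hM0 [Lt.b, Lt.d, Lt.a, Lt.d, Lt.bi, Lt.ai, Lt.d, Lt.a, Lt.b, Lt.di, Lt.ai] [Lt.ai, Lt.d] (pat hy (rf_6 hy) 12 rfl) h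
        · exact mRel_good (T := T) hM0 [Lt.b, Lt.ai, Lt.bi, Lt.bi] [Lt.di, Lt.bi, Lt.a, Lt.bi, Lt.d, Lt.b, Lt.ai, Lt.b, Lt.d] (pat hy (rb_5 hy) 5 rfl) h
  · rcases brec_true h with h | h
    · rcases brec_true h with h | h
      · exact mRel_good (T := T) hM0 [Lt.ai, Lt.b, Lt.a, Lt.a, Lt.di, Lt.b, Lt.a, Lt.a, Lt.a, Lt.d] [] (pat hy (rf_4 hy) 1 rfl) h
      · rcases brec_true h with h | h
        · exact mRel_good (T := T) hM0 [Lt.d, Lt.bi, Lt.ai, Lt.di, Lt.a, Lt.b, Lt.di, Lt.ai, Lt.di, Lt.bi, Lt.ai] [Lt.ai, Lt.di] (pat hy (rb_6 hy) 4 rfl) h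
        · exact mRel_good (T := T) hM0 [Lt.b, Lt.ai, Lt.bi, Lt.a, Lt.bi, Lt.a, Lt.a, Lt.b, Lt.ai] [] (pat hy (rf_3 hy) 4 rfl) h
    · rcases brec_true h with h | h
      · exact mRel_good (T := T) hM0 [Lt.ai, Lt.b] [Lt.bi, Lt.a, Lt.a, Lt.b, Lt.ai, Lt.b, Lt.ai] (pat hy (rb_3 hy) 1 rfl) h
      · rcases brec_true h with h | h
        · exact mRel_good (T := T) hM0 [Lt.b, Lt.d, Lt.b, Lt.b, Lt.a, Lt.bi, Lt.di] [Lt.a, Lt.bi, Lt.di, Lt.b, Lt.ai, Lt.b] (pat hy (rf_5 hy) 2 rfl) h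
        · exact mRel_good (T := T) hM0 [Lt.a, Lt.bi, Lt.d] [Lt.b, Lt.d, Lt.b, Lt.ai, Lt.bi, Lt.bi, Lt.di, Lt.bi, Lt.a, Lt.bi] (pat hy (rf_5 hy) 10 rfl) h
theorem dM_78_s (hy : Hy g H) (j z1 z2 u : ℕ) (h : dM_78 j z1 z2 u = true) : GdM g H u := by
  unfold dM_78 at h
  rcases brec_true h with h | h
  · rcases brec_true h with h | h
    · exact mRel_good (T := T) hM0 [Lt.a, Lt.bi, Lt.d, Lt.b, Lt.ai, Lt.b, Lt.d, Lt.b, Lt.b] [Lt.b, Lt.d, Lt.b, Lt.ai] (pat hy (rf_5 hy) 10 rfl) h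
    · rcases brec_true h with h | h
      · exact mRel_good (T := T) hM0 [Lt.ai, Lt.bi, Lt.bi] [Lt.bi, Lt.di, Lt.bi, Lt.a, Lt.bi, Lt.d, Lt.b, Lt.ai, Lt.b, Lt.d] (pat hy (rb_5 hy) 6 rfl) h
      · exact mRel_good (T := T) hM0 [Lt.bi, Lt.bi, Lt.di, Lt.bi, Lt.a, Lt.bi, Lt.di] [Lt.a, Lt.bi, Lt.di, Lt.bi, Lt.a, Lt.bi] (pat hy (rb_5 hy) 7 rfl) h
  · rcases brec_true h with h | h
    · exact mRel_good (T := T) hM0 [Lt.bi, Lt.a, Lt.bi] [Lt.d, Lt.b, Lt.ai, Lt.bi, Lt.bi, Lt.di, Lt.bi, Lt.a, Lt.bi, Lt.di] (pat hy (rf_5 hy) 9 rfl) h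
    · rcases brec_true h with h | h
      · exact mRel_good (T := T) hM0 [Lt.ai, Lt.b, Lt.d, Lt.bi] [Lt.d, Lt.b, Lt.di, Lt.a, Lt.b, Lt.ai, Lt.d, Lt.bi, Lt.di, Lt.ai] (pat hy (rb_7 hy) 6 rfl) h
      · exact mRel_good (T := T) hM0 [Lt.di, Lt.bi, Lt.ai, Lt.d, Lt.a, Lt.d, Lt.bi] [Lt.a, Lt.d, Lt.bi, Lt.ai, Lt.d, Lt.a] (pat hy (rb_6 hy) 12 rfl) h
theorem dM_79_s (hy : Hy g H) (j z1 z2 u : ℕ) (h : dM_79 j z1 z2 u = true) : GdM g H u := by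
  unfold dM_79 at h
  rcases brec_true h with h | h
  · rcases brec_true h with h | h
    · exact mRel_good (T := T) hM0 [Lt.d, Lt.b, Lt.ai, Lt.bi, Lt.bi, Lt.di] [Lt.bi, Lt.a, Lt.bi, Lt.d, Lt.b, Lt.ai, Lt.b] (pat hy (rb_5 hy) 4 rfl) h
    · rcases brec_true h with h | h
      · exact mRel_good (T := T) hM0 [Lt.a, Lt.bi, Lt.ai, Lt.d, Lt.bi] [Lt.d, Lt.bi, Lt.di, Lt.ai, Lt.b, Lt.di, Lt.bi, Lt.a, Lt.d] (pat hy (rb_7 hy) 0 rfl) h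
      · exact mRel_good (T := T) hM0 [Lt.bi] [Lt.ai, Lt.b, Lt.ai, Lt.bi, Lt.a, Lt.bi, Lt.a, Lt.a] (pat hy (rb_3 hy) 6 rfl) h
  · rcases brec_true h with h | h
    · rcases brec_true h with h | h
      · exact mRel_good (T := T) hM0 [Lt.d, Lt.b, Lt.b, Lt.a, Lt.bi] [Lt.bi, Lt.a, Lt.bi, Lt.di, Lt.b, Lt.ai, Lt.b, Lt.d] (pat hy (rf_5 hy) 3 rfl) h
      · exact mRel_good (T := T) hM0 [Lt.ai, Lt.b, Lt.d, Lt.b, Lt.b] [Lt.bi, Lt.di, Lt.b, Lt.ai, Lt.b, Lt.d, Lt.b, Lt.ai] (pat hy (rf_5 hy) 1 rfl) h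
    · rcases brec_true h with h | h
      · exact mRel_good (T := T) hM0 [Lt.d, Lt.b, Lt.b, Lt.a] [Lt.bi, Lt.a, Lt.bi, Lt.di, Lt.b, Lt.ai, Lt.b, Lt.d, Lt.b] (pat hy (rf_5 hy) 3 rfl) h
      · exact mRel_good (T := T) hM0 [Lt.a, Lt.b, Lt.di, Lt.ai, Lt.di, Lt.bi, Lt.ai, Lt.d, Lt.a, Lt.d, Lt.bi, Lt.ai] [Lt.d] (pat hy (rb_6 hy) 8 rfl) h
theorem dM_80_s (hy : Hy g H) (j z1 z2 u : ℕ) (h : dM_80 j z1 z2 u = true) : GdM g H u := by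
  unfold dM_80 at h
  rcases brec_true h with h | h
  · exact dM_78_s hy j z1 z2 u h
  · exact dM_79_s hy j z1 z2 u h
theorem dM_81_s (hy : Hy g H) (j z1 z2 u : ℕ) (h : dM_81 j z1 z2 u = true) : GdM g H u := by
  unfold dM_81 at h
  rcases brec_true h with h | h
  · exact dM_77_s hy j z1 z2 u h
  · exact dM_80_s hy j z1 z2 u h
theorem dM_82_s (hy : Hy g H) (j z1 z2 u : ℕ) (h : dM_82 j z1 z2 u = true) : GdM g H u := by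
  unfold dM_82 at h
  rcases brec_true h with h | h
  · exact dM_76_s hy j z1 z2 u h
  · exact dM_81_s hy j z1 z2 u h
theorem dM_83_s (hy : Hy g H) (j z1 z2 u : ℕ) (h : dM_83 j z1 z2 u = true) : GdM g H u := by
  unfold dM_83 at h
  rcases brec_true h with h | h
  · rcases brec_true h with h | h
    · rcases brec_true h with h | h
      · exact mRel_good (T := T) hM0 [Lt.b, Lt.d, Lt.a, Lt.d, Lt.bi, Lt.ai] [Lt.ai, Lt.d, Lt.a, Lt.d, Lt.bi, Lt.ai, Lt.di] (pat hy (rf_6 hy) 12 rfl) h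
      · rcases brec_true h with h | h
        · exact mRel_good (T := T) hM0 [Lt.b, Lt.ai, Lt.b, Lt.d] [Lt.di, Lt.b, Lt.ai, Lt.b, Lt.d, Lt.b, Lt.ai, Lt.bi, Lt.bi] (pat hy (rf_5 hy) 0 rfl) h
        · exact mRel_good (T := T) hM0 [Lt.a, Lt.b, Lt.ai, Lt.d, Lt.bi, Lt.di, Lt.ai, Lt.b, Lt.di] [Lt.d, Lt.bi, Lt.di, Lt.ai, Lt.b] (pat hy (rf_7 hy) 11 rfl) h
    · rcases brec_true h with h | h
      · exact mRel_good (T := T) hM0 [Lt.a, Lt.d, Lt.b] [Lt.b, Lt.d, Lt.bi, Lt.a, Lt.d, Lt.b, Lt.di, Lt.a, Lt.bi, Lt.ai, Lt.d] (pat hy (rf_7 hy) 7 rfl) h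
      · rcases brec_true h with h | h
        · exact mRel_good (T := T) hM0 [Lt.di, Lt.bi, Lt.a, Lt.bi, Lt.d, Lt.b, Lt.ai, Lt.b, Lt.d] [Lt.b, Lt.ai, Lt.bi, Lt.bi] (pat hy (rf_5 hy) 8 rfl) h
        · exact mRel_good (T := T) hM0 [Lt.di, Lt.ai, Lt.b, Lt.di, Lt.bi, Lt.a] [Lt.b, Lt.di, Lt.a, Lt.bi, Lt.ai, Lt.d, Lt.bi, Lt.di] (pat hy (rf_7 hy) 2 rfl) h
  · rcases brec_true h with h | h
    · rcases brec_true h with h | h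
      · exact mRel_good (T := T) hM0 [Lt.b, Lt.a, Lt.a, Lt.a, Lt.d, Lt.ai, Lt.b] [Lt.d, Lt.ai, Lt.ai] (pat hy (rf_4 hy) 6 rfl) h
      · rcases brec_true h with h | h
        · exact mRel_good (T := T) hM0 [Lt.a, Lt.b, Lt.ai, Lt.b] [Lt.ai, Lt.b, Lt.ai, Lt.b, Lt.a] (pat hy (rf_3 hy) 1 rfl) h
        · exact mRel_good (T := T) hM0 [Lt.a, Lt.b, Lt.d, Lt.a, Lt.d, Lt.bi] [Lt.d, Lt.a, Lt.d, Lt.bi, Lt.ai, Lt.di, Lt.a] (pat hy (rf_6 hy) 11 rfl) h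
    · rcases brec_true h with h | h
      · exact mRel_good (T := T) hM0 [Lt.d, Lt.bi, Lt.ai, Lt.d, Lt.a, Lt.b, Lt.di] [Lt.ai, Lt.di, Lt.bi, Lt.ai, Lt.d, Lt.a] (pat hy (rf_6 hy) 2 rfl) h
      · rcases brec_true h with h | h
        · exact mRel_good (T := T) hM0 [Lt.b, Lt.d] [Lt.a, Lt.bi, Lt.di, Lt.b, Lt.ai, Lt.b, Lt.d, Lt.b, Lt.ai, Lt.bi, Lt.bi] (pat hy (rf_5 hy) 2 rfl) h
        · exact mRel_good (T := T) hM0 [Lt.bi, Lt.bi, Lt.di] [Lt.a, Lt.bi, Lt.di, Lt.bi, Lt.a, Lt.bi, Lt.d, Lt.b, Lt.ai, Lt.b] (pat hy (rb_5 hy) 7 rfl) h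
theorem dM_84_s (hy : Hy g H) (j z1 z2 u : ℕ) (h : dM_84 j z1 z2 u = true) : GdM g H u := by
  unfold dM_84 at h
  rcases brec_true h with h | h
  · rcases brec_true h with h | h
    · exact mRel_good (T := T) hM0 [Lt.di, Lt.a, Lt.b, Lt.ai, Lt.d, Lt.bi] [Lt.bi, Lt.di, Lt.ai, Lt.b, Lt.d, Lt.bi, Lt.a, Lt.d] (pat hy (rf_7 hy) 10 rfl) h
    · rcases brec_true h with h | h
      · exact mRel_good (T := T) hM0 [Lt.ai, Lt.di, Lt.a, Lt.b] [Lt.b, Lt.di, Lt.ai, Lt.di, Lt.a, Lt.b, Lt.d, Lt.a, Lt.d] (pat hy (rb_6 hy) 6 rfl) h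
      · exact mRel_good (T := T) hM0 [Lt.b, Lt.ai, Lt.bi, Lt.bi, Lt.di] [Lt.di, Lt.bi, Lt.a, Lt.bi, Lt.d, Lt.b, Lt.ai, Lt.b] (pat hy (rb_5 hy) 5 rfl) h
  · rcases brec_true h with h | h
    · exact mRel_good (T := T) hM0 [Lt.d, Lt.b, Lt.b, Lt.a, Lt.bi, Lt.di, Lt.bi, Lt.a, Lt.bi, Lt.d] [Lt.bi, Lt.a, Lt.bi] (pat hy (rf_5 hy) 3 rfl) h
    · rcases brec_true h with h | h
      · exact mRel_good (T := T) hM0 [Lt.b, Lt.d, Lt.b, Lt.ai, Lt.bi, Lt.bi, Lt.di, Lt.bi, Lt.a, Lt.bi] [Lt.a, Lt.bi, Lt.d] (pat hy (rb_5 hy) 3 rfl) h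
      · exact mRel_good (T := T) hM0 [Lt.b, Lt.di, Lt.a, Lt.b, Lt.ai] [Lt.di, Lt.ai, Lt.b, Lt.d, Lt.bi, Lt.a, Lt.d, Lt.b, Lt.di] (pat hy (rf_7 hy) 9 rfl) h
theorem dM_85_s (hy : Hy g H) (j z1 z2 u : ℕ) (h : dM_85 j z1 z2 u = true) : GdM g H u := by
  unfold dM_85 at h
  rcases brec_true h with h | h
  · rcases brec_true h with h | h
    · exact mRel_good (T := T) hM0 [Lt.b, Lt.di, Lt.bi, Lt.a, Lt.d, Lt.b, Lt.di, Lt.a, Lt.b, Lt.ai, Lt.d, Lt.bi, Lt.di] [Lt.a] (pat hy (rf_7 hy) 4 rfl) h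
    · rcases brec_true h with h | h
      · exact mRel_good (T := T) hM0 [Lt.di, Lt.bi, Lt.a, Lt.bi, Lt.di, Lt.b, Lt.ai, Lt.b, Lt.d] [Lt.b, Lt.b, Lt.a, Lt.bi] (pat hy (rb_5 hy) 9 rfl) h
      · exact mRel_good (T := T) hM0 [Lt.a, Lt.bi, Lt.d, Lt.b, Lt.ai, Lt.b, Lt.d] [Lt.b, Lt.d, Lt.b, Lt.ai, Lt.bi, Lt.bi] (pat hy (rf_5 hy) 10 rfl) h
  · rcases brec_true h with h | h
    · rcases brec_true h with h | h
      · exact mRel_good (T := T) hM0 [Lt.ai, Lt.b] [Lt.di, Lt.ai, Lt.ai, Lt.ai, Lt.bi, Lt.d, Lt.ai, Lt.ai] (pat hy (rf_4 hy) 1 rfl) h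
      · exact mRel_good (T := T) hM0 [Lt.d, Lt.ai] [Lt.b, Lt.a, Lt.a, Lt.a, Lt.d, Lt.ai, Lt.b, Lt.a] (pat hy (rb_4 hy) 4 rfl) h
    · rcases brec_true h with h | h
      · exact mRel_good (T := T) hM0 [Lt.a, Lt.d, Lt.b, Lt.di, Lt.a, Lt.b, Lt.ai, Lt.d, Lt.bi] [Lt.b, Lt.d, Lt.bi, Lt.a, Lt.d] (pat hy (rf_7 hy) 7 rfl) h
      · exact mRel_good (T := T) hM0 [Lt.di, Lt.bi, Lt.ai, Lt.d, Lt.a, Lt.d, Lt.bi, Lt.ai, Lt.di, Lt.a, Lt.b, Lt.di, Lt.ai] [] (pat hy (rb_6 hy) 12 rfl) h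
theorem dM_86_s (hy : Hy g H) (j z1 z2 u : ℕ) (h : dM_86 j z1 z2 u = true) : GdM g H u := by
  unfold dM_86 at h
  rcases brec_true h with h | h
  · exact dM_84_s hy j z1 z2 u h
  · exact dM_85_s hy j z1 z2 u h
theorem dM_87_s (hy : Hy g H) (j z1 z2 u : ℕ) (h : dM_87 j z1 z2 u = true) : GdM g H u := by
  unfold dM_87 at h
  rcases brec_true h with h | h
  · exact dM_83_s hy j z1 z2 u h
  · exact dM_86_s hy j z1 z2 u h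
theorem dM_88_s (hy : Hy g H) (j z1 z2 u : ℕ) (h : dM_88 j z1 z2 u = true) : GdM g H u := by
  unfold dM_88 at h
  rcases brec_true h with h | h
  · rcases brec_true h with h | h
    · exact mRel_good (T := T) hM0 [Lt.a, Lt.a, Lt.di, Lt.b, Lt.a, Lt.a, Lt.a, Lt.d, Lt.ai] [Lt.bi] (pat hy (rf_4 hy) 3 rfl) h
    · rcases brec_true h with h | h
      · exact mRel_good (T := T) hM0 [Lt.a, Lt.b] [Lt.d, Lt.a, Lt.b, Lt.di, Lt.ai, Lt.di, Lt.a, Lt.b, Lt.d, Lt.a, Lt.d] (pat hy (rb_6 hy) 8 rfl) h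
      · exact mRel_good (T := T) hM0 [Lt.ai, Lt.d, Lt.a] [Lt.b, Lt.d, Lt.a, Lt.d, Lt.bi, Lt.ai, Lt.d, Lt.a, Lt.b, Lt.di] (pat hy (rb_6 hy) 1 rfl) h
  · rcases brec_true h with h | h
    · exact mRel_good (T := T) hM0 [Lt.a, Lt.bi, Lt.di, Lt.b, Lt.ai, Lt.b] [Lt.b, Lt.d, Lt.b, Lt.b, Lt.a, Lt.bi, Lt.di] (pat hy (rb_5 hy) 11 rfl) h
    · rcases brec_true h with h | h
      · exact mRel_good (T := T) hM0 [Lt.d, Lt.b, Lt.b, Lt.a, Lt.bi, Lt.di] [Lt.bi, Lt.a, Lt.bi, Lt.di, Lt.b, Lt.ai, Lt.b] (pat hy (rf_5 hy) 3 rfl) h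
      · exact mRel_good (T := T) hM0 [Lt.d, Lt.a, Lt.d, Lt.bi, Lt.ai, Lt.d, Lt.a, Lt.b, Lt.di] [Lt.bi, Lt.ai, Lt.d, Lt.a] (pat hy (rf_6 hy) 0 rfl) h
theorem dM_89_s (hy : Hy g H) (j z1 z2 u : ℕ) (h : dM_89 j z1 z2 u = true) : GdM g H u := by
  unfold dM_89 at h
  rcases brec_true h with h | h
  · rcases brec_true h with h | h
    · exact mRel_good (T := T) hM0 [Lt.di, Lt.bi, Lt.a, Lt.bi, Lt.di, Lt.b] [Lt.b, Lt.b, Lt.a, Lt.bi, Lt.di, Lt.bi, Lt.a] (pat hy (rb_5 hy) 9 rfl) h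
    · rcases brec_true h with h | h
      · exact mRel_good (T := T) hM0 [Lt.b, Lt.ai] [Lt.a, Lt.a, Lt.b, Lt.ai, Lt.b, Lt.ai, Lt.bi] (pat hy (rb_3 hy) 0 rfl) h
      · exact mRel_good (T := T) hM0 [Lt.ai, Lt.b, Lt.d, Lt.b, Lt.a, Lt.bi, Lt.d, Lt.bi, Lt.di] [Lt.bi, Lt.ai, Lt.d, Lt.b, Lt.a, Lt.bi] (pat hy (rf_8 hy) 13 rfl) h
  · rcases brec_true h with h | h
    · rcases brec_true h with h | h
      · exact mRel_good (T := T) hM0 [Lt.bi, Lt.d, Lt.ai] [Lt.a, Lt.a, Lt.a, Lt.d, Lt.ai, Lt.b, Lt.a] (pat hy (rb_4 hy) 3 rfl) h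
      · exact mRel_good (T := T) hM0 [Lt.di, Lt.ai, Lt.di, Lt.a, Lt.b, Lt.d, Lt.a, Lt.d] [Lt.bi, Lt.ai, Lt.di, Lt.a, Lt.b] (pat hy (rf_6 hy) 8 rfl) h
    · rcases brec_true h with h | h
      · exact mRel_good (T := T) hM0 [Lt.b, Lt.a, Lt.bi, Lt.di, Lt.bi, Lt.a, Lt.bi, Lt.d, Lt.b, Lt.ai, Lt.b] [Lt.bi, Lt.di] (pat hy (rf_5 hy) 5 rfl) h
      · exact mRel_good (T := T) hM0 [Lt.bi, Lt.bi, Lt.di, Lt.bi, Lt.a, Lt.bi, Lt.di, Lt.b, Lt.ai] [Lt.a, Lt.bi, Lt.di, Lt.bi] (pat hy (rb_5 hy) 7 rfl) h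
theorem dM_90_s (hy : Hy g H) (j z1 z2 u : ℕ) (h : dM_90 j z1 z2 u = true) : GdM g H u := by
  unfold dM_90 at h
  rcases brec_true h with h | h
  · exact dM_88_s hy j z1 z2 u h
  · exact dM_89_s hy j z1 z2 u h
theorem dM_91_s (hy : Hy g H) (j z1 z2 u : ℕ) (h : dM_91 j z1 z2 u = true) : GdM g H u := by
  unfold dM_91 at h
  rcases brec_true h with h | h
  · rcases brec_true h with h | h
    · exact mRel_good (T := T) hM0 [Lt.di, Lt.b, Lt.ai, Lt.b, Lt.d, Lt.b] [Lt.b, Lt.ai, Lt.b, Lt.d, Lt.b, Lt.b, Lt.a] (pat hy (rb_5 hy) 0 rfl) h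
    · rcases brec_true h with h | h
      · exact mRel_good (T := T) hM0 [Lt.di, Lt.a, Lt.b] [Lt.a, Lt.d, Lt.bi, Lt.ai, Lt.di, Lt.a, Lt.b, Lt.di, Lt.ai, Lt.di] (pat hy (rf_6 hy) 10 rfl) h
      · exact mRel_good (T := T) hM0 [Lt.bi, Lt.ai, Lt.d, Lt.a, Lt.b, Lt.di, Lt.ai, Lt.di, Lt.a] [Lt.di, Lt.ai, Lt.di, Lt.bi] (pat hy (rf_6 hy) 3 rfl) h
  · rcases brec_true h with h | h
    · exact mRel_good (T := T) hM0 [Lt.ai, Lt.ai, Lt.b, Lt.ai] [Lt.b, Lt.ai, Lt.b, Lt.ai, Lt.bi] (pat hy (rb_3 hy) 7 rfl) h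
    · rcases brec_true h with h | h
      · exact mRel_good (T := T) hM0 [Lt.d, Lt.a, Lt.d, Lt.bi, Lt.ai, Lt.di, Lt.a, Lt.b, Lt.di, Lt.ai, Lt.di, Lt.bi] [Lt.a] (pat hy (rb_6 hy) 2 rfl) h
      · exact mRel_good (T := T) hM0 [Lt.d, Lt.bi, Lt.ai] [Lt.ai, Lt.di, Lt.bi, Lt.ai, Lt.d, Lt.a, Lt.d, Lt.bi, Lt.ai, Lt.di] (pat hy (rf_6 hy) 2 rfl) h
theorem dM_92_s (hy : Hy g H) (j z1 z2 u : ℕ) (h : dM_92 j z1 z2 u = true) : GdM g H u := by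
  unfold dM_92 at h
  rcases brec_true h with h | h
  · rcases brec_true h with h | h
    · exact mRel_good (T := T) hM0 [Lt.bi, Lt.a, Lt.bi, Lt.di, Lt.b] [Lt.d, Lt.b, Lt.b, Lt.a, Lt.bi, Lt.di, Lt.bi, Lt.a] (pat hy (rb_5 hy) 10 rfl) h
    · rcases brec_true h with h | h
      · exact mRel_good (T := T) hM0 [Lt.d, Lt.bi, Lt.ai, Lt.d] [Lt.ai, Lt.di, Lt.bi, Lt.ai, Lt.d, Lt.a, Lt.d, Lt.bi, Lt.ai] (pat hy (rf_6 hy) 2 rfl) h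
      · exact mRel_good (T := T) hM0 [Lt.b] [Lt.di, Lt.ai, Lt.b, Lt.di, Lt.bi, Lt.a, Lt.d, Lt.b, Lt.di, Lt.a, Lt.b, Lt.ai, Lt.d] (pat hy (rb_7 hy) 12 rfl) h
  · rcases brec_true h with h | h
    · rcases brec_true h with h | h
      · exact mRel_good (T := T) hM0 [Lt.bi, Lt.di] [Lt.di, Lt.a, Lt.bi, Lt.ai, Lt.d, Lt.bi, Lt.di, Lt.ai, Lt.b, Lt.d, Lt.bi, Lt.a] (pat hy (rf_7 hy) 1 rfl) h
      · exact mRel_good (T := T) hM0 [Lt.ai, Lt.ai, Lt.bi, Lt.a, Lt.di, Lt.ai, Lt.ai, Lt.ai, Lt.bi, Lt.d] [] (pat hy (rb_4 hy) 5 rfl) h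
    · rcases brec_true h with h | h
      · exact mRel_good (T := T) hM0 [Lt.a, Lt.b, Lt.d, Lt.a, Lt.d, Lt.bi, Lt.ai, Lt.d, Lt.a, Lt.b, Lt.di] [Lt.d, Lt.a] (pat hy (rf_6 hy) 11 rfl) h
      · exact mRel_good (T := T) hM0 [Lt.di, Lt.ai, Lt.di, Lt.a, Lt.b, Lt.d, Lt.a, Lt.d, Lt.bi] [Lt.bi, Lt.ai, Lt.di, Lt.a] (pat hy (rf_6 hy) 8 rfl) h
theorem dM_93_s (hy : Hy g H) (j z1 z2 u : ℕ) (h : dM_93 j z1 z2 u = true) : GdM g H u := by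
  unfold dM_93 at h
  rcases brec_true h with h | h
  · exact dM_91_s hy j z1 z2 u h
  · exact dM_92_s hy j z1 z2 u h
theorem dM_94_s (hy : Hy g H) (j z1 z2 u : ℕ) (h : dM_94 j z1 z2 u = true) : GdM g H u := by
  unfold dM_94 at h
  rcases brec_true h with h | h
  · exact dM_90_s hy j z1 z2 u h
  · exact dM_93_s hy j z1 z2 u h
theorem dM_95_s (hy : Hy g H) (j z1 z2 u : ℕ) (h : dM_95 j z1 z2 u = true) : GdM g H u := by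
  unfold dM_95 at h
  rcases brec_true h with h | h
  · exact dM_87_s hy j z1 z2 u h
  · exact dM_94_s hy j z1 z2 u h
theorem dM_96_s (hy : Hy g H) (j z1 z2 u : ℕ) (h : dM_96 j z1 z2 u = true) : GdM g H u := by
  unfold dM_96 at h
  rcases brec_true h with h | h
  · exact dM_82_s hy j z1 z2 u h
  · exact dM_95_s hy j z1 z2 u h
theorem dM_97_s (hy : Hy g H) (j z1 z2 u : ℕ) (h : dM_97 j z1 z2 u = true) : GdM g H u := by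
  unfold dM_97 at h
  rcases brec_true h with h | h
  · rcases brec_true h with h | h
    · rcases brec_true h with h | h
      · exact mRel_good (T := T) hM0 [Lt.d, Lt.a, Lt.b, Lt.di, Lt.ai, Lt.di, Lt.a, Lt.b, Lt.d] [Lt.a, Lt.b, Lt.di, Lt.ai] (pat hy (rf_6 hy) 5 rfl) h
      · rcases brec_true h with h | h
        · exact mRel_good (T := T) hM0 [Lt.b, Lt.d, Lt.b, Lt.ai, Lt.bi, Lt.bi, Lt.di, Lt.bi, Lt.a, Lt.bi, Lt.di] [Lt.a, Lt.bi] (pat hy (rb_5 hy) 3 rfl) h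
        · exact mRel_good (T := T) hM0 [Lt.di, Lt.ai, Lt.ai, Lt.ai, Lt.bi, Lt.d, Lt.ai, Lt.ai] [Lt.ai, Lt.b] (pat hy (rb_4 hy) 9 rfl) h
    · rcases brec_true h with h | h
      · exact mRel_good (T := T) hM0 [Lt.d, Lt.bi, Lt.ai, Lt.di, Lt.a] [Lt.ai, Lt.di, Lt.a, Lt.b, Lt.d, Lt.a, Lt.d, Lt.bi] (pat hy (rb_6 hy) 4 rfl) h
      · rcases brec_true h with h | h
        · exact mRel_good (T := T) hM0 [Lt.ai, Lt.b, Lt.d, Lt.b] [Lt.bi, Lt.d, Lt.b, Lt.ai, Lt.b, Lt.d, Lt.b, Lt.b, Lt.a] (pat hy (rb_5 hy) 2 rfl) h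
        · exact mRel_good (T := T) hM0 [Lt.ai, Lt.b, Lt.d] [Lt.bi, Lt.d, Lt.b, Lt.ai, Lt.b, Lt.d, Lt.b, Lt.b, Lt.a, Lt.bi] (pat hy (rb_5 hy) 2 rfl) h
  · rcases brec_true h with h | h
    · rcases brec_true h with h | h
      · exact mRel_good (T := T) hM0 [Lt.a, Lt.bi, Lt.d, Lt.b, Lt.ai, Lt.b, Lt.d, Lt.b, Lt.b, Lt.a, Lt.bi] [Lt.b, Lt.d] (pat hy (rf_5 hy) 10 rfl) h
      · rcases brec_true h with h | h
        · exact mRel_good (T := T) hM0 [Lt.bi, Lt.ai, Lt.d, Lt.a, Lt.b, Lt.di, Lt.ai] [Lt.di, Lt.ai, Lt.di, Lt.bi, Lt.ai, Lt.d] (pat hy (rf_6 hy) 3 rfl) h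
        · exact mRel_good (T := T) hM0 [Lt.d, Lt.a, Lt.d, Lt.bi, Lt.ai, Lt.d, Lt.a, Lt.b] [Lt.bi, Lt.ai, Lt.d, Lt.a, Lt.d] (pat hy (rf_6 hy) 0 rfl) h
    · rcases brec_true h with h | h
      · exact mRel_good (T := T) hM0 [Lt.a, Lt.b, Lt.d, Lt.a, Lt.d, Lt.bi, Lt.ai, Lt.d, Lt.a, Lt.b, Lt.di, Lt.ai] [Lt.d] (pat hy (rf_6 hy) 11 rfl) h
      · rcases brec_true h with h | h
        · exact mRel_good (T := T) hM0 [Lt.b, Lt.ai] [Lt.ai, Lt.ai, Lt.b, Lt.ai, Lt.b, Lt.a, Lt.bi] (pat hy (rf_3 hy) 2 rfl) h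
        · exact mRel_good (T := T) hM0 [Lt.bi, Lt.ai, Lt.d, Lt.a, Lt.b] [Lt.di, Lt.ai, Lt.di, Lt.bi, Lt.ai, Lt.d, Lt.a, Lt.d] (pat hy (rf_6 hy) 3 rfl) h
theorem dM_98_s (hy : Hy g H) (j z1 z2 u : ℕ) (h : dM_98 j z1 z2 u = true) : GdM g H u := by
  unfold dM_98 at h
  rcases brec_true h with h | h
  · rcases brec_true h with h | h
    · exact mRel_good (T := T) hM0 [Lt.ai, Lt.d, Lt.a, Lt.d, Lt.bi, Lt.ai, Lt.di, Lt.a, Lt.b] [Lt.b, Lt.d, Lt.a, Lt.d] (pat hy (rb_6 hy) 1 rfl) h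
    · rcases brec_true h with h | h
      · exact mRel_good (T := T) hM0 [Lt.a, Lt.b, Lt.di, Lt.ai, Lt.di, Lt.a] [Lt.di, Lt.a, Lt.b, Lt.di, Lt.ai, Lt.di, Lt.bi] (pat hy (rf_6 hy) 6 rfl) h
      · exact mRel_good (T := T) hM0 [Lt.ai, Lt.d] [Lt.bi, Lt.ai, Lt.d, Lt.bi, Lt.di, Lt.ai, Lt.b, Lt.d, Lt.bi, Lt.a, Lt.d, Lt.b] (pat hy (rf_7 hy) 13 rfl) h
  · rcases brec_true h with h | h
    · exact mRel_good (T := T) hM0 [Lt.di, Lt.a, Lt.b, Lt.d] [Lt.a, Lt.d, Lt.bi, Lt.ai, Lt.di, Lt.a, Lt.b, Lt.di, Lt.ai] (pat hy (rf_6 hy) 10 rfl) h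
    · rcases brec_true h with h | h
      · exact mRel_good (T := T) hM0 [Lt.bi, Lt.di] [Lt.ai, Lt.bi, Lt.bi, Lt.di, Lt.bi, Lt.a, Lt.bi, Lt.di, Lt.b, Lt.ai, Lt.b] (pat hy (rf_5 hy) 7 rfl) h
      · exact mRel_good (T := T) hM0 [Lt.a, Lt.d, Lt.ai, Lt.b] [Lt.ai, Lt.ai, Lt.bi, Lt.d, Lt.ai, Lt.ai] (pat hy (rf_4 hy) 9 rfl) h
theorem dM_99_s (hy : Hy g H) (j z1 z2 u : ℕ) (h : dM_99 j z1 z2 u = true) : GdM g H u := by
  unfold dM_99 at h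
  rcases brec_true h with h | h
  · rcases brec_true h with h | h
    · exact mRel_good (T := T) hM0 [Lt.bi, Lt.ai] [Lt.d, Lt.a, Lt.d, Lt.bi, Lt.ai, Lt.d, Lt.a, Lt.b, Lt.di, Lt.ai, Lt.di] (pat hy (rb_6 hy) 0 rfl) h
    · rcases brec_true h with h | h
      · exact mRel_good (T := T) hM0 [Lt.b, Lt.ai, Lt.bi, Lt.bi, Lt.di, Lt.bi, Lt.a, Lt.bi, Lt.di, Lt.b] [Lt.di, Lt.bi, Lt.a] (pat hy (rb_5 hy) 5 rfl) h
      · exact mRel_good (T := T) hM0 [Lt.bi, Lt.a, Lt.a, Lt.b, Lt.ai, Lt.b, Lt.ai] [Lt.ai, Lt.b] (pat hy (rf_3 hy) 8 rfl) h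
  · rcases brec_true h with h | h
    · rcases brec_true h with h | h
      · exact mRel_good (T := T) hM0 [Lt.a] [Lt.ai, Lt.bi, Lt.a, Lt.di, Lt.ai, Lt.ai, Lt.ai, Lt.bi, Lt.d] (pat hy (rf_4 hy) 4 rfl) h
      · exact mRel_good (T := T) hM0 [Lt.di, Lt.a, Lt.b, Lt.di] [Lt.a, Lt.b, Lt.di, Lt.ai, Lt.di, Lt.a, Lt.b, Lt.d, Lt.a] (pat hy (rb_6 hy) 7 rfl) h
    · rcases brec_true h with h | h
      · exact mRel_good (T := T) hM0 [Lt.a, Lt.bi, Lt.di, Lt.bi] [Lt.bi, Lt.bi, Lt.di, Lt.bi, Lt.a, Lt.bi, Lt.di, Lt.b, Lt.ai] (pat hy (rf_5 hy) 6 rfl) h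
      · exact mRel_good (T := T) hM0 [Lt.a, Lt.a, Lt.a, Lt.d, Lt.ai, Lt.b] [Lt.bi, Lt.d, Lt.ai, Lt.ai] (pat hy (rf_4 hy) 7 rfl) h
theorem dM_100_s (hy : Hy g H) (j z1 z2 u : ℕ) (h : dM_100 j z1 z2 u = true) : GdM g H u := by
  unfold dM_100 at h
  rcases brec_true h with h | h
  · exact dM_98_s hy j z1 z2 u h
  · exact dM_99_s hy j z1 z2 u h
theorem dM_101_s (hy : Hy g H) (j z1 z2 u : ℕ) (h : dM_101 j z1 z2 u = true) : GdM g H u := by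
  unfold dM_101 at h
  rcases brec_true h with h | h
  · exact dM_97_s hy j z1 z2 u h
  · exact dM_100_s hy j z1 z2 u h
theorem dM_102_s (hy : Hy g H) (j z1 z2 u : ℕ) (h : dM_102 j z1 z2 u = true) : GdM g H u := by
  unfold dM_102 at h
  rcases brec_true h with h | h
  · rcases brec_true h with h | h
    · rcases brec_true h with h | h
      · exact mRel_good (T := T) hM0 [Lt.a, Lt.b] [Lt.d, Lt.a, Lt.d, Lt.bi, Lt.ai, Lt.di, Lt.a, Lt.b, Lt.di, Lt.ai, Lt.di] (pat hy (rf_6 hy) 11 rfl) h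
      · rcases brec_true h with h | h
        · exact mRel_good (T := T) hM0 [Lt.b, Lt.a, Lt.bi, Lt.di, Lt.bi, Lt.a] [Lt.bi, Lt.di, Lt.bi, Lt.a, Lt.bi, Lt.di, Lt.b] (pat hy (rf_5 hy) 5 rfl) h
        · exact mRel_good (T := T) hM0 [Lt.bi, Lt.ai, Lt.d, Lt.a, Lt.b, Lt.di, Lt.ai, Lt.di] [Lt.di, Lt.ai, Lt.di, Lt.bi, Lt.ai] (pat hy (rf_6 hy) 3 rfl) h
    · rcases brec_true h with h | h
      · exact mRel_good (T := T) hM0 [Lt.b, Lt.di, Lt.ai, Lt.di, Lt.a, Lt.b] [Lt.ai, Lt.di, Lt.a, Lt.b, Lt.di, Lt.ai, Lt.di] (pat hy (rf_6 hy) 7 rfl) h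
      · rcases brec_true h with h | h
        · exact mRel_good (T := T) hM0 [Lt.d, Lt.bi, Lt.ai, Lt.d, Lt.a] [Lt.ai, Lt.di, Lt.bi, Lt.ai, Lt.d, Lt.a, Lt.d, Lt.bi] (pat hy (rf_6 hy) 2 rfl) h
        · exact mRel_good (T := T) hM0 [Lt.d, Lt.a, Lt.b, Lt.di, Lt.ai, Lt.di, Lt.a, Lt.b] [Lt.a, Lt.b, Lt.di, Lt.ai, Lt.di] (pat hy (rf_6 hy) 5 rfl) h
  · rcases brec_true h with h | h
    · rcases brec_true h with h | h
      · exact mRel_good (T := T) hM0 [Lt.di, Lt.b] [Lt.ai, Lt.ai, Lt.bi, Lt.a, Lt.di, Lt.ai, Lt.ai, Lt.ai] (pat hy (rf_4 hy) 5 rfl) h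
      · rcases brec_true h with h | h
        · exact mRel_good (T := T) hM0 [Lt.b, Lt.ai, Lt.b, Lt.ai, Lt.bi, Lt.a, Lt.bi, Lt.a, Lt.a] [] (pat hy (rf_3 hy) 2 rfl) h
        · exact mRel_good (T := T) hM0 [Lt.bi, Lt.ai, Lt.ai, Lt.b] [Lt.ai, Lt.b, Lt.ai, Lt.bi, Lt.a] (pat hy (rb_3 hy) 6 rfl) h
    · rcases brec_true h with h | h
      · exact mRel_good (T := T) hM0 [Lt.a, Lt.d, Lt.ai, Lt.b, Lt.a] [Lt.ai, Lt.ai, Lt.bi, Lt.d, Lt.ai] (pat hy (rf_4 hy) 9 rfl) h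
      · rcases brec_true h with h | h
        · exact mRel_good (T := T) hM0 [Lt.bi, Lt.a, Lt.bi, Lt.di, Lt.b, Lt.ai, Lt.b, Lt.d, Lt.b, Lt.ai, Lt.bi, Lt.bi, Lt.di] [] (pat hy (rb_5 hy) 10 rfl) h
        · exact mRel_good (T := T) hM0 [Lt.d, Lt.a] [Lt.a, Lt.b, Lt.di, Lt.ai, Lt.di, Lt.bi, Lt.ai, Lt.d, Lt.a, Lt.d, Lt.bi] (pat hy (rf_6 hy) 5 rfl) h
theorem dM_103_s (hy : Hy g H) (j z1 z2 u : ℕ) (h : dM_103 j z1 z2 u = true) : GdM g H u := by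
  unfold dM_103 at h
  rcases brec_true h with h | h
  · rcases brec_true h with h | h
    · exact mRel_good (T := T) hM0 [Lt.ai, Lt.d, Lt.a, Lt.d, Lt.bi, Lt.ai, Lt.di, Lt.a] [Lt.b, Lt.d, Lt.a, Lt.d, Lt.bi] (pat hy (rb_6 hy) 1 rfl) h
    · rcases brec_true h with h | h
      · exact mRel_good (T := T) hM0 [Lt.a, Lt.b, Lt.ai, Lt.d, Lt.bi, Lt.di, Lt.ai, Lt.b, Lt.di, Lt.bi, Lt.a] [Lt.d, Lt.bi, Lt.di] (pat hy (rf_7 hy) 11 rfl) h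
      · exact mRel_good (T := T) hM0 [Lt.bi, Lt.di, Lt.bi, Lt.a, Lt.bi] [Lt.ai, Lt.bi, Lt.bi, Lt.di, Lt.bi, Lt.a, Lt.bi, Lt.di] (pat hy (rf_5 hy) 7 rfl) h
  · rcases brec_true h with h | h
    · exact mRel_good (T := T) hM0 [Lt.di, Lt.ai, Lt.di] [Lt.bi, Lt.ai, Lt.di, Lt.a, Lt.b, Lt.di, Lt.ai, Lt.di, Lt.bi, Lt.ai] (pat hy (rf_6 hy) 8 rfl) h
    · rcases brec_true h with h | h
      · exact mRel_good (T := T) hM0 [Lt.d, Lt.a, Lt.d, Lt.bi] [Lt.a, Lt.b, Lt.d, Lt.a, Lt.d, Lt.bi, Lt.ai, Lt.d, Lt.a] (pat hy (rb_6 hy) 2 rfl) h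
      · exact mRel_good (T := T) hM0 [Lt.d, Lt.b, Lt.ai, Lt.bi, Lt.bi, Lt.di, Lt.bi, Lt.a, Lt.bi] [Lt.bi, Lt.a, Lt.bi, Lt.d] (pat hy (rb_5 hy) 4 rfl) h
theorem dM_104_s (hy : Hy g H) (j z1 z2 u : ℕ) (h : dM_104 j z1 z2 u = true) : GdM g H u := by
  unfold dM_104 at h
  rcases brec_true h with h | h
  · rcases brec_true h with h | h
    · exact mRel_good (T := T) hM0 [Lt.ai, Lt.di] [Lt.d, Lt.bi, Lt.ai, Lt.d, Lt.a, Lt.b, Lt.di, Lt.ai, Lt.di, Lt.a, Lt.b] (pat hy (rb_6 hy) 11 rfl) h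
    · rcases brec_true h with h | h
      · exact mRel_good (T := T) hM0 [Lt.ai, Lt.di, Lt.a, Lt.b, Lt.d, Lt.a, Lt.d, Lt.bi] [Lt.d, Lt.bi, Lt.ai, Lt.di, Lt.a] (pat hy (rf_6 hy) 9 rfl) h
      · exact mRel_good (T := T) hM0 [Lt.ai, Lt.b] [Lt.bi, Lt.di, Lt.b, Lt.ai, Lt.b, Lt.d, Lt.b, Lt.ai, Lt.bi, Lt.bi, Lt.di] (pat hy (rf_5 hy) 1 rfl) h
  · rcases brec_true h with h | h
    · rcases brec_true h with h | h
      · exact mRel_good (T := T) hM0 [Lt.b, Lt.ai, Lt.bi, Lt.bi, Lt.di, Lt.bi, Lt.a, Lt.bi, Lt.di, Lt.b, Lt.ai, Lt.b, Lt.d] [] (pat hy (rb_5 hy) 5 rfl) h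
      · exact mRel_good (T := T) hM0 [Lt.bi, Lt.a, Lt.di, Lt.ai, Lt.ai, Lt.ai, Lt.bi, Lt.d, Lt.ai] [Lt.a] (pat hy (rb_4 hy) 7 rfl) h
    · rcases brec_true h with h | h
      · exact mRel_good (T := T) hM0 [Lt.d, Lt.bi, Lt.ai, Lt.di, Lt.a, Lt.b] [Lt.ai, Lt.di, Lt.a, Lt.b, Lt.d, Lt.a, Lt.d] (pat hy (rb_6 hy) 4 rfl) h
      · exact mRel_good (T := T) hM0 [Lt.di, Lt.b, Lt.ai, Lt.b, Lt.d] [Lt.b, Lt.ai, Lt.b, Lt.d, Lt.b, Lt.b, Lt.a, Lt.bi] (pat hy (rb_5 hy) 0 rfl) h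
theorem dM_105_s (hy : Hy g H) (j z1 z2 u : ℕ) (h : dM_105 j z1 z2 u = true) : GdM g H u := by
  unfold dM_105 at h
  rcases brec_true h with h | h
  · exact dM_103_s hy j z1 z2 u h
  · exact dM_104_s hy j z1 z2 u h
theorem dM_106_s (hy : Hy g H) (j z1 z2 u : ℕ) (h : dM_106 j z1 z2 u = true) : GdM g H u := by
  unfold dM_106 at h
  rcases brec_true h with h | h
  · exact dM_102_s hy j z1 z2 u h
  · exact dM_105_s hy j z1 z2 u h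
theorem dM_107_s (hy : Hy g H) (j z1 z2 u : ℕ) (h : dM_107 j z1 z2 u = true) : GdM g H u := by
  unfold dM_107 at h
  rcases brec_true h with h | h
  · exact dM_101_s hy j z1 z2 u h
  · exact dM_106_s hy j z1 z2 u h
theorem dM_108_s (hy : Hy g H) (j z1 z2 u : ℕ) (h : dM_108 j z1 z2 u = true) : GdM g H u := by
  unfold dM_108 at h
  rcases brec_true h with h | h
  · rcases brec_true h with h | h
    · rcases brec_true h with h | h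
      · exact mRel_good (T := T) hM0 [Lt.a, Lt.d, Lt.bi, Lt.ai, Lt.d, Lt.a, Lt.b, Lt.di, Lt.ai, Lt.di, Lt.a, Lt.b, Lt.d] [] (pat hy (rf_6 hy) 1 rfl) h
      · rcases brec_true h with h | h
        · exact mRel_good (T := T) hM0 [Lt.ai, Lt.b] [Lt.a, Lt.b, Lt.ai, Lt.b, Lt.ai, Lt.bi, Lt.a] (pat hy (rb_3 hy) 8 rfl) h
        · exact mRel_good (T := T) hM0 [Lt.bi, Lt.d, Lt.ai, Lt.ai, Lt.bi, Lt.a, Lt.di, Lt.ai, Lt.ai] [Lt.a] (pat hy (rb_4 hy) 3 rfl) h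
    · rcases brec_true h with h | h
      · exact mRel_good (T := T) hM0 [Lt.bi, Lt.ai, Lt.di] [Lt.di, Lt.ai, Lt.di, Lt.a, Lt.b, Lt.d, Lt.a, Lt.d, Lt.bi, Lt.ai] (pat hy (rb_6 hy) 5 rfl) h
      · rcases brec_true h with h | h
        · exact mRel_good (T := T) hM0 [Lt.ai, Lt.d, Lt.a, Lt.d, Lt.bi, Lt.ai, Lt.di, Lt.a, Lt.b, Lt.di, Lt.ai, Lt.di] [Lt.b] (pat hy (rb_6 hy) 1 rfl) h
        · exact mRel_good (T := T) hM0 [Lt.di, Lt.bi, Lt.ai, Lt.d] [Lt.a, Lt.d, Lt.bi, Lt.ai, Lt.d, Lt.a, Lt.b, Lt.di, Lt.ai] (pat hy (rb_6 hy) 12 rfl) h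
  · rcases brec_true h with h | h
    · rcases brec_true h with h | h
      · exact mRel_good (T := T) hM0 [Lt.a, Lt.a, Lt.d, Lt.ai, Lt.b, Lt.a] [Lt.ai, Lt.bi, Lt.d, Lt.ai] (pat hy (rf_4 hy) 8 rfl) h
      · rcases brec_true h with h | h
        · exact mRel_good (T := T) hM0 [Lt.a, Lt.d, Lt.bi, Lt.ai, Lt.d] [Lt.di, Lt.bi, Lt.ai, Lt.d, Lt.a, Lt.d, Lt.bi, Lt.ai] (pat hy (rf_6 hy) 1 rfl) h
        · exact mRel_good (T := T) hM0 [Lt.b, Lt.di, Lt.ai, Lt.di, Lt.a, Lt.b, Lt.d] [Lt.ai, Lt.di, Lt.a, Lt.b, Lt.di, Lt.ai] (pat hy (rf_6 hy) 7 rfl) h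
    · rcases brec_true h with h | h
      · exact mRel_good (T := T) hM0 [Lt.di, Lt.bi] [Lt.a, Lt.d, Lt.bi, Lt.ai, Lt.d, Lt.a, Lt.b, Lt.di, Lt.ai, Lt.di, Lt.a] (pat hy (rb_6 hy) 12 rfl) h
      · rcases brec_true h with h | h
        · exact mRel_good (T := T) hM0 [Lt.ai, Lt.di, Lt.a, Lt.b, Lt.d, Lt.a, Lt.d, Lt.bi, Lt.ai] [Lt.d, Lt.bi, Lt.ai, Lt.di] (pat hy (rf_6 hy) 9 rfl) h
        · exact mRel_good (T := T) hM0 [Lt.di, Lt.a, Lt.b, Lt.ai, Lt.d, Lt.bi, Lt.di, Lt.ai, Lt.b] [Lt.bi, Lt.di, Lt.ai, Lt.b, Lt.d] (pat hy (rf_7 hy) 10 rfl) h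
theorem dM_109_s (hy : Hy g H) (j z1 z2 u : ℕ) (h : dM_109 j z1 z2 u = true) : GdM g H u := by
  unfold dM_109 at h
  rcases brec_true h with h | h
  · rcases brec_true h with h | h
    · exact mRel_good (T := T) hM0 [Lt.ai, Lt.b, Lt.a] [Lt.di, Lt.ai, Lt.ai, Lt.ai, Lt.bi, Lt.d, Lt.ai] (pat hy (rf_4 hy) 1 rfl) h
    · rcases brec_true h with h | h
      · exact mRel_good (T := T) hM0 [Lt.ai, Lt.ai, Lt.bi, Lt.a, Lt.di, Lt.ai, Lt.ai, Lt.ai, Lt.bi] [Lt.di] (pat hy (rb_4 hy) 5 rfl) h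
      · exact mRel_good (T := T) hM0 [Lt.b, Lt.ai, Lt.bi, Lt.bi, Lt.di, Lt.bi, Lt.a, Lt.bi, Lt.di] [Lt.di, Lt.bi, Lt.a, Lt.bi] (pat hy (rb_5 hy) 5 rfl) h
  · rcases brec_true h with h | h
    · exact mRel_good (T := T) hM0 [Lt.d, Lt.a, Lt.d, Lt.bi, Lt.ai, Lt.d] [Lt.bi, Lt.ai, Lt.d, Lt.a, Lt.d, Lt.bi, Lt.ai] (pat hy (rf_6 hy) 0 rfl) h
    · rcases brec_true h with h | h
      · exact mRel_good (T := T) hM0 [Lt.ai, Lt.bi, Lt.bi, Lt.di, Lt.bi, Lt.a, Lt.bi] [Lt.bi, Lt.di, Lt.bi, Lt.a, Lt.bi, Lt.d] (pat hy (rb_5 hy) 6 rfl) h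
      · exact mRel_good (T := T) hM0 [Lt.bi, Lt.a, Lt.bi, Lt.di, Lt.b, Lt.ai, Lt.b, Lt.d, Lt.b, Lt.ai, Lt.bi, Lt.bi] [Lt.d] (pat hy (rb_5 hy) 10 rfl) h
theorem dM_110_s (hy : Hy g H) (j z1 z2 u : ℕ) (h : dM_110 j z1 z2 u = true) : GdM g H u := by
  unfold dM_110 at h
  rcases brec_true h with h | h
  · rcases brec_true h with h | h
    · exact mRel_good (T := T) hM0 [Lt.ai, Lt.b, Lt.d, Lt.b, Lt.b, Lt.a] [Lt.bi, Lt.di, Lt.b, Lt.ai, Lt.b, Lt.d, Lt.b] (pat hy (rf_5 hy) 1 rfl) h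
    · rcases brec_true h with h | h
      · exact mRel_good (T := T) hM0 [Lt.d, Lt.b, Lt.b, Lt.a, Lt.bi, Lt.di, Lt.bi, Lt.a, Lt.bi] [Lt.bi, Lt.a, Lt.bi, Lt.di] (pat hy (rf_5 hy) 3 rfl) h
      · exact mRel_good (T := T) hM0 [Lt.di, Lt.ai, Lt.ai] [Lt.ai, Lt.b, Lt.a, Lt.a, Lt.di, Lt.b, Lt.a] (pat hy (rb_4 hy) 9 rfl) h
  · rcases brec_true h with h | h
    · rcases brec_true h with h | h
      · exact mRel_good (T := T) hM0 [Lt.ai, Lt.ai] [Lt.b, Lt.ai, Lt.b, Lt.ai, Lt.bi, Lt.a, Lt.bi] (pat hy (rb_3 hy) 7 rfl) h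
      · exact mRel_good (T := T) hM0 [Lt.ai, Lt.d, Lt.a, Lt.b, Lt.di, Lt.ai, Lt.di, Lt.a, Lt.b, Lt.d, Lt.a, Lt.d] [Lt.b] (pat hy (rf_6 hy) 4 rfl) h
    · rcases brec_true h with h | h
      · exact mRel_good (T := T) hM0 [Lt.ai, Lt.ai, Lt.bi, Lt.d, Lt.ai] [Lt.a, Lt.d, Lt.ai, Lt.b, Lt.a] (pat hy (rb_4 hy) 1 rfl) h
      · exact mRel_good (T := T) hM0 [Lt.ai, Lt.ai, Lt.ai, Lt.bi, Lt.d, Lt.ai, Lt.ai, Lt.bi, Lt.a, Lt.di] [] (pat hy (rb_4 hy) 0 rfl) h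
theorem dM_111_s (hy : Hy g H) (j z1 z2 u : ℕ) (h : dM_111 j z1 z2 u = true) : GdM g H u := by
  unfold dM_111 at h
  rcases brec_true h with h | h
  · exact dM_109_s hy j z1 z2 u h
  · exact dM_110_s hy j z1 z2 u h
theorem dM_112_s (hy : Hy g H) (j z1 z2 u : ℕ) (h : dM_112 j z1 z2 u = true) : GdM g H u := by
  unfold dM_112 at h
  rcases brec_true h with h | h
  · exact dM_108_s hy j z1 z2 u h
  · exact dM_111_s hy j z1 z2 u h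
theorem dM_113_s (hy : Hy g H) (j z1 z2 u : ℕ) (h : dM_113 j z1 z2 u = true) : GdM g H u := by
  unfold dM_113 at h
  rcases brec_true h with h | h
  · rcases brec_true h with h | h
    · exact mRel_good (T := T) hM0 [Lt.ai, Lt.bi] [Lt.bi, Lt.a, Lt.bi, Lt.ai, Lt.ai, Lt.b, Lt.ai] (pat hy (rf_3 hy) 5 rfl) h
    · rcases brec_true h with h | h
      · exact mRel_good (T := T) hM0 [Lt.a, Lt.bi, Lt.di, Lt.bi, Lt.a, Lt.bi, Lt.d, Lt.b, Lt.ai, Lt.b] [Lt.bi, Lt.bi, Lt.di] (pat hy (rf_5 hy) 6 rfl) h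
      · exact mRel_good (T := T) hM0 [Lt.bi, Lt.a] [Lt.ai, Lt.bi, Lt.a, Lt.bi, Lt.a, Lt.a, Lt.b] (pat hy (rb_3 hy) 4 rfl) h
  · rcases brec_true h with h | h
    · exact mRel_good (T := T) hM0 [Lt.bi, Lt.di, Lt.bi, Lt.a, Lt.bi, Lt.di, Lt.b, Lt.ai, Lt.b] [Lt.b, Lt.a, Lt.bi, Lt.di] (pat hy (rb_5 hy) 8 rfl) h
    · rcases brec_true h with h | h
      · exact mRel_good (T := T) hM0 [Lt.a, Lt.di, Lt.ai, Lt.ai, Lt.ai, Lt.bi, Lt.d, Lt.ai] [Lt.b, Lt.a] (pat hy (rb_4 hy) 8 rfl) h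
      · exact mRel_good (T := T) hM0 [Lt.bi, Lt.a, Lt.bi, Lt.a, Lt.a, Lt.b, Lt.ai, Lt.b, Lt.ai] [] (pat hy (rf_3 hy) 6 rfl) h
theorem dM_114_s (hy : Hy g H) (j z1 z2 u : ℕ) (h : dM_114 j z1 z2 u = true) : GdM g H u := by
  unfold dM_114 at h
  rcases brec_true h with h | h
  · rcases brec_true h with h | h
    · exact mRel_good (T := T) hM0 [Lt.ai, Lt.bi, Lt.bi, Lt.di, Lt.bi, Lt.a, Lt.bi, Lt.di, Lt.b] [Lt.bi, Lt.di, Lt.bi, Lt.a] (pat hy (rb_5 hy) 6 rfl) h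
    · rcases brec_true h with h | h
      · exact mRel_good (T := T) hM0 [Lt.ai, Lt.ai, Lt.ai, Lt.bi, Lt.d, Lt.ai, Lt.ai, Lt.bi] [Lt.d, Lt.ai] (pat hy (rb_4 hy) 0 rfl) h
      · exact mRel_good (T := T) hM0 [Lt.bi, Lt.a, Lt.di, Lt.ai, Lt.ai, Lt.ai, Lt.bi, Lt.d, Lt.ai, Lt.ai] [] (pat hy (rb_4 hy) 7 rfl) h
  · rcases brec_true h with h | h
    · rcases brec_true h with h | h
      · exact mRel_good (T := T) hM0 [Lt.b, Lt.di, Lt.ai, Lt.di, Lt.a, Lt.b, Lt.d, Lt.a] [Lt.ai, Lt.di, Lt.a, Lt.b, Lt.di] (pat hy (rf_6 hy) 7 rfl) h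
      · exact mRel_good (T := T) hM0 [Lt.ai, Lt.b, Lt.ai] [Lt.a, Lt.b, Lt.ai, Lt.b, Lt.ai, Lt.bi] (pat hy (rb_3 hy) 8 rfl) h
    · rcases brec_true h with h | h
      · exact mRel_good (T := T) hM0 [Lt.d, Lt.bi, Lt.ai, Lt.di, Lt.a, Lt.b, Lt.di, Lt.ai, Lt.di] [Lt.ai, Lt.di, Lt.a, Lt.b] (pat hy (rb_6 hy) 4 rfl) h
      · exact mRel_good (T := T) hM0 [Lt.ai, Lt.b, Lt.a, Lt.bi, Lt.a, Lt.bi, Lt.ai, Lt.ai, Lt.b] [] (pat hy (rb_3 hy) 1 rfl) h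
theorem dM_115_s (hy : Hy g H) (j z1 z2 u : ℕ) (h : dM_115 j z1 z2 u = true) : GdM g H u := by
  unfold dM_115 at h
  rcases brec_true h with h | h
  · exact dM_113_s hy j z1 z2 u h
  · exact dM_114_s hy j z1 z2 u h
theorem dM_116_s (hy : Hy g H) (j z1 z2 u : ℕ) (h : dM_116 j z1 z2 u = true) : GdM g H u := by
  unfold dM_116 at h
  rcases brec_true h with h | h
  · rcases brec_true h with h | h
    · exact mRel_good (T := T) hM0 [Lt.a, Lt.b, Lt.di, Lt.ai, Lt.di, Lt.a, Lt.b, Lt.d, Lt.a, Lt.d, Lt.bi] [Lt.di, Lt.a] (pat hy (rf_6 hy) 6 rfl) h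
    · rcases brec_true h with h | h
      · exact mRel_good (T := T) hM0 [Lt.b, Lt.b, Lt.a, Lt.bi, Lt.di, Lt.bi, Lt.a, Lt.bi, Lt.d] [Lt.di, Lt.bi, Lt.a, Lt.bi] (pat hy (rf_5 hy) 4 rfl) h
      · exact mRel_good (T := T) hM0 [Lt.di, Lt.bi, Lt.ai] [Lt.a, Lt.d, Lt.bi, Lt.ai, Lt.d, Lt.a, Lt.b, Lt.di, Lt.ai, Lt.di] (pat hy (rb_6 hy) 12 rfl) h
  · rcases brec_true h with h | h
    · exact mRel_good (T := T) hM0 [Lt.bi, Lt.bi, Lt.di, Lt.bi, Lt.a, Lt.bi, Lt.di, Lt.b, Lt.ai, Lt.b, Lt.d] [Lt.a, Lt.bi] (pat hy (rb_5 hy) 7 rfl) h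
    · rcases brec_true h with h | h
      · exact mRel_good (T := T) hM0 [Lt.di, Lt.di] [Lt.d] (pat hy (rb_0 hy) 0 rfl) h
      · exact mRel_good (T := T) hM0 [Lt.a, Lt.di, Lt.ai] [Lt.b, Lt.a, Lt.a, Lt.di, Lt.b, Lt.a, Lt.a] (pat hy (rb_4 hy) 8 rfl) h
theorem dM_117_s (hy : Hy g H) (j z1 z2 u : ℕ) (h : dM_117 j z1 z2 u = true) : GdM g H u := by
  unfold dM_117 at h
  rcases brec_true h with h | h
  · rcases brec_true h with h | h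
    · exact mRel_good (T := T) hM0 [Lt.ai, Lt.bi, Lt.a, Lt.di, Lt.ai, Lt.ai, Lt.ai] [Lt.a, Lt.di, Lt.b] (pat hy (rb_4 hy) 6 rfl) h
    · rcases brec_true h with h | h
      · exact mRel_good (T := T) hM0 [Lt.a] [Lt.bi, Lt.a, Lt.bi, Lt.a, Lt.a, Lt.b, Lt.ai, Lt.b] (pat hy (rb_3 hy) 3 rfl) h
      · exact mRel_good (T := T) hM0 [Lt.ai, Lt.ai, Lt.ai, Lt.bi, Lt.d, Lt.ai, Lt.ai, Lt.bi, Lt.a] [Lt.d] (pat hy (rb_4 hy) 0 rfl) h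
  · rcases brec_true h with h | h
    · rcases brec_true h with h | h
      · exact mRel_good (T := T) hM0 [Lt.bi, Lt.ai, Lt.di, Lt.a, Lt.b, Lt.di, Lt.ai, Lt.di, Lt.bi] [Lt.di, Lt.ai, Lt.di, Lt.a] (pat hy (rb_6 hy) 5 rfl) h
      · exact mRel_good (T := T) hM0 [Lt.ai, Lt.b, Lt.a, Lt.a, Lt.di, Lt.b, Lt.a, Lt.a] [Lt.di, Lt.ai] (pat hy (rf_4 hy) 1 rfl) h
    · rcases brec_true h with h | h
      · exact mRel_good (T := T) hM0 [Lt.a, Lt.d] [Lt.di, Lt.bi, Lt.ai, Lt.d, Lt.a, Lt.d, Lt.bi, Lt.ai, Lt.di, Lt.a, Lt.b] (pat hy (rf_6 hy) 1 rfl) h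
      · exact mRel_good (T := T) hM0 [Lt.d, Lt.b, Lt.ai, Lt.bi, Lt.bi] [Lt.bi, Lt.a, Lt.bi, Lt.d, Lt.b, Lt.ai, Lt.b, Lt.d] (pat hy (rb_5 hy) 4 rfl) h
theorem dM_118_s (hy : Hy g H) (j z1 z2 u : ℕ) (h : dM_118 j z1 z2 u = true) : GdM g H u := by
  unfold dM_118 at h
  rcases brec_true h with h | h
  · exact dM_116_s hy j z1 z2 u h
  · exact dM_117_s hy j z1 z2 u h
theorem dM_119_s (hy : Hy g H) (j z1 z2 u : ℕ) (h : dM_119 j z1 z2 u = true) : GdM g H u := by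
  unfold dM_119 at h
  rcases brec_true h with h | h
  · exact dM_115_s hy j z1 z2 u h
  · exact dM_118_s hy j z1 z2 u h
theorem dM_120_s (hy : Hy g H) (j z1 z2 u : ℕ) (h : dM_120 j z1 z2 u = true) : GdM g H u := by
  unfold dM_120 at h
  rcases brec_true h with h | h
  · exact dM_112_s hy j z1 z2 u h
  · exact dM_119_s hy j z1 z2 u h
theorem dM_121_s (hy : Hy g H) (j z1 z2 u : ℕ) (h : dM_121 j z1 z2 u = true) : GdM g H u := by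
  unfold dM_121 at h
  rcases brec_true h with h | h
  · exact dM_107_s hy j z1 z2 u h
  · exact dM_120_s hy j z1 z2 u h
theorem dM_122_s (hy : Hy g H) (j z1 z2 u : ℕ) (h : dM_122 j z1 z2 u = true) : GdM g H u := by
  unfold dM_122 at h
  rcases brec_true h with h | h
  · exact dM_96_s hy j z1 z2 u h
  · exact dM_121_s hy j z1 z2 u h
theorem dM_123_s (hy : Hy g H) (j z1 z2 u : ℕ) (h : dM_123 j z1 z2 u = true) : GdM g H u := by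
  unfold dM_123 at h
  rcases brec_true h with h | h
  · exact dM_71_s hy j z1 z2 u h
  · exact dM_122_s hy j z1 z2 u h
theorem dM_124_s (hy : Hy g H) (j z1 z2 u : ℕ) (h : dM_124 j z1 z2 u = true) : GdM g H u := by
  unfold dM_124 at h
  rcases brec_true h with h | h
  · exact dM_40_s hy j z1 z2 u h
  · exact dM_123_s hy j z1 z2 u h
theorem dM_125_s (hy : Hy g H) (j z1 z2 u : ℕ) (h : dM_125 j z1 z2 u = true) : GdM g H u := by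
  unfold dM_125 at h
  rcases brec_true h with h | h
  · exact dM_17_s hy j z1 z2 u h
  · exact dM_124_s hy j z1 z2 u h
theorem dM_126_s (hy : Hy g H) (j z1 z2 u : ℕ) (h : dM_126 j z1 z2 u = true) : GdM g H u := by
  unfold dM_126 at h
  rcases brec_true h with h | h
  · exact dM_0_s hy j z1 z2 u h
  · exact dM_125_s hy j z1 z2 u h
theorem sndM (hy : Hy g H) (u : ℕ) (h : chkM u = true) :
    MG u < A → MG u % M < u ∧ GdM g H u := by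
  intro hA
  unfold chkM at h
  cases hb : Nat.ble A (MG u) with
  | true => exact absurd (le_of_ble hb) (by omega)
  | false =>
    rw [hb] at h
    obtain ⟨h1, h2⟩ := band_eq_true.1 h
    exact ⟨le_of_ble h1, dM_126_s hy _ _ _ _ h2⟩
theorem sndN (hy : Hy g H)
    (u : ℕ) (hu : u < M) (h : chkP u = true) : (∀ x, (T x u < A ∧ Gd g H x u) ∨ (A ≤ T x u ∧ MG u < A)) ∧ (MG u < A → MG u % M < u ∧ GdM g H u) := by
  unfold chkP at h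
  cases hb : Nat.ble M u with
  | true => exact absurd (le_of_ble hb) (by omega)
  | false =>
    rw [hb] at h
    change chkN u = true at h
    unfold chkN at h
    obtain ⟨h0, h⟩ := band_eq_true.1 h
    obtain ⟨h1, h⟩ := band_eq_true.1 h
    obtain ⟨h2, h⟩ := band_eq_true.1 h
    obtain ⟨h3, h⟩ := band_eq_true.1 h
    obtain ⟨h4, h⟩ := band_eq_true.1 h
    obtain ⟨h5, h⟩ := band_eq_true.1 h
    refine ⟨?_, sndM hy u h⟩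
    intro x
    cases x
    · exact snc_a hy _ u hu h0
    · exact snc_ai hy _ u hu h1
    · exact snc_b hy _ u hu h2
    · exact snc_bi hy _ u hu h3
    · exact snc_d hy _ u hu h4
    · exact snc_di hy _ u hu h5
theorem final (hinv : ∀ x, g (inv x) = (g x)⁻¹) (hr : ∀ r ∈ rels, (r.map g).prod = 1) (hH : ∀ r ∈ subs, (r.map g).prod ∈ H)
    (hall : ∀ u, u < M → chkP u = true) (hc : cntB liveP 14 0 = 10560) :
    H.relIndex (Subgroup.closure (Set.range g)) ≤ 10560 ∧ H.relIndex (Subgroup.closure (Set.range g)) ≠ 0 := by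
  have hn := fun u hu => sndN ⟨hinv, hr, hH⟩ u hu (hall u hu)
  have h1 : ∀ x u, u < M → T x u < A → Good (fa g) T MG M (cP g H) x u := by
    intro x u hu hx
    rcases (hn u hu).1 x with h | h
    · exact h.2
    · exact absurd h.1 (by omega)
  have h2 : ∀ u, u < M → MG u < A → GoodM (fa g) T MG M (cP g H) u := fun u hu h => ((hn u hu).2 h).2
  refine relIndex_le (M := M) (A := A) (T := T) (MG := MG) (c := cP g H) (by decide) cc_zero (sound_of_good h1 h2) ?_ ?_ ?_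
  · intro u hu h
    exact ((hn u hu).2 h).1
  · intro x u hu h
    rcases (hn u hu).1 x with h' | h'
    · exact h'.1
    · exact absurd h'.2 (by omega)
  · rw [← hc, ← cntB_spec]
    apply Finset.card_le_card
    intro u
    simp only [Finset.mem_filter, Finset.mem_Ico]
    rintro ⟨⟨_, h3⟩, h4⟩
    refine ⟨⟨Nat.zero_le _, lt_of_lt_of_le h3 (by decide)⟩, ?_⟩
    unfold liveP
    cases hb : Nat.ble M u with
    | true => exact absurd (le_of_ble hb) (by omega)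
    | false => exact h4
end
end H35.TCM22A
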